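import Mathlib
import Cfsg.Agent.H82.JxDefs

/-!
# JX-SQ (piece of the existence of a `J(T)`-component, clause `|W_K| = 4`)

An elementary abelian 2-group `Y` with a fixed-point-free automorphism `x` of order dividing 3
and an involutory automorphism `a` inverting `x` has `|Y| = |C_Y(a)|²` and
`Y = C_Y(a) · x C_Y(a) x⁻¹`.
-/

set_option autoImplicit false
open Cfsg

namespace Cfsg.Agent.H12.Jx

universe u

/-- JX-SQ. -/
theorem sq : Cfsg.Agent.H82.Jx.StSq.{u} := by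
  intro G _ _ Y a x hc h2 ha hx ha2 hx3 hax hxf
  set D : Subgroup G := Y ⊓ Subgroup.centralizer ({a} : Set G) with hD
  have hDY : ∀ u ∈ D, u ∈ Y := fun u hu => hu.1
  have hDa : ∀ u ∈ D, a * u * a⁻¹ = u := by
    intro u hu
    have h1 : u ∈ Subgroup.centralizer ({a} : Set G) := hu.2
    rw [Subgroup.mem_centralizer_iff] at h1
    have h := h1 a (Set.mem_singleton a)
    calc a * u * a⁻¹ = u * a * a⁻¹ := by rw [h]
      _ = u := by group
  have hmemD : ∀ u ∈ Y, a * u * a⁻¹ = u → u ∈ D := by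
    intro u hu h
    refine ⟨hu, ?_⟩
    show u ∈ Subgroup.centralizer ({a} : Set G)
    rw [Subgroup.mem_centralizer_iff]
    intro b hb
    rw [Set.mem_singleton_iff] at hb
    subst hb
    calc b * u = (b * u * b⁻¹) * b := by group
      _ = u * b := by rw [h]
  -- `D ∩ x D x⁻¹ = 1`
  have key : ∀ w ∈ D, ∀ v ∈ D, w = x * v * x⁻¹ → v = 1 := by
    intro w hw v hv hwv
    have h1 : a * w * a⁻¹ = w := hDa w hw
    have h3 : a * (x * v * x⁻¹) * a⁻¹ = x⁻¹ * (a * v * a⁻¹) * x := hax v (hDY v hv)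
    rw [hDa v hv, ← hwv, h1] at h3
    have h4 : x * v * x⁻¹ = x⁻¹ * v * x := by rw [← hwv]; exact h3
    have h5 := hx3 v (hDY v hv)
    apply hxf v (hDY v hv)
    have h6 : x * (x * v * x⁻¹) * x⁻¹ = v := by rw [h4]; group
    rw [h6] at h5
    exact h5
  -- the injection `D × D → Y`
  let φ : ↥D × ↥D → ↥Y := fun p =>
    ⟨p.1.1 * (x * p.2.1 * x⁻¹), mul_mem (hDY _ p.1.2) (hx _ (hDY _ p.2.2))⟩
  have hφ : Function.Injective φ := by
    rintro ⟨⟨u, hu⟩, ⟨v, hv⟩⟩ ⟨⟨u', hu'⟩, ⟨v', hv'⟩⟩ h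
    simp only [φ, Subtype.mk.injEq] at h
    have hw : u'⁻¹ * u = x * (v' * v⁻¹) * x⁻¹ := by
      have h' : u = u' * (x * v' * x⁻¹) * (x * v * x⁻¹)⁻¹ := by rw [← h]; group
      rw [h']; group
    have hv1 := key (u'⁻¹ * u) (mul_mem (inv_mem hu') hu) (v' * v⁻¹)
      (mul_mem hv' (inv_mem hv)) hw
    have hvv : v' = v := by rw [mul_inv_eq_one] at hv1; exact hv1
    subst hvv
    have huu : u = u' := mul_right_cancel h
    subst huu
    rfl
  have hle1 : Nat.card ↥D * Nat.card ↥D ≤ Nat.card ↥Y := by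
    rw [← Nat.card_prod]
    exact Nat.card_le_card_of_injective φ hφ
  -- the homomorphism `y ↦ y · a y a⁻¹`
  let ψ : ↥Y →* ↥Y :=
    { toFun := fun y => ⟨y.1 * (a * y.1 * a⁻¹), mul_mem y.2 (ha _ y.2)⟩
      map_one' := by ext; simp
      map_mul' := by
        intro y z
        ext
        simp only [Subgroup.coe_mul]
        have h := hc z.1 z.2 (a * y.1 * a⁻¹) (ha _ y.2)
        calc y.1 * z.1 * (a * (y.1 * z.1) * a⁻¹)
            = y.1 * (z.1 * (a * y.1 * a⁻¹)) * (a * z.1 * a⁻¹) := by group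
          _ = y.1 * ((a * y.1 * a⁻¹) * z.1) * (a * z.1 * a⁻¹) := by rw [h]
          _ = y.1 * (a * y.1 * a⁻¹) * (z.1 * (a * z.1 * a⁻¹)) := by group }
  have hψ : ∀ y : ↥Y, (ψ y).1 = y.1 * (a * y.1 * a⁻¹) := fun y => rfl
  have hψD : ∀ y : ↥Y, (ψ y).1 ∈ D := by
    intro y
    apply hmemD _ (ψ y).2
    rw [hψ]
    calc a * (y.1 * (a * y.1 * a⁻¹)) * a⁻¹
        = (a * y.1 * a⁻¹) * (a * (a * y.1 * a⁻¹) * a⁻¹) := by group
      _ = (a * y.1 * a⁻¹) * y.1 := by rw [ha2 _ y.2]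
      _ = y.1 * (a * y.1 * a⁻¹) := hc _ (ha _ y.2) _ y.2
  have hkerD : ∀ y : ↥Y, y ∈ ψ.ker → y.1 ∈ D := by
    intro y hy
    apply hmemD _ y.2
    rw [MonoidHom.mem_ker] at hy
    have h1 : y.1 * (a * y.1 * a⁻¹) = 1 := by
      rw [← hψ, hy]; rfl
    have h3 := h2 _ y.2
    calc a * y.1 * a⁻¹ = y.1⁻¹ * (y.1 * (a * y.1 * a⁻¹)) := by group
      _ = y.1⁻¹ * (y.1 * y.1) := by rw [h1, h3]
      _ = y.1 := by group
  have hcard : Nat.card ↥ψ.ker * Nat.card ↥ψ.range = Nat.card ↥Y := by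
    rw [← Subgroup.index_ker, Subgroup.card_mul_index]
  have hk : Nat.card ↥ψ.ker ≤ Nat.card ↥D := by
    apply Nat.card_le_card_of_injective (fun k : ↥ψ.ker => (⟨k.1.1, hkerD k.1 k.2⟩ : ↥D))
    intro k k' h
    simp only [Subtype.mk.injEq] at h
    exact Subtype.ext (Subtype.ext h)
  have hr : Nat.card ↥ψ.range ≤ Nat.card ↥D := by
    apply Nat.card_le_card_of_injective (fun k : ↥ψ.range => (⟨k.1.1, by
      obtain ⟨y, hy⟩ := k.2
      rw [← hy]; exact hψD y⟩ : ↥D))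
    intro k k' h
    simp only [Subtype.mk.injEq] at h
    exact Subtype.ext (Subtype.ext h)
  have hle2 : Nat.card ↥Y ≤ Nat.card ↥D * Nat.card ↥D := by
    rw [← hcard]
    exact Nat.mul_le_mul hk hr
  have hbij : Function.Bijective φ := by
    apply hφ.bijective_of_nat_card_le
    rw [Nat.card_prod]
    exact hle2
  refine ⟨?_, ?_⟩
  · rw [pow_two]
    exact le_antisymm hle2 hle1
  · intro y hy
    obtain ⟨⟨⟨u, hu⟩, ⟨v, hv⟩⟩, h⟩ := hbij.2 ⟨y, hy⟩
    refine ⟨u, hu, v, hv, ?_⟩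
    have := congrArg Subtype.val h
    exact this.symm

end Cfsg.Agent.H12.Jx

universe u in
example : Cfsg.Agent.H82.Jx.StSq.{u} := Cfsg.Agent.H12.Jx.sq.{u}
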