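import Mathlib
import Cfsg.Agent.H66.SpDefs
import Cfsg.Agent.H37.SpDefs
import Cfsg.Agent.H14.Thompson
import Cfsg.Agent.H51.Amalgam

/-!
# SP-CONJG / SP-WCONJ / SP-JCONJ (pieces of S2944): transport by conjugation with any element

Every clause of `IsJComponent T K` is transported by the inner automorphism of an arbitrary
`g : G`, when both `T` and `K` are conjugated.
-/

set_option autoImplicit false
open Cfsg

namespace Cfsg.Agent.H12.Sp

universe u

/-- `W` commutes with conjugation. -/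
theorem wOf_conj_map {G : Type u} [Group G] (K : Subgroup G) (t : G) :
    wOf (K.map (MulAut.conj t).toMonoidHom) = (wOf K).map (MulAut.conj t).toMonoidHom := by
  unfold wOf
  rw [Subgroup.map_commutator, Cfsg.Agent.H51.pCoreOf_map 2 K (MulAut.conj t)]
  congr 1
  exact (Cfsg.Agent.H14.omegaOne_center_conj 2 t (pCoreOf 2 K)).symm

/-- Mapping back and forth by conjugation. -/
theorem map_conj_conj_inv {G : Type u} [Group G] (K : Subgroup G) (t : G) :
    (K.map (MulAut.conj t).toMonoidHom).map (MulAut.conj t⁻¹).toMonoidHom = K := by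
  rw [Subgroup.map_map]
  have : (MulAut.conj t⁻¹).toMonoidHom.comp (MulAut.conj t).toMonoidHom = MonoidHom.id G := by
    ext x
    simp only [MonoidHom.comp_apply, MulEquiv.coe_toMonoidHom, MulAut.conj_apply, MonoidHom.id_apply]
    group
  rw [this, Subgroup.map_id]

/-- Conjugates of `J(T)`-components are `J(T^g)`-components. -/
theorem isJComponent_conj {G : Type u} [Group G] [Finite G] (T K : Subgroup G) (t : G)
    (hJ : IsJComponent T K) :
    IsJComponent (T.map (MulAut.conj t).toMonoidHom) (K.map (MulAut.conj t).toMonoidHom) := by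
  have hinj : Function.Injective (MulAut.conj t).toMonoidHom := (MulAut.conj t).injective
  have hinj' : Function.Injective (MulAut.conj t⁻¹).toMonoidHom := (MulAut.conj t⁻¹).injective
  have hJmap : (thompsonSubgroupOf 2 T).map (MulAut.conj t).toMonoidHom =
      thompsonSubgroupOf 2 (T.map (MulAut.conj t).toMonoidHom) :=
    Cfsg.Agent.H14.thompsonSubgroupOf_conj 2 t T
  have hJmap' : (thompsonSubgroupOf 2 (T.map (MulAut.conj t).toMonoidHom)).map
      (MulAut.conj t⁻¹).toMonoidHom = thompsonSubgroupOf 2 T := by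
    rw [← hJmap, map_conj_conj_inv]
  obtain ⟨h1, h2, h3, h4, h5, h6⟩ := hJ
  refine ⟨?_, ?_, ?_, ?_, ?_, ?_⟩
  · -- generated by elements of odd order
    conv_rhs => rw [← h1, MonoidHom.map_closure]
    congr 1
    ext y
    simp only [Set.mem_image, Set.mem_ofPred_eq, Subgroup.mem_map]
    constructor
    · rintro ⟨⟨x, hx, rfl⟩, ho⟩
      exact ⟨x, ⟨hx, by rwa [orderOf_injective _ hinj] at ho⟩, rfl⟩
    · rintro ⟨x, ⟨hx, ho⟩, rfl⟩
      exact ⟨⟨x, hx, rfl⟩, by rwa [orderOf_injective _ hinj]⟩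
  · -- `[K, J] = K`
    conv_lhs => rw [← hJmap, ← Subgroup.map_commutator, h2]
  · -- index 3
    rw [Cfsg.Agent.H51.pCoreOf_map 2 K (MulAut.conj t),
      Subgroup.relIndex_map_map_of_injective _ _ hinj, h3]
  · -- Sylow clause
    intro S hS hJS
    obtain ⟨hS1, hS2, hS3⟩ := hS
    have hsup : (K.map (MulAut.conj t).toMonoidHom ⊔
        thompsonSubgroupOf 2 (T.map (MulAut.conj t).toMonoidHom)).map
        (MulAut.conj t⁻¹).toMonoidHom = K ⊔ thompsonSubgroupOf 2 T := by
      rw [Subgroup.map_sup, map_conj_conj_inv, hJmap']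
    have hS' : IsSylowTwoIn (S.map (MulAut.conj t⁻¹).toMonoidHom) (K ⊔ thompsonSubgroupOf 2 T) := by
      refine ⟨?_, hS2.map _, ?_⟩
      · rw [← hsup]; exact Subgroup.map_mono hS1
      · rw [← hsup, Subgroup.relIndex_map_map_of_injective _ _ hinj']; exact hS3
    have hJS' : thompsonSubgroupOf 2 T ≤ S.map (MulAut.conj t⁻¹).toMonoidHom := by
      conv_lhs => rw [← hJmap']
      exact Subgroup.map_mono hJS
    have h7 := h4 _ hS' hJS'
    rw [← Cfsg.Agent.H14.thompsonSubgroupOf_conj 2 t⁻¹ S] at h7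
    conv_rhs at h7 => rw [← hJmap']
    exact Subgroup.map_injective hinj' h7
  · rw [wOf_conj_map, Subgroup.card_map_of_injective hinj, h5]
  · rw [wOf_conj_map]
    rintro _ ⟨w, hw, rfl⟩
    rw [← map_mul, h6 w hw, map_one]

/-- SP-CONJG (helper66). -/
theorem conjG : Cfsg.Agent.H66.Sp.StConjG.{u} := by
  intro G _ _ T K g
  exact ⟨(Cfsg.Agent.H14.thompsonSubgroupOf_conj 2 g T).symm, wOf_conj_map K g,
    isJComponent_conj T K g⟩

/-- SP-WCONJ (helper37). -/
theorem wconj : Cfsg.Agent.H37.Sp.StWConj.{u} := by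
  intro G _ _ K g
  exact wOf_conj_map K g

/-- SP-JCONJ (helper37), hypothesis-free version. -/
theorem jconj' : Cfsg.Agent.H37.Sp.StJConj.{u} := by
  intro G _ _ T K g hJ
  exact isJComponent_conj T K g hJ

/-- SP-JCONJ (helper37), in the posted form. -/
theorem jconj (_hW : Cfsg.Agent.H37.Sp.StWConj.{u}) : Cfsg.Agent.H37.Sp.StJConj.{u} := jconj'

end Cfsg.Agent.H12.Sp

universe u in
example : Cfsg.Agent.H66.Sp.StConjG.{u} := Cfsg.Agent.H12.Sp.conjG.{u}
universe u in
example : Cfsg.Agent.H37.Sp.StWConj.{u} := Cfsg.Agent.H12.Sp.wconj.{u}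
universe u in
example (hW : Cfsg.Agent.H37.Sp.StWConj.{u}) : Cfsg.Agent.H37.Sp.StJConj.{u} :=
  Cfsg.Agent.H12.Sp.jconj.{u} hW
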