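import Mathlib
import Cfsg.Agent.Lib.Helper30.BG12TDefs

set_option autoImplicit false

/-!
# BG12T-EXTRA (helper12, for helper30's S1422 project)

A nonabelian subgroup `P₁` of order `p³` and exponent `p`: its centre `Z` has order `p`; for a
noncentral `u ∈ P₁` the subgroup `⟨u⟩ Z` is elementary abelian of order `p²`, and each of its
subgroups of order `p` is `Z` or a `P₁`-conjugate of `⟨u⟩`.
-/

namespace Cfsg.Agent.H12.BG12T

open Cfsg Subgroup Cfsg.Agent.H58.BG10 Cfsg.Agent.H57.BG12 Cfsg.Agent.Lib.Helper30.BG12T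

universe u

variable {G : Type u} [Group G]

/-- A subgroup of prime order is generated by each of its nontrivial elements of order
dividing `p`. -/
theorem extra_zpowers_eq {p : ℕ} [Fact p.Prime] {A : Subgroup G} (hA : Nat.card A = p) {a : G}
    (ha : a ∈ A) (ha1 : a ≠ 1) (hap : a ^ p = 1) : zpowers a = A := by
  have hp : p.Prime := Fact.out
  have : Finite A := Nat.finite_of_card_ne_zero (by rw [hA]; exact hp.ne_zero)
  refine Subgroup.eq_of_le_of_card_ge (zpowers_le.2 ha) ?_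
  rw [Nat.card_zpowers, orderOf_eq_prime hap ha1, hA]

/-- The centre of a nonabelian group of order `p³` has order `p`. -/
theorem extra_card_center {H : Type*} [Group H] {p : ℕ} [Fact p.Prime]
    (hc : Nat.card H = p ^ 3) (hnc : ¬ ∀ a b : H, a * b = b * a) :
    Nat.card (center H) = p := by
  have hp : p.Prime := Fact.out
  have : Finite H := Nat.finite_of_card_ne_zero (by rw [hc]; exact pow_ne_zero _ hp.ne_zero)
  have hPG : IsPGroup p H := IsPGroup.of_card hc
  have : Nontrivial H := by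
    rw [← Finite.one_lt_card_iff_nontrivial, hc]
    exact Nat.one_lt_pow (by norm_num) hp.one_lt
  have hnt : Nontrivial (center H) := hPG.center_nontrivial
  have hdvd : Nat.card (center H) ∣ p ^ 3 := hc ▸ Subgroup.card_subgroup_dvd_card _
  obtain ⟨k, hk, hk'⟩ := (Nat.dvd_prime_pow hp).1 hdvd
  have hidx : Nat.card (center H) * (center H).index = p ^ 3 := by
    rw [Subgroup.card_mul_index, hc]
  interval_cases k
  · exfalso
    have h1 := Finite.one_lt_card_iff_nontrivial.2 hnt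
    rw [hk'] at h1
    simp at h1
  · simpa using hk'
  · exfalso
    apply hnc
    have hi : (center H).index = p := by
      rw [hk'] at hidx
      have h2 : p ^ 2 * (center H).index = p ^ 2 * p := by rw [hidx]; ring
      exact Nat.eq_of_mul_eq_mul_left (pow_pos hp.pos 2) h2
    have hq : Nat.card (H ⧸ center H) = p := hi
    have : IsCyclic (H ⧸ center H) := isCyclic_of_prime_card hq
    exact ((QuotientGroup.mk' (center H)).isMulCommutative_of_isCyclic_of_ker_le_center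
      (by rw [QuotientGroup.ker_mk'])).is_comm.comm
  · exfalso
    apply hnc
    have htop : center H = ⊤ := (Subgroup.card_eq_iff_eq_top _).1 (by rw [hk', hc])
    intro a b
    have hb : b ∈ center H := htop ▸ mem_top b
    exact Subgroup.mem_center_iff.1 hb a

/-- In a group of order `p³` with centre of order `p`, commutators are central. -/
theorem extra_comm_mem_center {H : Type*} [Group H] {p : ℕ} [Fact p.Prime]
    (hc : Nat.card H = p ^ 3) (hZ : Nat.card (center H) = p) (a b : H) :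
    a * b * a⁻¹ * b⁻¹ ∈ center H := by
  have hp : p.Prime := Fact.out
  have hidx : Nat.card (center H) * (center H).index = p ^ 3 := by
    rw [Subgroup.card_mul_index, hc]
  have hi : (center H).index = p ^ 2 := by
    rw [hZ] at hidx
    have h2 : p * (center H).index = p * p ^ 2 := by rw [hidx]; ring
    exact Nat.eq_of_mul_eq_mul_left hp.pos h2
  have hq : Nat.card (H ⧸ center H) = p ^ 2 := hi
  have h := (IsPGroup.isMulCommutative_of_card_eq_prime_sq hq).is_comm.comm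
    (QuotientGroup.mk a : H ⧸ center H) (QuotientGroup.mk b)
  rw [← QuotientGroup.eq_one_iff]
  have h3 : ((a * b * a⁻¹ * b⁻¹ : H) : H ⧸ center H)
      = (a : H ⧸ center H) * (b : H ⧸ center H) * (a : H ⧸ center H)⁻¹
        * (b : H ⧸ center H)⁻¹ := rfl
  rw [h3, h]
  group

/-- `P₁ ∩ C_G(P₁)` is the image of the centre of `↥P₁`. -/
theorem extra_Z_eq (P₁ : Subgroup G) :
    P₁ ⊓ centralizer (P₁ : Set G) = (center ↥P₁).map P₁.subtype := by
  ext x
  constructor
  · intro hx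
    obtain ⟨hx1, hx2⟩ := Subgroup.mem_inf.1 hx
    refine ⟨⟨x, hx1⟩, ?_, rfl⟩
    rw [SetLike.mem_coe, Subgroup.mem_center_iff]
    intro g
    apply Subtype.ext
    exact (mem_centralizer_iff.1 hx2) g.1 g.2
  · rintro ⟨x', hx', rfl⟩
    refine Subgroup.mem_inf.2 ⟨x'.2, ?_⟩
    rw [mem_centralizer_iff]
    intro g hg
    have h1 := Subgroup.mem_center_iff.1 hx' ⟨g, hg⟩
    exact congrArg Subtype.val h1

/-- **BG12T-EXTRA.** -/
theorem extra [Finite G] : StExtra G := by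
  intro p _ P₁ hc hexp hnc
  have hp : p.Prime := Fact.out
  have hZeq := extra_Z_eq P₁
  have hnc' : ¬ ∀ a b : ↥P₁, a * b = b * a := fun h => hnc ⟨⟨h⟩⟩
  have hcen : Nat.card (center ↥P₁) = p := extra_card_center hc hnc'
  have hZcard : Nat.card ↥(P₁ ⊓ centralizer (P₁ : Set G)) = p := by
    rw [hZeq, ← hcen]
    exact (Nat.card_congr
      ((center ↥P₁).equivMapOfInjective _ (Subgroup.subtype_injective _)).toEquiv).symm
  have hcomm : ∀ a ∈ P₁, ∀ b ∈ P₁, a * b * a⁻¹ * b⁻¹ ∈ P₁ ⊓ centralizer (P₁ : Set G) := by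
    intro a ha b hb
    rw [hZeq]
    exact ⟨_, extra_comm_mem_center hc hcen ⟨a, ha⟩ ⟨b, hb⟩, rfl⟩
  have hZP : P₁ ⊓ centralizer (P₁ : Set G) ≤ P₁ := inf_le_left
  have hZc : ∀ z ∈ P₁ ⊓ centralizer (P₁ : Set G), ∀ g ∈ P₁, g * z = z * g :=
    fun z hz g hg => (mem_centralizer_iff.1 (Subgroup.mem_inf.1 hz).2) g hg
  refine ⟨hZcard, ?_⟩
  intro u hu hunc
  have hu1 : u ≠ 1 := by rintro rfl; exact hunc (one_mem _)
  have hup : u ^ p = 1 := hexp u hu
  have hUcard : Nat.card (zpowers u) = p := by rw [Nat.card_zpowers, orderOf_eq_prime hup hu1]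
  have huZ : u ∉ P₁ ⊓ centralizer (P₁ : Set G) := fun h => hunc (Subgroup.mem_inf.1 h).2
  have hUP : zpowers u ≤ P₁ := zpowers_le.2 hu
  have hdisj : Disjoint (zpowers u) (P₁ ⊓ centralizer (P₁ : Set G)) := by
    rw [disjoint_iff_inf_le]
    intro x hx
    obtain ⟨hx1, hx2⟩ := Subgroup.mem_inf.1 hx
    rw [Subgroup.mem_bot]
    by_contra hx0
    have h1 : zpowers x = zpowers u := extra_zpowers_eq hUcard hx1 hx0 (hexp x (hUP hx1))
    exact huZ ((h1 ▸ (zpowers_le.2 hx2 : zpowers x ≤ _)) (mem_zpowers u))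
  have hcm : ∀ (m : ↥(zpowers u)) (n : ↥(P₁ ⊓ centralizer (P₁ : Set G))),
      Commute ((zpowers u).subtype m) ((P₁ ⊓ centralizer (P₁ : Set G)).subtype n) :=
    fun m n => hZc n.1 n.2 m.1 (hUP m.2)
  have hφr : (MonoidHom.noncommCoprod (zpowers u).subtype
      (P₁ ⊓ centralizer (P₁ : Set G)).subtype hcm).range
        = zpowers u ⊔ (P₁ ⊓ centralizer (P₁ : Set G)) := by
    rw [MonoidHom.noncommCoprod_range, Subgroup.range_subtype, Subgroup.range_subtype]
  have hφi : Function.Injective (MonoidHom.noncommCoprod (zpowers u).subtype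
      (P₁ ⊓ centralizer (P₁ : Set G)).subtype hcm) :=
    (MonoidHom.noncommCoprod_injective _ _ _).2
      ⟨Subgroup.subtype_injective _, Subgroup.subtype_injective _, by
        rwa [Subgroup.range_subtype, Subgroup.range_subtype]⟩
  have hWmem : ∀ w ∈ zpowers u ⊔ (P₁ ⊓ centralizer (P₁ : Set G)),
      ∃ i : ℤ, ∃ z ∈ P₁ ⊓ centralizer (P₁ : Set G), w = u ^ i * z := by
    intro w hw
    rw [← hφr] at hw
    obtain ⟨⟨a, z⟩, rfl⟩ := hw
    obtain ⟨i, hi⟩ := mem_zpowers_iff.1 a.2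
    exact ⟨i, z.1, z.2, by rw [MonoidHom.noncommCoprod_apply, hi]; rfl⟩
  have huzc : ∀ (i : ℤ), ∀ z ∈ P₁ ⊓ centralizer (P₁ : Set G), u ^ i * z = z * u ^ i :=
    fun i z hz => hZc z hz _ (P₁.zpow_mem hu i)
  have hWcard : Nat.card ↥(zpowers u ⊔ (P₁ ⊓ centralizer (P₁ : Set G))) = p ^ 2 := by
    rw [← hφr, ← Nat.card_congr (MonoidHom.ofInjective hφi).toEquiv, Nat.card_prod, hUcard,
      hZcard, sq]
  have hWexp : ∀ a ∈ zpowers u ⊔ (P₁ ⊓ centralizer (P₁ : Set G)), a ^ p = 1 := by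
    intro a ha
    obtain ⟨i, z, hz, rfl⟩ := hWmem a ha
    rw [(show Commute (u ^ i) z from huzc i z hz).mul_pow, hexp _ (P₁.zpow_mem hu i),
      hexp z (hZP hz), one_mul]
  have hWcomm : IsMulCommutative ↥(zpowers u ⊔ (P₁ ⊓ centralizer (P₁ : Set G))) := by
    refine ⟨⟨fun a b => ?_⟩⟩
    obtain ⟨i, z₁, hz₁, h1⟩ := hWmem a.1 a.2
    obtain ⟨j, z₂, hz₂, h2⟩ := hWmem b.1 b.2
    apply Subtype.ext
    show a.1 * b.1 = b.1 * a.1
    rw [h1, h2]
    have e1 : z₁ * u ^ j = u ^ j * z₁ := (huzc j z₁ hz₁).symm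
    have e2 : z₂ * u ^ i = u ^ i * z₂ := (huzc i z₂ hz₂).symm
    have e3 : z₁ * z₂ = z₂ * z₁ := hZc z₂ hz₂ z₁ (hZP hz₁)
    have e4 : u ^ i * u ^ j = u ^ j * u ^ i := zpow_mul_comm u i j
    calc u ^ i * z₁ * (u ^ j * z₂) = u ^ i * (z₁ * u ^ j) * z₂ := by group
      _ = u ^ i * (u ^ j * z₁) * z₂ := by rw [e1]
      _ = (u ^ i * u ^ j) * (z₁ * z₂) := by group
      _ = (u ^ j * u ^ i) * (z₂ * z₁) := by rw [e4, e3]
      _ = u ^ j * (u ^ i * z₂) * z₁ := by group
      _ = u ^ j * (z₂ * u ^ i) * z₁ := by rw [e2]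
      _ = u ^ j * z₂ * (u ^ i * z₁) := by group
  refine ⟨⟨hWcomm, hWexp⟩, hWcard, ?_⟩
  -- conjugates of `u`
  have hconj : ∀ z' ∈ P₁ ⊓ centralizer (P₁ : Set G), ∃ t ∈ P₁, t * u * t⁻¹ = u * z' := by
    intro z' hz'
    have h1 : ∃ v ∈ P₁, ¬ v * u = u * v := by
      by_contra hcon
      apply hunc
      rw [mem_centralizer_iff]
      intro h hh
      by_contra hne
      exact hcon ⟨h, hh, hne⟩
    obtain ⟨v, hv, hvu⟩ := h1
    have hcZ := hcomm v hv u hu
    have hc1 : v * u * v⁻¹ * u⁻¹ ≠ 1 := by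
      intro h
      apply hvu
      have h2 : v * u * v⁻¹ * u⁻¹ * (u * v) = 1 * (u * v) := by rw [h]
      rw [one_mul] at h2
      rw [← h2]; group
    have hcz : zpowers (v * u * v⁻¹ * u⁻¹) = P₁ ⊓ centralizer (P₁ : Set G) :=
      extra_zpowers_eq hZcard hcZ hc1 (hexp _ (hZP hcZ))
    have hz'' : z' ∈ zpowers (v * u * v⁻¹ * u⁻¹) := hcz ▸ hz'
    obtain ⟨k, hk⟩ := mem_powers_iff_mem_zpowers.2 hz''
    have hk' : (v * u * v⁻¹ * u⁻¹) ^ k = z' := hk
    have hind : ∀ n : ℕ, v ^ n * u * (v ^ n)⁻¹ = (v * u * v⁻¹ * u⁻¹) ^ n * u := by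
      intro n
      induction n with
      | zero => simp
      | succ n ih =>
        have hcn : (v * u * v⁻¹ * u⁻¹) ^ n ∈ P₁ ⊓ centralizer (P₁ : Set G) :=
          Subgroup.pow_mem _ hcZ n
        have e1 : v * (v * u * v⁻¹ * u⁻¹) ^ n = (v * u * v⁻¹ * u⁻¹) ^ n * v := hZc _ hcn v hv
        calc v ^ (n + 1) * u * (v ^ (n + 1))⁻¹ = v * (v ^ n * u * (v ^ n)⁻¹) * v⁻¹ := by
              rw [pow_succ']; group
          _ = v * ((v * u * v⁻¹ * u⁻¹) ^ n * u) * v⁻¹ := by rw [ih]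
          _ = (v * (v * u * v⁻¹ * u⁻¹) ^ n) * (u * v⁻¹) := by group
          _ = ((v * u * v⁻¹ * u⁻¹) ^ n * v) * (u * v⁻¹) := by rw [e1]
          _ = (v * u * v⁻¹ * u⁻¹) ^ n * (v * u * v⁻¹ * u⁻¹) * u := by group
          _ = (v * u * v⁻¹ * u⁻¹) ^ (n + 1) * u := by rw [pow_succ]
    refine ⟨v ^ k, P₁.pow_mem hv k, ?_⟩
    rw [hind k, hk']
    exact (hZc z' hz' u hu).symm
  intro A₀ hA₀W hA₀card
  by_cases hA₀Z : A₀ ≤ P₁ ⊓ centralizer (P₁ : Set G)
  · left
    exact Subgroup.eq_of_le_of_card_ge hA₀Z (by rw [hZcard, hA₀card])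
  · right
    obtain ⟨a, haA, haZ⟩ := SetLike.not_le_iff_exists.1 hA₀Z
    obtain ⟨i, z, hz, rfl⟩ := hWmem a (hA₀W haA)
    have hpi : ¬ (p : ℤ) ∣ i := by
      intro hdvd
      apply haZ
      obtain ⟨m, rfl⟩ := hdvd
      rw [zpow_mul, zpow_natCast, hup, one_zpow, one_mul]
      exact hz
    have hcop : IsCoprime (p : ℤ) i :=
      (Nat.prime_iff_prime_int.1 hp).coprime_iff_not_dvd.2 hpi
    obtain ⟨m, j, hmj⟩ := hcop
    have hpow : (u ^ i * z) ^ j = u * z ^ j := by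
      rw [(show Commute (u ^ i) z from huzc i z hz).mul_zpow, ← zpow_mul]
      have e1 : i * j = 1 + (-m) * (p : ℤ) := by linarith
      rw [e1, zpow_add, zpow_one, zpow_mul, zpow_natCast, hexp _ (P₁.zpow_mem hu (-m)), mul_one]
    have hbA : u * z ^ j ∈ A₀ := hpow ▸ A₀.zpow_mem haA j
    have hzj : z ^ j ∈ P₁ ⊓ centralizer (P₁ : Set G) := Subgroup.zpow_mem _ hz j
    have hb1 : u * z ^ j ≠ 1 := by
      intro h
      apply huZ
      have h2 : u = (z ^ j)⁻¹ := eq_inv_of_mul_eq_one_left h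
      rw [h2]
      exact Subgroup.inv_mem _ hzj
    have hbz : zpowers (u * z ^ j) = A₀ :=
      extra_zpowers_eq hA₀card hbA hb1 (hWexp _ (hA₀W hbA))
    obtain ⟨t, ht, htu⟩ := hconj (z ^ j) hzj
    refine ⟨t, ht, ?_⟩
    rw [MonoidHom.map_zpowers, ← hbz]
    congr 1
    simp [MulAut.conj_apply, htu]

example [Finite G] : StExtra G := extra

end Cfsg.Agent.H12.BG12T
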