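import Mathlib
import Cfsg.Agent.Lib.Helper30.BG12TDefs
import Cfsg.Agent.S1337

set_option autoImplicit false

/-!
# BG12T-R3U (helper12, for helper30's S1423 project)

A Sylow `p`-subgroup `S` of rank at least `3` has a normal elementary abelian subgroup `U` of
order `p²` with `C_S(U)` of rank at least `3` (transport of S1337 from `↥S` to `G`).
-/

namespace Cfsg.Agent.H12.BG12T

open Cfsg Subgroup Cfsg.Agent.H58.BG10 Cfsg.Agent.H57.BG12 Cfsg.Agent.Lib.Helper30.BG12T

universe u

variable {G : Type u} [Group G] [Finite G]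

/-- `PRankLE` pulls back along injective homomorphisms. -/
theorem r3u_prankLE_of_injective {H K : Type*} [Group H] [Group K] (f : H →* K)
    (hf : Function.Injective f) {p k : ℕ} (h : PRankLE p k K) : PRankLE p k H := by
  intro A hA hexp
  have hcomm : IsMulCommutative (A.map f) := by
    refine ⟨⟨fun a b => ?_⟩⟩
    obtain ⟨a, ha⟩ := a
    obtain ⟨b, hb⟩ := b
    obtain ⟨a', ha', rfl⟩ := ha
    obtain ⟨b', hb', rfl⟩ := hb
    apply Subtype.ext
    have h1 : (⟨a', ha'⟩ : A) * ⟨b', hb'⟩ = ⟨b', hb'⟩ * ⟨a', ha'⟩ := hA.is_comm.comm _ _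
    have h2 : a' * b' = b' * a' := congrArg Subtype.val h1
    show f a' * f b' = f b' * f a'
    rw [← map_mul, ← map_mul, h2]
  have hexp' : ∀ a ∈ A.map f, a ^ p = 1 := by
    rintro _ ⟨a', ha', rfl⟩
    rw [← map_pow, hexp a' ha', map_one]
  have h1 := h (A.map f) hcomm hexp'
  rwa [← Nat.card_congr (A.equivMapOfInjective f hf).toEquiv] at h1

/-- **BG12T-R3U.** -/
theorem r3u : StR3U G := by
  intro p _ S hrk
  obtain ⟨U', hU'n, hU'e, hU'c, hU'x⟩ :=
    Cfsg.Agent.S1337.result (P := ↥(S : Subgroup G)) p S.2 hrk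
  have hcent := (hU'x U' hU'e (by rw [hU'c])).1 Relation.ReflTransGen.refl
  refine ⟨U'.map (S : Subgroup G).subtype, map_subtype_le U', ?_, ?_, ?_, ?_⟩
  · intro s hs
    rw [mem_normalizer_iff]
    intro y
    constructor
    · rintro ⟨y', hy', rfl⟩
      exact ⟨⟨s, hs⟩ * y' * ⟨s, hs⟩⁻¹, hU'n.conj_mem y' hy' ⟨s, hs⟩, rfl⟩
    · rintro ⟨w, hw, hw'⟩
      refine ⟨⟨s, hs⟩⁻¹ * w * ⟨s, hs⟩, ?_, ?_⟩
      · have := hU'n.conj_mem w hw (⟨s, hs⟩⁻¹)
        simpa using this
      · have h1 : ((S : Subgroup G).subtype w : G) = s * y * s⁻¹ := hw'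
        simp only [map_mul, map_inv, Subgroup.coe_subtype] at h1 ⊢
        rw [h1]; group
  · constructor
    · refine ⟨⟨fun a b => ?_⟩⟩
      obtain ⟨a, ha⟩ := a
      obtain ⟨b, hb⟩ := b
      obtain ⟨a', ha', rfl⟩ := ha
      obtain ⟨b', hb', rfl⟩ := hb
      apply Subtype.ext
      have h1 : (⟨a', ha'⟩ : U') * ⟨b', hb'⟩ = ⟨b', hb'⟩ * ⟨a', ha'⟩ := hU'e.1.is_comm.comm _ _
      have h2 : a' * b' = b' * a' := congrArg Subtype.val h1
      show (S : Subgroup G).subtype a' * (S : Subgroup G).subtype b'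
        = (S : Subgroup G).subtype b' * (S : Subgroup G).subtype a'
      rw [← map_mul, ← map_mul, h2]
    · rintro _ ⟨a', ha', rfl⟩
      rw [← map_pow, hU'e.2 a' ha', map_one]
  · rw [← hU'c]
    exact (Nat.card_congr
      (U'.equivMapOfInjective _ (Subgroup.subtype_injective _)).toEquiv).symm
  · intro hle
    apply hcent
    let f : ↥(centralizer (U' : Set ↥(S : Subgroup G))) →*
        ↥((S : Subgroup G) ⊓ centralizer ((U'.map (S : Subgroup G).subtype : Subgroup G) : Set G)) :=
      MonoidHom.codRestrict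
        (((S : Subgroup G).subtype).comp (centralizer (U' : Set ↥(S : Subgroup G))).subtype) _
        (fun x => by
          refine Subgroup.mem_inf.2 ⟨x.1.2, ?_⟩
          rw [mem_centralizer_iff]
          rintro _ ⟨y', hy', rfl⟩
          have h1 := x.2
          rw [mem_centralizer_iff] at h1
          have h2 := h1 y' hy'
          have h3 := congrArg (fun z : ↥(S : Subgroup G) => (z : G)) h2
          simpa using h3)
    have hf : Function.Injective f := by
      intro x y hxy
      have h1 : ((f x : ↥((S : Subgroup G) ⊓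
          centralizer ((U'.map (S : Subgroup G).subtype : Subgroup G) : Set G))) : G) = f y :=
        congrArg Subtype.val hxy
      apply Subtype.ext
      apply Subtype.ext
      exact h1
    exact r3u_prankLE_of_injective f hf hle

example : StR3U G := r3u

end Cfsg.Agent.H12.BG12T
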