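import Mathlib
import Cfsg.Agent.Lib.Helper30.BG12TDefs

set_option autoImplicit false

/-!
# BG12T-SYL (helper12, for helper30's S1422 project)

Two maximal subgroups `M`, `L` containing a nonabelian `p`-subgroup `P` have `p ∈ σ(M) ∩ σ(L)`
and contain a common Sylow `p`-subgroup of `G` above `P`.
-/

namespace Cfsg.Agent.H12.BG12T

open Cfsg Subgroup Cfsg.Agent.H58.BG10 Cfsg.Agent.H57.BG12 Cfsg.Agent.Lib.Helper30.BG12T

universe u

variable {G : Type u} [Group G] [Finite G]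

/-- A nonabelian `p`-subgroup of a maximal subgroup `M` forces `p ∈ σ(M)` (from St1420a). -/
theorem syl_mem_sigma (ha : St1420a G) {p : ℕ} [Fact p.Prime] {P M : Subgroup G}
    (hP : IsPGroup p P) (hnc : ¬ IsMulCommutative P) (hM : IsCoatom M) (hPM : P ≤ M) :
    p ∈ sigma M := by
  by_contra hp
  apply hnc
  refine ha M hM P hPM hP.isNilpotent ?_
  intro q hq hqd
  obtain ⟨n, hn⟩ := hP.exists_card_eq
  rw [hn] at hqd
  have h1 : q = p := (Nat.prime_dvd_prime_iff_eq hq Fact.out).1 (hq.dvd_of_dvd_pow hqd)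
  rw [h1]; exact hp

/-- A maximal `p`-subgroup of `N` above a given one. -/
theorem syl_exists_max_p {p : ℕ} (N : Subgroup G) {Y : Subgroup G} (hY : IsPGroup p Y)
    (hYN : Y ≤ N) :
    ∃ R : Subgroup G, IsPGroup p R ∧ R ≤ N ∧ Y ≤ R ∧
      ∀ Q : Subgroup G, IsPGroup p Q → Q ≤ N → R ≤ Q → Q = R := by
  have hmem : Y ∈ {Q : Subgroup G | IsPGroup p Q ∧ Q ≤ N} := ⟨hY, hYN⟩
  obtain ⟨R, hYR, hR⟩ :=
    (Set.toFinite {Q : Subgroup G | IsPGroup p Q ∧ Q ≤ N}).exists_le_maximal hmem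
  exact ⟨R, hR.1.1, hR.1.2, hYR, fun Q hQ hQN hRQ => le_antisymm (hR.2 ⟨hQ, hQN⟩ hRQ) hRQ⟩

/-- Normalizers grow in `p`-groups: a `p`-subgroup `R` properly contained in a `p`-subgroup `S`
is properly contained in `S ⊓ N_G(R)`. -/
theorem syl_normalizer_grow {p : ℕ} [Fact p.Prime] {R S : Subgroup G} (hS : IsPGroup p S)
    (hRS : R < S) : R < S ⊓ normalizer (R : Set G) := by
  have : Group.IsNilpotent S := hS.isNilpotent
  have hnc : NormalizerCondition S := Group.normalizerCondition_of_isNilpotent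
  have hlt : R.subgroupOf S < ⊤ := by
    rw [lt_top_iff_ne_top]
    intro h
    rw [subgroupOf_eq_top] at h
    exact absurd (le_antisymm hRS.le h) hRS.ne
  have h2 := hnc _ hlt
  obtain ⟨x, hxN, hxR⟩ := SetLike.exists_of_lt h2
  refine lt_of_le_of_ne (le_inf hRS.le le_normalizer) ?_
  intro heq
  apply hxR
  rw [mem_subgroupOf]
  rw [heq]
  refine Subgroup.mem_inf.2 ⟨x.2, ?_⟩
  rw [mem_normalizer_iff] at hxN ⊢
  intro y
  constructor
  · intro hy
    have := (hxN ⟨y, hRS.le hy⟩).1 (by rw [mem_subgroupOf]; exact hy)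
    rw [mem_subgroupOf] at this
    simpa using this
  · intro hy
    have hyS : y ∈ S := by
      have h3 : (x : G) * y * (x : G)⁻¹ ∈ S := hRS.le hy
      have h4 := S.mul_mem (S.mul_mem (S.inv_mem x.2) h3) x.2
      simpa [mul_assoc] using h4
    have := (hxN ⟨y, hyS⟩).2 (by rw [mem_subgroupOf]; simpa using hy)
    rw [mem_subgroupOf] at this
    exact this

/-- **BG12T-SYL.** -/
theorem syl (_hG : IsMinSimpleOddOrder G) (ha : St1420a G) (hc : St1420c G) : StSyl G := by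
  intro p _ P M L hP hnc hM hL hPM hPL
  have hpM := syl_mem_sigma ha hP hnc hM hPM
  have hpL := syl_mem_sigma ha hP hnc hL hPL
  refine ⟨hpM, hpL, ?_⟩
  obtain ⟨R, hRp, hRN, hPR, hRmax⟩ := syl_exists_max_p (M ⊓ L) hP (le_inf hPM hPL)
  have hRnc : ¬ IsCyclic R := by
    intro hcyc
    apply hnc
    have hRc : IsMulCommutative R := IsCyclic.isMulCommutative
    refine ⟨⟨fun a b => ?_⟩⟩
    have h1 : (⟨a.1, hPR a.2⟩ : R) * ⟨b.1, hPR b.2⟩ = ⟨b.1, hPR b.2⟩ * ⟨a.1, hPR a.2⟩ :=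
      hRc.is_comm.comm _ _
    apply Subtype.ext
    simpa using congrArg Subtype.val h1
  obtain ⟨S, hRS⟩ := hRp.exists_le_sylow
  have hNM : normalizer (R : Set G) ≤ M := hc M hM p R hpM hRp (hRN.trans inf_le_left) hRnc
  have hNL : normalizer (R : Set G) ≤ L := hc L hL p R hpL hRp (hRN.trans inf_le_right) hRnc
  have hRS' : R = (S : Subgroup G) := by
    by_contra hne
    have hlt : R < (S : Subgroup G) := lt_of_le_of_ne hRS hne
    have h1 := syl_normalizer_grow S.2 hlt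
    have h2 : (S : Subgroup G) ⊓ normalizer (R : Set G) = R :=
      hRmax _ (S.2.to_le inf_le_left)
        (le_inf (inf_le_right.trans hNM) (inf_le_right.trans hNL)) h1.le
    exact h1.ne h2.symm
  refine ⟨S, hRS' ▸ hPR, hRS' ▸ (hRN.trans inf_le_left), hRS' ▸ (hRN.trans inf_le_right)⟩

example (hG : IsMinSimpleOddOrder G) (ha : St1420a G) (hc : St1420c G) : StSyl G :=
  syl hG ha hc

end Cfsg.Agent.H12.BG12T
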