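import Mathlib
import Cfsg.Agent.H79.BrDefs

/-!
# S4504-GLREPS (helper12, for helper79's S4504 project)

`glReps : StGLReps` : if `|P| = p = 2f+1 ≥ 5` and `|N_G(P)| = f |C_G(P)|`, then `P ∖ 1`
contains two non-conjugate elements.

The file also contains the shared core on the conjugation orbits of `N_G(P)` on `P ∖ 1`
(used again in `BrGLOrb.lean`).
-/

set_option autoImplicit false

namespace Cfsg.Agent.H12.Br

open Cfsg Cfsg.Agent.H79.Br

universe u

section core

variable {G : Type u} [Group G]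

/-- In a subgroup of prime order every element is a power of any nontrivial element. -/
theorem exists_pow_eq_of_card_prime {p : ℕ} [Fact p.Prime] {P : Subgroup G}
    (hP : Nat.card P = p) {x h : G} (hx : x ∈ P) (hx1 : x ≠ 1) (hh : h ∈ P) :
    ∃ k : ℕ, x ^ k = h := by
  have hx' : (⟨x, hx⟩ : P) ≠ 1 := fun e => hx1 (by simpa using congrArg Subtype.val e)
  have hm : (⟨h, hh⟩ : P) ∈ Submonoid.powers (⟨x, hx⟩ : P) := mem_powers_of_prime_card hP hx'
  obtain ⟨k, hk⟩ := hm
  refine ⟨k, ?_⟩
  have := congrArg Subtype.val hk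
  simpa using this

/-- An element conjugating a nontrivial element of `P` (of prime order) into `P`
normalizes `P`. -/
theorem mem_normalizer_of_conj_mem {p : ℕ} [Fact p.Prime] {P : Subgroup G}
    (hP : Nat.card P = p) {x c : G} (hx : x ∈ P) (hx1 : x ≠ 1) (hc : c * x * c⁻¹ ∈ P) :
    c ∈ Subgroup.normalizer (P : Set G) := by
  rw [Subgroup.mem_normalizer_iff]
  intro h
  constructor
  · intro hh
    obtain ⟨k, rfl⟩ := exists_pow_eq_of_card_prime hP hx hx1 hh
    show c * x ^ k * c⁻¹ ∈ P
    rw [← conj_pow]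
    exact pow_mem hc k
  · intro hh
    have hy1 : c * x * c⁻¹ ≠ 1 := by
      intro e
      apply hx1
      have h2 : x = c⁻¹ * (c * x * c⁻¹) * c := by group
      rw [h2, e]; group
    obtain ⟨k, hk⟩ := exists_pow_eq_of_card_prime hP hc hy1 hh
    rw [conj_pow] at hk
    have h3 : x ^ k = h := by
      have h4 := congrArg (fun t => c⁻¹ * t * c) hk
      simpa [mul_assoc] using h4
    show h ∈ P
    rw [← h3]; exact pow_mem hx k

/-- `C_G(x) = C_G(P)` for `x ∈ P ∖ 1`, `|P|` prime. -/
theorem centralizer_singleton_eq {p : ℕ} [Fact p.Prime] {P : Subgroup G}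
    (hP : Nat.card P = p) {x : G} (hx : x ∈ P) (hx1 : x ≠ 1) :
    Subgroup.centralizer ({x} : Set G) = Subgroup.centralizer (P : Set G) := by
  apply le_antisymm
  · intro c hc
    rw [Subgroup.mem_centralizer_iff] at hc ⊢
    intro h hh
    obtain ⟨k, rfl⟩ := exists_pow_eq_of_card_prime hP hx hx1 hh
    have hcx : Commute x c := hc x rfl
    exact (hcx.pow_left k).eq
  · exact Subgroup.centralizer_le (Set.singleton_subset_iff.mpr hx)

/-- The set of `N`-conjugates of `x`. -/
def conjOrb (N : Subgroup G) (x : G) : Set G := {y | ∃ n ∈ N, n * x * n⁻¹ = y}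

/-- The conjugation action of a subgroup on the group (used only locally, via `letI`). -/
@[reducible] def conjActN (N : Subgroup G) : MulAction N G where
  smul n g := (n : G) * g * (n : G)⁻¹
  one_smul g := by
    show ((1 : N) : G) * g * ((1 : N) : G)⁻¹ = g
    simp
  mul_smul a b g := by
    show ((a * b : N) : G) * g * ((a * b : N) : G)⁻¹
      = (a : G) * ((b : G) * g * (b : G)⁻¹) * (a : G)⁻¹
    simp [mul_assoc]

/-- Orbit–stabilizer for the conjugation action of `N` on `x`. -/
theorem card_conjOrb_mul [Finite G] (N : Subgroup G) (x : G) :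
    (conjOrb N x).ncard * Nat.card ↥(N ⊓ Subgroup.centralizer ({x} : Set G)) = Nat.card N := by
  letI : MulAction N G := conjActN N
  have hsmul : ∀ (n : N) (g : G), n • g = (n : G) * g * (n : G)⁻¹ := fun _ _ => rfl
  have h1 : Nat.card (MulAction.orbit N x) * Nat.card (MulAction.stabilizer N x)
      = Nat.card N := by
    rw [← Nat.card_prod]
    exact Nat.card_congr (MulAction.orbitProdStabilizerEquivGroup N x)
  have h2 : Nat.card (MulAction.orbit N x) = (conjOrb N x).ncard := by
    rw [Nat.card_coe_set_eq]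
    congr 1
    ext y
    constructor
    · rintro ⟨n, rfl⟩
      exact ⟨n, n.2, rfl⟩
    · rintro ⟨n, hn, rfl⟩
      exact ⟨⟨n, hn⟩, rfl⟩
  have h3 : Nat.card (MulAction.stabilizer N x)
      = Nat.card ↥(N ⊓ Subgroup.centralizer ({x} : Set G)) := by
    have h4 : (MulAction.stabilizer N x).map N.subtype
        = N ⊓ Subgroup.centralizer ({x} : Set G) := by
      ext g
      simp only [Subgroup.mem_map, MulAction.mem_stabilizer_iff, Subgroup.mem_inf,
        Subgroup.mem_centralizer_iff, Set.mem_singleton_iff, forall_eq, Subgroup.coe_subtype]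
      constructor
      · rintro ⟨n, hn, rfl⟩
        refine ⟨n.2, ?_⟩
        rw [hsmul] at hn
        calc x * (n : G) = ((n : G) * x * (n : G)⁻¹) * (n : G) := by rw [hn]
          _ = (n : G) * x := by group
      · rintro ⟨hgN, hg⟩
        refine ⟨⟨g, hgN⟩, ?_, rfl⟩
        rw [hsmul]
        show g * x * g⁻¹ = x
        rw [← hg]; group
    rw [← h4, Subgroup.card_map_of_injective N.subtype_injective]
  rw [← h2, ← h3]; exact h1

/-- Each `N_G(P)`-orbit on `P ∖ 1` has `f = |N_G(P) : C_G(P)|` elements. -/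
theorem ncard_conjOrb [Finite G] {p : ℕ} [Fact p.Prime] {P : Subgroup G}
    (hP : Nat.card P = p) {f : ℕ}
    (hN : Nat.card (Subgroup.normalizer (P : Set G))
      = f * Nat.card (Subgroup.centralizer (P : Set G)))
    {x : G} (hx : x ∈ P) (hx1 : x ≠ 1) :
    (conjOrb (Subgroup.normalizer (P : Set G)) x).ncard = f := by
  have h := card_conjOrb_mul (Subgroup.normalizer (P : Set G)) x
  have hinf : Subgroup.normalizer (P : Set G) ⊓ Subgroup.centralizer ({x} : Set G)
      = Subgroup.centralizer (P : Set G) := by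
    rw [centralizer_singleton_eq hP hx hx1]
    exact inf_eq_right.mpr (Subgroup.centralizer_le_normalizer _)
  rw [hinf, hN] at h
  have hpos : 0 < Nat.card (Subgroup.centralizer (P : Set G)) := Nat.card_pos
  exact Nat.eq_of_mul_eq_mul_right hpos h

/-- The `N_G(P)`-orbit of `x ∈ P ∖ 1` lies in `P ∖ 1`. -/
theorem conjOrb_subset {P : Subgroup G} {x : G} (hx : x ∈ P) (hx1 : x ≠ 1) :
    conjOrb (Subgroup.normalizer (P : Set G)) x ⊆ (P : Set G) \ {1} := by
  rintro y ⟨n, hn, rfl⟩
  refine ⟨?_, ?_⟩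
  · exact (Subgroup.mem_normalizer_iff.mp hn x).mp hx
  · intro e
    apply hx1
    have e' : n * x * n⁻¹ = 1 := e
    have h2 : x = n⁻¹ * (n * x * n⁻¹) * n := by group
    rw [h2, e']; group

/-- `G`-conjugacy inside `P` is `N_G(P)`-conjugacy. -/
theorem isConj_iff_mem_conjOrb {p : ℕ} [Fact p.Prime] {P : Subgroup G}
    (hP : Nat.card P = p) {x y : G} (hx : x ∈ P) (hx1 : x ≠ 1) (hy : y ∈ P) :
    IsConj x y ↔ y ∈ conjOrb (Subgroup.normalizer (P : Set G)) x := by
  rw [isConj_iff]
  constructor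
  · rintro ⟨c, rfl⟩
    exact ⟨c, mem_normalizer_of_conj_mem hP hx hx1 hy, rfl⟩
  · rintro ⟨n, -, rfl⟩
    exact ⟨n, rfl⟩

/-- `|P ∖ 1| + 1 = p`. -/
theorem ncard_sdiff_one [Finite G] {p : ℕ} {P : Subgroup G} (hP : Nat.card P = p) :
    ((P : Set G) \ {1}).ncard + 1 = p := by
  rw [Set.ncard_sdiff_singleton_add_one (show (1 : G) ∈ (P : Set G) from P.one_mem)
    (Set.toFinite _), ← hP]
  exact (Nat.card_coe_set_eq (P : Set G)).symm

end core

/-- **S4504-GLREPS**. -/
theorem glReps : StGLReps.{u} := by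
  intro G _ _ p _ P hP f hf h5 hN
  have hcard := ncard_sdiff_one hP
  have hne : (((P : Subgroup G) : Set G) \ {1}).Nonempty := by
    rw [Set.nonempty_iff_ne_empty]
    intro e
    rw [e, Set.ncard_empty] at hcard
    omega
  obtain ⟨x₁, hx₁⟩ := hne
  have hx₁P : x₁ ∈ (P : Subgroup G) := hx₁.1
  have hx₁1 : x₁ ≠ 1 := fun e => hx₁.2 e
  by_contra hcon
  have hall : ((P : Subgroup G) : Set G) \ {1}
      ⊆ conjOrb (Subgroup.normalizer ((P : Subgroup G) : Set G)) x₁ := by
    intro y hy
    by_contra hyn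
    apply hcon
    refine ⟨x₁, y, hx₁P, hy.1, hx₁1, fun e => hy.2 e, ?_⟩
    intro hc
    exact hyn ((isConj_iff_mem_conjOrb hP hx₁P hx₁1 hy.1).mp hc)
  have hle := Set.ncard_le_ncard hall (Set.toFinite _)
  rw [ncard_conjOrb hP hN hx₁P hx₁1] at hle
  omega

example : StGLReps.{u} := glReps

end Cfsg.Agent.H12.Br
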