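import Mathlib
import Cfsg.Agent.H79.BrDefs
import Cfsg.Agent.H12.BrGLReps

/-!
# S4504-GLORB (helper12, for helper79's S4504 project)

`glOrb : StGLOrb` : if `|P| = p = 2f+1`, `|N_G(P)| = f |C_G(P)|` and `x₁, x₂ ∈ P ∖ 1` are not
conjugate, then every element of `P ∖ 1` is conjugate to `x₁` or `x₂`, and for a class function
`F`, `∑_{x ∈ P} F x = F 1 + f F x₁ + f F x₂`.
-/

set_option autoImplicit false

namespace Cfsg.Agent.H12.Br

open Cfsg Cfsg.Agent.H79.Br

universe u

/-- A class function summed over an `N`-orbit. -/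
theorem finsum_conjOrb {G : Type u} [Group G] [Finite G] (N : Subgroup G) (x : G)
    (F : G → ℂ) (hF : IsClassFunction G F) :
    ∑ᶠ y ∈ conjOrb N x, F y = ((conjOrb N x).ncard : ℂ) * F x := by
  have h1 : ∑ᶠ y ∈ conjOrb N x, F y = ∑ᶠ _y ∈ conjOrb N x, F x := by
    apply finsum_mem_congr rfl
    rintro y ⟨n, -, rfl⟩
    exact hF x n
  rw [h1, finsum_mem_eq_finite_toFinset_sum _ (Set.toFinite _), Finset.sum_const,
    Set.ncard_eq_toFinset_card _ (Set.toFinite _), nsmul_eq_mul]

/-- **S4504-GLORB**. -/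
theorem glOrb : StGLOrb.{u} := by
  intro G _ _ p _ P hP f hf hN x₁ x₂ h₁ h₂ n₁ n₂ hnc
  have hO₁ := ncard_conjOrb hP hN h₁ n₁
  have hO₂ := ncard_conjOrb hP hN h₂ n₂
  have hS₁ := conjOrb_subset (P := (P : Subgroup G)) h₁ n₁
  have hS₂ := conjOrb_subset (P := (P : Subgroup G)) h₂ n₂
  have hdisj : Disjoint (conjOrb (Subgroup.normalizer ((P : Subgroup G) : Set G)) x₁)
      (conjOrb (Subgroup.normalizer ((P : Subgroup G) : Set G)) x₂) := by
    rw [Set.disjoint_left]
    rintro y ⟨a, ha, rfl⟩ ⟨b, hb, hab⟩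
    apply hnc
    rw [isConj_iff]
    refine ⟨b⁻¹ * a, ?_⟩
    have h3 : x₂ = b⁻¹ * (b * x₂ * b⁻¹) * b := by group
    rw [h3, hab]; group
  have hunion : conjOrb (Subgroup.normalizer ((P : Subgroup G) : Set G)) x₁
      ∪ conjOrb (Subgroup.normalizer ((P : Subgroup G) : Set G)) x₂
      = ((P : Subgroup G) : Set G) \ {1} := by
    apply Set.eq_of_subset_of_ncard_le (Set.union_subset hS₁ hS₂) _ (Set.toFinite _)
    rw [Set.ncard_union_eq hdisj (Set.toFinite _) (Set.toFinite _), hO₁, hO₂]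
    have h4 := ncard_sdiff_one hP
    omega
  refine ⟨?_, ?_⟩
  · intro x hx hx1
    have hxm : x ∈ conjOrb (Subgroup.normalizer ((P : Subgroup G) : Set G)) x₁
        ∪ conjOrb (Subgroup.normalizer ((P : Subgroup G) : Set G)) x₂ := by
      rw [hunion]; exact ⟨hx, fun e => hx1 e⟩
    rcases hxm with h | h
    · left; exact ((isConj_iff_mem_conjOrb hP h₁ n₁ hx).mpr h).symm
    · right; exact ((isConj_iff_mem_conjOrb hP h₂ n₂ hx).mpr h).symm
  · intro F hF
    have hsum : ∑ᶠ x : (P : Subgroup G), F x = ∑ᶠ x ∈ ((P : Subgroup G) : Set G), F x :=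
      finsum_set_coe_eq_finsum_mem ((P : Subgroup G) : Set G)
    have hQ : ((P : Subgroup G) : Set G)
        = {1} ∪ (conjOrb (Subgroup.normalizer ((P : Subgroup G) : Set G)) x₁
          ∪ conjOrb (Subgroup.normalizer ((P : Subgroup G) : Set G)) x₂) := by
      rw [hunion]
      ext y
      simp only [Set.mem_union, Set.mem_singleton_iff, Set.mem_sdiff, SetLike.mem_coe]
      constructor
      · intro hy
        by_cases hy1 : y = 1
        · left; exact hy1
        · right; exact ⟨hy, hy1⟩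
      · rintro (rfl | ⟨hy, -⟩)
        · exact (P : Subgroup G).one_mem
        · exact hy
    have hd1 : Disjoint ({1} : Set G)
        (conjOrb (Subgroup.normalizer ((P : Subgroup G) : Set G)) x₁
          ∪ conjOrb (Subgroup.normalizer ((P : Subgroup G) : Set G)) x₂) := by
      rw [hunion, Set.disjoint_left]
      intro y hy hy'
      exact hy'.2 hy
    rw [hsum, hQ, finsum_mem_union hd1 (Set.toFinite _) (Set.toFinite _),
      finsum_mem_union hdisj (Set.toFinite _) (Set.toFinite _), finsum_mem_singleton,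
      finsum_conjOrb _ _ F hF, finsum_conjOrb _ _ F hF, hO₁, hO₂]
    ring

example : StGLOrb.{u} := glOrb

end Cfsg.Agent.H12.Br
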