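import Mathlib
import Cfsg.Prelude.Def_SolvableStructure
import Cfsg.Agent.H12.Basic

/-!
# Groups satisfying the converse of Lagrange's theorem hereditarily (helper12)
-/

set_option autoImplicit false
open Pointwise

namespace Cfsg.Agent.H12

theorem hasSubgroupOfEveryOrder_of_mulEquiv {A B : Type*} [Group A] [Group B] (e : A ≃* B)
    (hA : Cfsg.HasSubgroupOfEveryOrder A) : Cfsg.HasSubgroupOfEveryOrder B := by
  intro d hd
  rw [← Nat.card_congr e.toEquiv] at hd
  obtain ⟨K, hK⟩ := hA d hd
  exact ⟨K.map e.toMonoidHom, by
    rw [Subgroup.card_map_of_injective (f := e.toMonoidHom) e.injective, hK]⟩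

/-- Hereditary CLT passes to subgroups. -/
theorem hclt_subgroup {G : Type*} [Group G]
    (h : ∀ H : Subgroup G, Cfsg.HasSubgroupOfEveryOrder H) (M : Subgroup G) :
    ∀ H : Subgroup M, Cfsg.HasSubgroupOfEveryOrder H := by
  intro H
  exact hasSubgroupOfEveryOrder_of_mulEquiv
    (Subgroup.equivMapOfInjective H M.subtype (Subgroup.subtype_injective M)).symm
    (h (H.map M.subtype))

/-- In a CLT group there is a subgroup of each order dividing the group order. -/
theorem exists_subgroup_card_of_hclt {G : Type*} [Group G]
    (h : ∀ H : Subgroup G, Cfsg.HasSubgroupOfEveryOrder H) (d : ℕ) (hd : d ∣ Nat.card G) :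
    ∃ M : Subgroup G, Nat.card M = d := by
  obtain ⟨M', hM'⟩ := h ⊤ d (by rw [Subgroup.card_top]; exact hd)
  exact ⟨M'.map (Subgroup.subtype ⊤), by
    rw [Subgroup.card_map_of_injective (Subgroup.subtype_injective _), hM']⟩

/-- If every subgroup satisfies the converse of Lagrange's theorem, then a Sylow subgroup for
the largest prime divisor of the order is normal. -/
theorem sylow_normal_of_hclt {G : Type*} [Group G] [Finite G]
    (h : ∀ H : Subgroup G, Cfsg.HasSubgroupOfEveryOrder H) (p : ℕ) [hp : Fact p.Prime]
    (hdvd : p ∣ Nat.card G) (hmax : ∀ q : ℕ, q.Prime → q ∣ Nat.card G → q ≤ p) (P : Sylow p G) :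
    (P : Subgroup G).Normal := by
  induction hn : Nat.card G using Nat.strong_induction_on generalizing G with
  | _ n ih =>
    have hG1 : Nat.card G ≠ 1 := by
      intro h1
      rw [h1] at hdvd
      exact hp.out.one_lt.ne' (Nat.dvd_one.mp hdvd)
    have hGpos : 0 < Nat.card G := Nat.card_pos
    have hqp : (Nat.card G).minFac.Prime := Nat.minFac_prime hG1
    have hqd : (Nat.card G).minFac ∣ Nat.card G := Nat.minFac_dvd _
    obtain ⟨M, hMc⟩ := exists_subgroup_card_of_hclt h (Nat.card G / (Nat.card G).minFac)
      (Nat.div_dvd_of_dvd hqd)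
    have hMi : M.index = (Nat.card G).minFac := by
      have h1 := M.card_mul_index
      rw [hMc] at h1
      have h2 : Nat.card G / (Nat.card G).minFac * (Nat.card G).minFac = Nat.card G :=
        Nat.div_mul_cancel hqd
      have h3 : 0 < Nat.card G / (Nat.card G).minFac :=
        Nat.div_pos (Nat.le_of_dvd hGpos hqd) hqp.pos
      exact Nat.eq_of_mul_eq_mul_left h3 (h1.trans h2.symm)
    have hMn : M.Normal := Subgroup.normal_of_index_eq_minFac_card hMi
    by_cases hpq : p = (Nat.card G).minFac
    · have hpg : IsPGroup p G := by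
        apply IsPGroup.of_card (n := (Nat.card G).primeFactorsList.length)
        apply Nat.eq_prime_pow_of_unique_prime_dvd hGpos.ne'
        intro d hd hdd
        apply le_antisymm (hmax d hd hdd)
        rw [hpq]
        exact Nat.minFac_le_of_dvd hd.two_le hdd
      have htop : (P : Subgroup G) = ⊤ := by
        have := P.is_maximal' (Q := ⊤) (by
          intro x
          obtain ⟨k, hk⟩ := hpg (x : G)
          exact ⟨k, Subtype.ext (by simpa using hk)⟩) le_top
        exact this.symm
      rw [htop]; exact Subgroup.normal_top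
    · have hcard : Nat.card M * (Nat.card G).minFac = Nat.card G := by
        rw [← hMi]; exact M.card_mul_index
      have hpM : p ∣ Nat.card M := by
        have h1 : p ∣ Nat.card M * (Nat.card G).minFac := by rw [hcard]; exact hdvd
        rcases (Nat.Prime.dvd_mul hp.out).mp h1 with h2 | h2
        · exact h2
        · exact absurd ((Nat.prime_dvd_prime_iff_eq hp.out hqp).mp h2) hpq
      have hmaxM : ∀ r : ℕ, r.Prime → r ∣ Nat.card M → r ≤ p :=
        fun r hr hrd => hmax r hr (hrd.trans (Subgroup.card_subgroup_dvd_card M))
      have hlt : Nat.card M < n := by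
        rw [← hn, ← hcard]
        have := hqp.two_le
        have hMpos : 0 < Nat.card M := Nat.card_pos
        nlinarith
      have hPM : (P : Subgroup G) ≤ M := by
        rw [← Subgroup.relIndex_eq_one]
        have h1 : M.relIndex P ∣ (Nat.card G).minFac := by
          rw [← hMi]; exact Subgroup.relIndex_dvd_index_of_normal M P
        have h2 : M.relIndex P ∣ Nat.card P := Subgroup.relIndex_dvd_card M P
        obtain ⟨k, hk⟩ := (IsPGroup.iff_card (p := p)).mp P.isPGroup'
        rw [hk] at h2
        have h3 : Nat.Coprime (Nat.card G).minFac (p ^ k) :=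
          Nat.Coprime.pow_right k ((Nat.coprime_primes hqp hp.out).mpr (Ne.symm hpq))
        exact Nat.eq_one_of_dvd_coprimes h3 h1 h2
      have hP' := ih (Nat.card M) hlt (G := M) (hclt_subgroup h M) hpM hmaxM (P.subtype hPM) rfl
      have hchar : ((P.subtype hPM : Sylow p M) : Subgroup M).Characteristic :=
        Sylow.characteristic_of_normal _ hP'
      have e : ((P.subtype hPM : Sylow p M) : Subgroup M).map M.subtype = P := by
        rw [Sylow.coe_subtype, Subgroup.map_subgroupOf_eq_of_le hPM]
      rw [← e]
      exact ConjAct.normal_of_characteristic_of_normal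

end Cfsg.Agent.H12
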