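import Mathlib
import Cfsg.Agent.H12.Supersolvable
import Cfsg.Agent.S0531
import Cfsg.Agent.H1.Hall

/-!
# Converse of Lagrange for `G × A` (helper12)
-/

set_option autoImplicit false

namespace Cfsg.Agent.H12

universe u v

theorem isSupersolvable_of_commGroup_aux (n : ℕ) :
    ∀ (A : Type u) [CommGroup A] [Finite A], Nat.card A = n → Cfsg.IsSupersolvable A := by
  induction n using Nat.strong_induction_on with
  | _ n ih =>
    intro A _ _ hn
    rcases subsingleton_or_nontrivial A with h | h
    · exact isSupersolvable_of_subsingleton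
    · obtain ⟨x, hx⟩ := exists_ne (1 : A)
      have hN : (Subgroup.zpowers x) ≠ ⊥ := by
        rw [Ne, Subgroup.zpowers_eq_bot]; exact hx
      have hcard := card_quotient_lt_of_ne_bot (Subgroup.zpowers x) hN
      have := ih _ (hn ▸ hcard) (A ⧸ Subgroup.zpowers x) rfl
      exact isSupersolvable_of_quotient_cyclic (Subgroup.zpowers x) this

/-- A finite abelian group is supersolvable. -/
theorem isSupersolvable_of_commGroup (A : Type u) [CommGroup A] [Finite A] :
    Cfsg.IsSupersolvable A :=
  isSupersolvable_of_commGroup_aux _ A rfl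

/-- Arithmetic lemma: the "Hall part" of a divisor `d` of `n * a`. -/
theorem exists_hall_divisor (n a d : ℕ) (hn : n ≠ 0) (ha : a ≠ 0)
    (hA : ∀ p : ℕ, p.Prime → p ∣ a → p ∣ n)
    (hexp : ∀ p : ℕ, p.Prime → p ∣ n → a.factorization p + 1 = n.factorization p)
    (hd : d ∣ n * a) : ∃ m, m ∣ n ∧ Nat.Coprime m (n / m) ∧ m ∣ d ∧ d / m ∣ a := by
  classical
  have hd0 : d ≠ 0 := ne_zero_of_dvd_ne_zero (mul_ne_zero hn ha) hd
  obtain ⟨f, hf⟩ : ∃ f : ℕ →₀ ℕ,
      f = n.factorization.filter (fun p => n.factorization p ≤ d.factorization p) := ⟨_, rfl⟩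
  have hfval : ∀ p, f p = if n.factorization p ≤ d.factorization p then n.factorization p
      else 0 := fun p => by rw [hf, Finsupp.filter_apply]
  have hfsupp : ∀ p ∈ f.support, p.Prime := by
    intro p hp
    rw [Finsupp.mem_support_iff, hfval] at hp
    by_contra hnp
    rw [Nat.factorization_eq_zero_of_not_prime n hnp] at hp
    simp at hp
  have hmf : (f.prod (· ^ ·)).factorization = f := Nat.prod_pow_factorization_eq_self hfsupp
  have hm0 : f.prod (· ^ ·) ≠ 0 := by
    rw [Finsupp.prod_ne_zero_iff]
    intro p hp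
    exact pow_ne_zero _ (hfsupp p hp).ne_zero
  have hmn : f.prod (· ^ ·) ∣ n := by
    rw [← Nat.factorization_le_iff_dvd hm0 hn, hmf]
    intro p
    rw [hfval]
    split_ifs <;> simp
  have hmd : f.prod (· ^ ·) ∣ d := by
    rw [← Nat.factorization_le_iff_dvd hm0 hd0, hmf]
    intro p
    rw [hfval]
    split_ifs with h
    · exact h
    · exact Nat.zero_le _
  refine ⟨f.prod (· ^ ·), hmn, ?_, hmd, ?_⟩
  · apply Nat.coprime_of_dvd
    intro p hp hpm hpnm
    have hnm0 : n / f.prod (· ^ ·) ≠ 0 := by
      intro h0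
      rw [h0] at hpnm
      have := Nat.div_mul_cancel hmn
      rw [h0, zero_mul] at this
      exact hn this.symm
    have h1 : 1 ≤ (f.prod (· ^ ·)).factorization p := (hp.dvd_iff_one_le_factorization hm0).mp hpm
    have h2 : 1 ≤ (n / f.prod (· ^ ·)).factorization p :=
      (hp.dvd_iff_one_le_factorization hnm0).mp hpnm
    rw [Nat.factorization_div hmn, Finsupp.tsub_apply, hmf, hfval] at h2
    rw [hmf, hfval] at h1
    split_ifs at h1 h2 with h <;> omega
  · have hdm0 : d / f.prod (· ^ ·) ≠ 0 := by
      intro h0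
      have := Nat.div_mul_cancel hmd
      rw [h0, zero_mul] at this
      exact hd0 this.symm
    rw [← Nat.factorization_le_iff_dvd hdm0 ha, Nat.factorization_div hmd, hmf]
    intro p
    rw [Finsupp.tsub_apply, hfval]
    have hdle : d.factorization p ≤ n.factorization p + a.factorization p := by
      have := (Nat.factorization_le_iff_dvd hd0 (mul_ne_zero hn ha)).mpr hd p
      rwa [Nat.factorization_mul hn ha, Finsupp.add_apply] at this
    by_cases hp : p.Prime
    · by_cases hpn : p ∣ n
      · have := hexp p hp hpn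
        split_ifs with h <;> omega
      · have h1 : n.factorization p = 0 := Nat.factorization_eq_zero_of_not_dvd hpn
        have h2 : a.factorization p = 0 :=
          Nat.factorization_eq_zero_of_not_dvd (fun h => hpn (hA p hp h))
        split_ifs with h <;> omega
    · have h1 : d.factorization p = 0 := Nat.factorization_eq_zero_of_not_prime d hp
      split_ifs <;> omega

/-- `G × A` satisfies the converse of Lagrange's theorem (`G` solvable, `A` abelian with
the stated arithmetic conditions). -/
theorem hasSubgroupOfEveryOrder_prod {G : Type u} {A : Type v} [Group G] [CommGroup A] [Finite G]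
    [Finite A] [Group.IsSolvable G] (hA : ∀ p : ℕ, p.Prime → p ∣ Nat.card A → p ∣ Nat.card G)
    (hexp : ∀ p : ℕ, p.Prime → p ∣ Nat.card G →
      (Nat.card A).factorization p + 1 = (Nat.card G).factorization p) :
    Cfsg.HasSubgroupOfEveryOrder (G × A) := by
  intro d hd
  rw [Nat.card_prod] at hd
  obtain ⟨m, hmn, hcop, hmd, hdma⟩ := exists_hall_divisor (Nat.card G) (Nat.card A) d
    Nat.card_pos.ne' Nat.card_pos.ne' hA hexp hd
  obtain ⟨H, hH⟩ := Cfsg.Agent.H1.hall_exists (G := G) m (Nat.card G / m)
    (Nat.mul_div_cancel' hmn).symm hcop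
  obtain ⟨B, hB⟩ := (Cfsg.Agent.S0531.result (isSupersolvable_of_commGroup A)) (d / m) hdma
  refine ⟨H.prod B, ?_⟩
  rw [Nat.card_congr (Subgroup.prodEquiv H B).toEquiv, Nat.card_prod, hH, hB,
    Nat.mul_div_cancel' hmd]

end Cfsg.Agent.H12
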