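import Mathlib
import Cfsg.Agent.H12.Basic

/-!
# Core-free maximal subgroups (helper12)
-/

set_option autoImplicit false
open Pointwise

namespace Cfsg.Agent.H12

variable {G : Type*} [Group G]

/-- A nontrivial normal subgroup is not contained in a core-free subgroup. -/
theorem not_le_of_normalCore_eq_bot {U K : Subgroup G} (hcore : U.normalCore = ⊥)
    (hK : K.Normal) (hK0 : K ≠ ⊥) : ¬ K ≤ U := by
  intro h
  have : K ≤ U.normalCore := Subgroup.normal_le_normalCore.mpr h
  rw [hcore] at this
  exact hK0 (le_bot_iff.mp this)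

/-- A core-free maximal subgroup supplements every nontrivial normal subgroup. -/
theorem sup_eq_top_of_coatom_core {U K : Subgroup G} (hU : IsCoatom U) (hcore : U.normalCore = ⊥)
    (hK : K.Normal) (hK0 : K ≠ ⊥) : U ⊔ K = ⊤ := by
  apply hU.2
  exact lt_of_le_of_ne le_sup_left
    (fun h => not_le_of_normalCore_eq_bot hcore hK hK0 (h ▸ le_sup_right))

/-- Every element is a product `u * k` for a core-free maximal `U` and nontrivial normal `K`. -/
theorem exists_mul_of_coatom_core {U K : Subgroup G} (hU : IsCoatom U) (hcore : U.normalCore = ⊥)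
    (hK : K.Normal) (hK0 : K ≠ ⊥) (g : G) : ∃ u ∈ U, ∃ k ∈ K, g = u * k := by
  have h1 : g ∈ U ⊔ K := by rw [sup_eq_top_of_coatom_core hU hcore hK hK0]; trivial
  have := hK
  obtain ⟨u, hu, k, hk, rfl⟩ := Subgroup.mem_sup_of_normal_right.mp h1
  exact ⟨u, hu, k, hk, rfl⟩

/-- The centralizer of a nontrivial normal subgroup meets a core-free maximal subgroup trivially. -/
theorem centralizer_inf_eq_bot_of_coatom_core {U N : Subgroup G} (hU : IsCoatom U)
    (hcore : U.normalCore = ⊥) (hN : N.Normal) (hN0 : N ≠ ⊥) :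
    Subgroup.centralizer (N : Set G) ⊓ U = ⊥ := by
  have := hN
  have hnorm : (Subgroup.centralizer (N : Set G) ⊓ U).Normal := by
    constructor
    intro d hd g
    obtain ⟨u, hu, n, hn, rfl⟩ := exists_mul_of_coatom_core hU hcore hN hN0 g
    have h1 : n * d * n⁻¹ = d := by
      have := hd.1 n hn
      rw [this]; group
    have h2 : u * n * d * (u * n)⁻¹ = u * (n * d * n⁻¹) * u⁻¹ := by group
    rw [h2, h1]
    exact ⟨(Subgroup.normal_centralizer (H := N)).conj_mem d hd.1 u,
      U.mul_mem (U.mul_mem hu hd.2) (U.inv_mem hu)⟩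
  have : Subgroup.centralizer (N : Set G) ⊓ U ≤ U.normalCore :=
    Subgroup.normal_le_normalCore.mpr inf_le_right
  rw [hcore] at this
  exact le_bot_iff.mp this

/-- The centralizer of a nontrivial normal subgroup, when nontrivial, is a minimal normal
subgroup (in the presence of a core-free maximal subgroup). -/
theorem eq_centralizer_of_coatom_core {U N K : Subgroup G} (hU : IsCoatom U)
    (hcore : U.normalCore = ⊥) (hN : N.Normal) (hN0 : N ≠ ⊥) (hK : K.Normal) (hK0 : K ≠ ⊥)
    (hKC : K ≤ Subgroup.centralizer (N : Set G)) : K = Subgroup.centralizer (N : Set G) := by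
  apply le_antisymm hKC
  intro c hc
  obtain ⟨u, hu, k, hk, rfl⟩ := exists_mul_of_coatom_core hU hcore hK hK0 c
  have hu' : u ∈ Subgroup.centralizer (N : Set G) ⊓ U := by
    refine ⟨?_, hu⟩
    have := mul_mem hc (inv_mem (hKC hk))
    simpa using this
  rw [centralizer_inf_eq_bot_of_coatom_core hU hcore hN hN0, Subgroup.mem_bot] at hu'
  rw [hu', one_mul]
  exact hk

end Cfsg.Agent.H12
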