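import Mathlib
import Cfsg.Agent.H12.CoreFree
import Cfsg.Agent.H12.PGroup
import Cfsg.Agent.H12.Schmidt
import Cfsg.Agent.H1.MinNormal
import Cfsg.Agent.H1.Hall
import Cfsg.Agent.H1.CoprimeSylow

/-!
# Core-free maximal subgroups of solvable groups are conjugate (helper12)
-/

set_option autoImplicit false
open Pointwise

namespace Cfsg.Agent.H12

universe u

/-- In a finite solvable group all core-free maximal subgroups are conjugate. -/
theorem conj_of_coatom_core_free {G : Type u} [Group G] [Finite G] [Group.IsSolvable G]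
    (U V : Subgroup G) (hU : IsCoatom U) (hV : IsCoatom V) (hUc : U.normalCore = ⊥)
    (hVc : V.normalCore = ⊥) : ∃ g : G, MulAut.conj g • U = V := by
  have hnt : Nontrivial G := by
    by_contra h
    rw [not_nontrivial_iff_subsingleton] at h
    exact hU.1 (Subsingleton.elim _ _)
  obtain ⟨M, hMn, hM0, hMmin⟩ := Cfsg.Agent.H1.exists_minimal_normal (G := G)
  obtain ⟨hMc, -⟩ := Cfsg.Agent.H1.minimal_normal_elementary_abelian M hM0 hMmin
  obtain ⟨p, hp, hMp⟩ := Cfsg.Agent.H1.minimal_normal_isPGroup M hM0 hMmin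
  have : Fact p.Prime := ⟨hp⟩
  have hMcomm : ∀ a ∈ M, ∀ b ∈ M, a * b = b * a := fun a ha b hb =>
    congrArg Subtype.val (hMc.is_comm.comm ⟨a, ha⟩ ⟨b, hb⟩)
  have hMC : M ≤ Subgroup.centralizer (M : Set G) := fun a ha b hb => hMcomm b hb a ha
  have hCM : M = Subgroup.centralizer (M : Set G) :=
    eq_centralizer_of_coatom_core hU hUc hMn hM0 hMn hM0 hMC
  have hMU : M ⊓ U = ⊥ := by
    have := centralizer_inf_eq_bot_of_coatom_core hU hUc hMn hM0
    rwa [← hCM] at this
  have hMV : M ⊓ V = ⊥ := by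
    have := centralizer_inf_eq_bot_of_coatom_core hV hVc hMn hM0
    rwa [← hCM] at this
  by_cases hMtop : M = ⊤
  · refine ⟨1, ?_⟩
    rw [hMtop, top_inf_eq] at hMU hMV
    rw [hMU, hMV, map_one, one_smul]
  have hntq : Nontrivial (G ⧸ M) := by
    rw [QuotientGroup.nontrivial_iff]; exact hMtop
  have hsurj := QuotientGroup.mk'_surjective M
  obtain ⟨Lb, hLbn, hLb0, hLbmin⟩ := Cfsg.Agent.H1.exists_minimal_normal (G := G ⧸ M)
  obtain ⟨q, hq, hLbq⟩ := Cfsg.Agent.H1.minimal_normal_isPGroup Lb hLb0 hLbmin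
  have : Fact q.Prime := ⟨hq⟩
  have hLn : (Lb.comap (QuotientGroup.mk' M)).Normal := hLbn.comap _
  have hML : M ≤ Lb.comap (QuotientGroup.mk' M) := le_comap_mk' M Lb
  obtain ⟨a, ha⟩ := IsPGroup.iff_card.mp hMp
  obtain ⟨b, hb⟩ := IsPGroup.iff_card.mp hLbq
  have hb0 : b ≠ 0 := by
    intro h0
    rw [h0, pow_zero] at hb
    exact hLb0 (Subgroup.card_eq_one.mp hb)
  have hLcard : Nat.card (Lb.comap (QuotientGroup.mk' M)) = p ^ a * q ^ b := by
    rw [card_comap_mk', ha, hb]
  have hqp : q ≠ p := by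
    intro hqp
    subst hqp
    have hLp : IsPGroup q (Lb.comap (QuotientGroup.mk' M)) :=
      IsPGroup.of_card (n := a + b) (by rw [hLcard, pow_add])
    obtain ⟨z, hzM, hz1, hzc⟩ := exists_ne_one_commute_of_isPGroup hLp hMp hM0
      (by rw [Subgroup.normalizer_eq_top_iff.mpr hMn]; exact le_top)
    have hKn : (M ⊓ Subgroup.centralizer ((Lb.comap (QuotientGroup.mk' M) : Subgroup G) : Set G)).Normal :=
      inferInstance
    rcases hMmin _ hKn inf_le_left with hK | hK
    · have hz : z ∈ M ⊓ Subgroup.centralizer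
          ((Lb.comap (QuotientGroup.mk' M) : Subgroup G) : Set G) :=
        ⟨hzM, fun y hy => hzc y hy⟩
      rw [hK, Subgroup.mem_bot] at hz
      exact hz1 hz
    · have h1 : M ≤ Subgroup.centralizer
          ((Lb.comap (QuotientGroup.mk' M) : Subgroup G) : Set G) := inf_eq_left.mp hK
      have h2 : Lb.comap (QuotientGroup.mk' M) ≤ Subgroup.centralizer (M : Set G) :=
        Subgroup.le_centralizer_iff.mp h1
      rw [← hCM] at h2
      apply hLb0
      rw [← Subgroup.map_comap_eq_self_of_surjective hsurj Lb, eq_bot_iff]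
      calc (Lb.comap (QuotientGroup.mk' M)).map (QuotientGroup.mk' M)
          ≤ M.map (QuotientGroup.mk' M) := Subgroup.map_mono h2
        _ = ⊥ := by rw [QuotientGroup.map_mk'_self]
  have hfac : (Nat.card (Lb.comap (QuotientGroup.mk' M))).factorization q = b := by
    rw [hLcard, Nat.factorization_mul (pow_ne_zero _ hp.ne_zero) (pow_ne_zero _ hq.ne_zero),
      hp.factorization_pow, hq.factorization_pow]
    simp [hqp]
  have key : ∀ W : Subgroup G, IsCoatom W → W.normalCore = ⊥ → M ⊓ W = ⊥ →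
      Nat.card (Lb.comap (QuotientGroup.mk' M) ⊓ W : Subgroup G) = q ^ b := by
    intro W hW hWc hMW
    have h1 : (Lb.comap (QuotientGroup.mk' M) ⊓ W) ⊔ M = Lb.comap (QuotientGroup.mk' M) := by
      apply le_antisymm (sup_le inf_le_left hML)
      intro l hl
      obtain ⟨u, hu, k, hk, rfl⟩ := exists_mul_of_coatom_core hW hWc hMn hM0 l
      have huL : u ∈ Lb.comap (QuotientGroup.mk' M) := by
        have := (Lb.comap (QuotientGroup.mk' M)).mul_mem hl
          ((Lb.comap (QuotientGroup.mk' M)).inv_mem (hML hk))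
        simpa using this
      exact Subgroup.mul_mem _ (le_sup_left (b := M) ⟨huL, hu⟩)
        (le_sup_right (a := Lb.comap (QuotientGroup.mk' M) ⊓ W) hk)
    have h2 : (Lb.comap (QuotientGroup.mk' M) ⊓ W).map (QuotientGroup.mk' M) = Lb := by
      have h3 : ((Lb.comap (QuotientGroup.mk' M) ⊓ W) ⊔ M).map (QuotientGroup.mk' M) = Lb := by
        rw [h1, Subgroup.map_comap_eq_self_of_surjective hsurj]
      rw [Subgroup.map_sup, QuotientGroup.map_mk'_self, sup_bot_eq] at h3
      exact h3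
    have h3 : M ⊓ (Lb.comap (QuotientGroup.mk' M) ⊓ W) = ⊥ := by
      rw [eq_bot_iff, ← hMW]
      exact inf_le_inf_left M inf_le_right
    rw [← Cfsg.Agent.H1.card_map_mk'_of_disjoint M _ h3, h2, hb]
  obtain ⟨l, hlL, hl⟩ := Cfsg.Agent.H1.sylow_conj_internal q (Lb.comap (QuotientGroup.mk' M))
    (Lb.comap (QuotientGroup.mk' M) ⊓ U) (Lb.comap (QuotientGroup.mk' M) ⊓ V)
    inf_le_left inf_le_left (by rw [key U hU hUc hMU, hfac]) (by rw [key V hV hVc hMV, hfac])
  refine ⟨l, ?_⟩
  have hQ0 : Lb.comap (QuotientGroup.mk' M) ⊓ V ≠ ⊥ := by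
    intro h
    have h1 := key V hV hVc hMV
    rw [h, Subgroup.card_bot] at h1
    exact hb0 ((Nat.pow_eq_one.mp h1.symm).resolve_left hq.one_lt.ne')
  have hU' : IsCoatom (MulAut.conj l • U) := isCoatom_conj_smul hU l
  have hLU' : Lb.comap (QuotientGroup.mk' M) ⊓ MulAut.conj l • U =
      Lb.comap (QuotientGroup.mk' M) ⊓ V := by
    rw [← hl, Subgroup.smul_inf, Subgroup.Normal.conj_smul_eq_self l (Lb.comap (QuotientGroup.mk' M))]
  have hnorm : ∀ W : Subgroup G,
      W ≤ Subgroup.normalizer ((Lb.comap (QuotientGroup.mk' M) ⊓ W : Subgroup G) : Set G) := by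
    intro W w hw
    rw [← conj_smul_eq_iff_mem_normalizer, Subgroup.smul_inf,
      Subgroup.Normal.conj_smul_eq_self w (Lb.comap (QuotientGroup.mk' M)),
      Subgroup.conj_smul_eq_self_of_mem hw]
  have hNtop : Subgroup.normalizer ((Lb.comap (QuotientGroup.mk' M) ⊓ V : Subgroup G) : Set G)
      ≠ ⊤ := by
    intro h
    exact not_le_of_normalCore_eq_bot hVc (Subgroup.normalizer_eq_top_iff.mp h) hQ0 inf_le_right
  have eV : Subgroup.normalizer ((Lb.comap (QuotientGroup.mk' M) ⊓ V : Subgroup G) : Set G)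
      = V := by
    by_contra hne
    exact hNtop (hV.2 _ (lt_of_le_of_ne (hnorm V) (Ne.symm hne)))
  have eU : Subgroup.normalizer ((Lb.comap (QuotientGroup.mk' M) ⊓ V : Subgroup G) : Set G)
      = MulAut.conj l • U := by
    by_contra hne
    have h1 := hnorm (MulAut.conj l • U)
    rw [hLU'] at h1
    exact hNtop (hU'.2 _ (lt_of_le_of_ne h1 (Ne.symm hne)))
  rw [← eU, eV]

end Cfsg.Agent.H12
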