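import Cfsg.Agent.H23.OrdD4
import Cfsg.Agent.H23.GraphD4
import Cfsg.Agent.H12.GraphGens
import Cfsg.Agent.H56.OSD4T

/-!
# S2607 (team project, helper96), piece P-GRAPH: the graph automorphisms of `D₄(F)` form a copy of the symmetric
group on three letters

Light closure (type `D₄` only).  A graph automorphism acts on the fundamental root elements through one of the
six node tables; an automorphism is determined by its table (`hom_ext_fund`), distinct tables give distinct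
automorphisms (`xU_eq_imp`), and all six tables are realised by products of the transposition automorphism
(helper56's table) and the triality (helper23's table).
-/

set_option autoImplicit false
set_option maxRecDepth 100000

namespace Cfsg.Agent.H12.D4P

open Cfsg Cfsg.Lie Cfsg.Agent.H23
open scoped MatrixGroups

universe u

/-- Composition of two node tables: first `L'`, then `L`. -/
def lmul (L L' : List ℕ) : List ℕ :=
  [L.getD (L'.getD 0 0) 0, L.getD (L'.getD 1 0) 0, L.getD (L'.getD 2 0) 0, L.getD (L'.getD 3 0) 0]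

theorem lmul_getD (L L' : List ℕ) : ∀ i < chevD4.rank, (lmul L L').getD i 0 = L.getD (L'.getD i 0) 0 := by
  intro i hi
  have hi4 : i < 4 := hi
  interval_cases i <;> rfl

/-- The six symmetries of the diagram, as tables. -/
def six : List (List ℕ) := [[0, 1, 2, 3], [0, 1, 3, 2], [2, 1, 0, 3], [3, 1, 2, 0], [2, 1, 3, 0], [3, 1, 0, 2]]

theorem six_lt : ∀ L ∈ six, ∀ i < chevD4.rank, L.getD i 0 < chevD4.rank := by decide

theorem six_gen : ∀ L ∈ six, L = [0, 1, 2, 3] ∨ L = [2, 1, 0, 3] ∨ L = [2, 1, 3, 0] ∨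
    L = lmul [2, 1, 3, 0] [2, 1, 3, 0] ∨ L = lmul [2, 1, 0, 3] [2, 1, 3, 0] ∨
    L = lmul [2, 1, 3, 0] [2, 1, 0, 3] := by decide

theorem six_ext : ∀ L ∈ six, ∀ L' ∈ six, (∀ i < chevD4.rank, L.getD i 0 = L'.getD i 0) → L = L' := by
  decide

theorem d4_graphExp : ∀ (c i j : ℕ), i < chevD4.rank → j < chevD4.rank → chevD4.graphExp c i j = 1 := by
  intro c i j hi hj
  have h : ∀ i < chevD4.rank, ∀ j < chevD4.rank,
      (chevD4.isLong (chevD4.simple j) && !chevD4.isLong (chevD4.simple i)) = false := by decide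
  unfold ChevalleyDatum.graphExp
  rw [h i hi j hj]
  rfl

theorem d4_sym_cases : ∀ a b c d : Fin 4, (a ≠ b ∧ a ≠ c ∧ a ≠ d ∧ b ≠ c ∧ b ≠ d ∧ c ≠ d ∧
    chevD4.bonds b a = chevD4.bonds 1 0 ∧ chevD4.bonds b c = chevD4.bonds 1 2 ∧
    chevD4.bonds b d = chevD4.bonds 1 3) →
    [a.val, b.val, c.val, d.val] ∈ six := by
  decide +kernel

/-- The table of a permutation of the three outer nodes `0, 2, 3` of the diagram. -/
def tab (ρ : Equiv.Perm (Fin 3)) : List ℕ :=
  [![0, 2, 3] (ρ 0), 1, ![0, 2, 3] (ρ 1), ![0, 2, 3] (ρ 2)]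

theorem tab_mem : ∀ ρ : Equiv.Perm (Fin 3), tab ρ ∈ six := by decide

theorem tab_one : tab 1 = [0, 1, 2, 3] := by decide

theorem tab_mul : ∀ ρ ρ' : Equiv.Perm (Fin 3), lmul (tab ρ) (tab ρ') = tab (ρ * ρ') := by decide

theorem tab_inj : ∀ ρ ρ' : Equiv.Perm (Fin 3), tab ρ = tab ρ' → ρ = ρ' := by decide

theorem tab_surj : ∀ L ∈ six, ∃ ρ : Equiv.Perm (Fin 3), tab ρ = L := by decide

theorem tab_sym : ∀ ρ : Equiv.Perm (Fin 3), ∀ i < chevD4.rank, ∀ j < chevD4.rank, i ≠ j →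
    chevD4.bonds ((tab ρ).getD i 0) ((tab ρ).getD j 0) = chevD4.bonds i j := by decide +kernel

theorem tab_lt (ρ : Equiv.Perm (Fin 3)) : ∀ i < chevD4.rank, (tab ρ).getD i 0 < chevD4.rank :=
  six_lt _ (tab_mem ρ)

theorem tab_inv (ρ : Equiv.Perm (Fin 3)) : ∀ i < chevD4.rank, (tab ρ⁻¹).getD ((tab ρ).getD i 0) 0 = i := by
  intro i hi
  rw [← lmul_getD _ _ i hi, tab_mul, inv_mul_cancel, tab_one]
  have hi4 : i < 4 := hi
  interval_cases i <;> rfl

/-- The permutation of the nodes with table `tab ρ`. -/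
def permOf (ρ : Equiv.Perm (Fin 3)) : Equiv.Perm (Fin chevD4.rank) where
  toFun i := ⟨(tab ρ).getD i.val 0, tab_lt ρ i.val i.isLt⟩
  invFun i := ⟨(tab ρ⁻¹).getD i.val 0, tab_lt ρ⁻¹ i.val i.isLt⟩
  left_inv i := Fin.ext (tab_inv ρ i.val i.isLt)
  right_inv i := Fin.ext (by
    have h := tab_inv ρ⁻¹ i.val i.isLt
    rw [inv_inv] at h
    exact h)

theorem permOf_sym (ρ : Equiv.Perm (Fin 3)) : chevD4.IsDiagramSymmetry (permOf ρ) := by
  intro i j hij
  exact tab_sym ρ i.val i.isLt j.val j.isLt (fun h => hij (Fin.ext h))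

section

variable {F : Type u} [Field F]

theorem packB_D4 (F : Type u) [Field F] :
    PackB chevD4 F (zR chevD4 ctblD4) (fun i s => etaBit (etaD4.getD i 0) s) :=
  ⟨chk_D4.sem F, nconj_D4.semN chk_D4.tblOK F, comm_D4.semC chk_D4.tblOK F, tab_D4, tabC_D4, etaNeg_D4,
    tab2_D4⟩

/-- The automorphism `φ` acts on the fundamental root elements through the table `L`. -/
def LA (F : Type u) [Field F] (L : List ℕ) (φ : MulAut ↥(chevD4.group F)) : Prop :=
  ∀ (g : ↥(chevD4.group F)) (i : ℕ) (t : F), i < chevD4.rank →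
    (((g : GL chevD4.Idx F) : Matrix chevD4.Idx chevD4.Idx F) = chevD4.x F (chevD4.simple i) t →
      ((φ g : GL chevD4.Idx F) : Matrix chevD4.Idx chevD4.Idx F) =
        chevD4.x F (chevD4.simple (L.getD i 0)) t) ∧
    (((g : GL chevD4.Idx F) : Matrix chevD4.Idx chevD4.Idx F) = chevD4.x F (chevD4.neg (chevD4.simple i)) t →
      ((φ g : GL chevD4.Idx F) : Matrix chevD4.Idx chevD4.Idx F) =
        chevD4.x F (chevD4.neg (chevD4.simple (L.getD i 0))) t)

theorem LA.mul {L L' : List ℕ} {φ ψ : MulAut ↥(chevD4.group F)} (hφ : LA F L φ) (hψ : LA F L' ψ)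
    (hlt : ∀ i < chevD4.rank, L'.getD i 0 < chevD4.rank) : LA F (lmul L L') (φ * ψ) := by
  intro g i t hi
  rw [lmul_getD L L' i hi]
  exact ⟨fun hg => (hφ (ψ g) _ t (hlt i hi)).1 ((hψ g i t hi).1 hg),
    fun hg => (hφ (ψ g) _ t (hlt i hi)).2 ((hψ g i t hi).2 hg)⟩

theorem LA.one : LA F [0, 1, 2, 3] (1 : MulAut ↥(chevD4.group F)) := by
  intro g i t hi
  have hi4 : i < 4 := hi
  have e : ([0, 1, 2, 3] : List ℕ).getD i 0 = i := by interval_cases i <;> rfl
  rw [e]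
  exact ⟨fun h => h, fun h => h⟩

theorem LA.ext {L : List ℕ} {φ ψ : MulAut ↥(chevD4.group F)} (hφ : LA F L φ) (hψ : LA F L ψ) : φ = ψ := by
  have hP := packB_D4 F
  have e : φ.toMonoidHom = ψ.toMonoidHom := by
    apply Cfsg.Agent.H12.GraphFix.hom_ext_fund hP.sem hP.semN hP.tab
    intro g i t hi hg
    apply Subtype.ext
    apply Units.ext
    rcases hg with hg | hg
    · exact ((hφ g i t hi).1 hg).trans ((hψ g i t hi).1 hg).symm
    · exact ((hφ g i t hi).2 hg).trans ((hψ g i t hi).2 hg).symm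
  apply MulEquiv.ext
  intro g
  exact DFunLike.congr_fun e g

theorem LA.congr {L L' : List ℕ} {φ : MulAut ↥(chevD4.group F)} (hφ : LA F L φ) (h : L = L') : LA F L' φ :=
  h ▸ hφ

/-- An automorphism has at most one table. -/
theorem LA.inj {L L' : List ℕ} {φ : MulAut ↥(chevD4.group F)} (hφ : LA F L φ) (hφ' : LA F L' φ)
    (hL : ∀ i < chevD4.rank, L.getD i 0 < chevD4.rank) (hL' : ∀ i < chevD4.rank, L'.getD i 0 < chevD4.rank) :
    ∀ i < chevD4.rank, L.getD i 0 = L'.getD i 0 := by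
  intro i hi
  have hP := packB_D4 F
  have h1 := (hφ ⟨xU hP.sem (chevD4.simple i) 1, xU_mem_group hP.sem _ _⟩ i 1 hi).1 rfl
  have h2 := (hφ' ⟨xU hP.sem (chevD4.simple i) 1, xU_mem_group hP.sem _ _⟩ i 1 hi).1 rfl
  have e : xU hP.sem (chevD4.simple (L.getD i 0)) (1 : F) = xU hP.sem (chevD4.simple (L'.getD i 0)) 1 := by
    apply Units.ext
    rw [xU_val, xU_val, ← h1, ← h2]
  have e2 := xU_eq_imp hP _ _ (hP.tab.simple_lt _ (hL i hi)) (hP.tab.simple_lt _ (hL' i hi)) 1 1 e one_ne_zero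
  exact tab2_D4_simple_inj _ (hL i hi) _ (hL' i hi) e2

/-- Every one of the six tables is the table of an automorphism. -/
theorem la_exists (F : Type u) [Field F] : ∀ L ∈ six, ∃ φ : MulAut ↥(chevD4.group F), LA F L φ := by
  have hT : TblOK chevD4 tblD4 := all_of_allFrom _ 24 tbl_D4_file0
  obtain ⟨a, ha⟩ := graph_aut hT Cfsg.Agent.H56.OS.graphOK_D4t F
  obtain ⟨c, hc⟩ := graph_aut hT graphOK_D4a F
  have hA : LA F [2, 1, 0, 3] a := ha
  have hC : LA F [2, 1, 3, 0] c := hc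
  intro L hL
  rcases six_gen L hL with h | h | h | h | h | h
  · exact ⟨1, h ▸ LA.one⟩
  · exact ⟨a, h ▸ hA⟩
  · exact ⟨c, h ▸ hC⟩
  · exact ⟨c * c, h ▸ hC.mul hC (by decide)⟩
  · exact ⟨a * c, h ▸ hA.mul hC (by decide)⟩
  · exact ⟨c * a, h ▸ hC.mul hA (by decide)⟩

/-- A graph automorphism of `D₄(F)` acts through one of the six tables. -/
theorem la_of_graph {φ : MulAut ↥(chevD4.group F)} (hφ : chevD4.IsGraphAut φ) : ∃ L ∈ six, LA F L φ := by
  obtain ⟨π, hπ, hg⟩ := hφ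
  have hcase := d4_sym_cases (π ⟨0, by decide⟩) (π ⟨1, by decide⟩) (π ⟨2, by decide⟩) (π ⟨3, by decide⟩)
    ⟨fun h => absurd (π.injective h) (by decide), fun h => absurd (π.injective h) (by decide),
    fun h => absurd (π.injective h) (by decide), fun h => absurd (π.injective h) (by decide),
    fun h => absurd (π.injective h) (by decide), fun h => absurd (π.injective h) (by decide),
    hπ ⟨1, by decide⟩ ⟨0, by decide⟩ (by decide), hπ ⟨1, by decide⟩ ⟨2, by decide⟩ (by decide),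
    hπ ⟨1, by decide⟩ ⟨3, by decide⟩ (by decide)⟩
  refine ⟨_, hcase, ?_⟩
  intro g i t hi
  have hL : ((π ⟨i, hi⟩ : Fin chevD4.rank) : ℕ) =
      ([(π ⟨0, by decide⟩ : Fin chevD4.rank).val, (π ⟨1, by decide⟩ : Fin chevD4.rank).val,
        (π ⟨2, by decide⟩ : Fin chevD4.rank).val, (π ⟨3, by decide⟩ : Fin chevD4.rank).val] : List ℕ).getD i 0 := by
    have hi4 : i < 4 := hi
    interval_cases i <;> rfl
  have h := hg g ⟨i, hi⟩ t
  rw [d4_graphExp (ringChar F) i (π ⟨i, hi⟩) hi (π ⟨i, hi⟩).isLt, pow_one, hL] at h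
  exact h

/-- An automorphism with table `tab ρ` is a graph automorphism. -/
theorem graph_of_la {ρ : Equiv.Perm (Fin 3)} {φ : MulAut ↥(chevD4.group F)} (hφ : LA F (tab ρ) φ) :
    chevD4.IsGraphAut φ := by
  refine ⟨permOf ρ, permOf_sym ρ, fun g i t => ?_⟩
  have e : ((permOf ρ i : Fin chevD4.rank) : ℕ) = (tab ρ).getD i.val 0 := rfl
  rw [d4_graphExp (ringChar F) i (permOf ρ i) i.isLt (permOf ρ i).isLt, pow_one, e]
  exact hφ g i.val t i.isLt

end

/-- (P-GRAPH) -/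
theorem d4_graph_hom (F : Type u) [Field F] :
    ∃ Φ : Equiv.Perm (Fin 3) →* MulAut ↥(chevD4.group F), Function.Injective Φ ∧
      ∀ g : MulAut ↥(chevD4.group F), chevD4.IsGraphAut g ↔ g ∈ Φ.range := by
  have hex : ∀ ρ : Equiv.Perm (Fin 3), ∃ φ : MulAut ↥(chevD4.group F), LA F (tab ρ) φ :=
    fun ρ => la_exists F (tab ρ) (tab_mem ρ)
  choose φ hφ using hex
  let Φ : Equiv.Perm (Fin 3) →* MulAut ↥(chevD4.group F) :=
    { toFun := φ
      map_one' := ((hφ 1).congr tab_one).ext LA.one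
      map_mul' := fun ρ ρ' => (hφ (ρ * ρ')).ext (((hφ ρ).mul (hφ ρ') (tab_lt ρ')).congr (tab_mul ρ ρ')) }
  refine ⟨Φ, ?_, ?_⟩
  · intro ρ ρ' h
    have h' : φ ρ = φ ρ' := h
    apply tab_inj
    apply six_ext _ (tab_mem ρ) _ (tab_mem ρ')
    have h2 : LA F (tab ρ') (φ ρ) := h' ▸ hφ ρ'
    exact (hφ ρ).inj h2 (tab_lt ρ) (tab_lt ρ')
  · intro g
    constructor
    · intro hg
      obtain ⟨L, hL, hLA⟩ := la_of_graph hg
      obtain ⟨ρ, rfl⟩ := tab_surj L hL
      exact ⟨ρ, (hφ ρ).ext hLA⟩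
    · rintro ⟨ρ, rfl⟩
      exact graph_of_la (hφ ρ)

example (F : Type u) [Field F] : ∃ Φ : Equiv.Perm (Fin 3) →* MulAut ↥(chevD4.group F), Function.Injective Φ ∧
    ∀ g : MulAut ↥(chevD4.group F), chevD4.IsGraphAut g ↔ g ∈ Φ.range := d4_graph_hom F

end Cfsg.Agent.H12.D4P
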