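import Mathlib
import Cfsg.Agent.H75.ESDefs

/-!
# S6002 piece GRP2 (for helper75)

`grp2 : StGrp2`: no group of order 16 has centre of order 2 and abelian central quotient.

Proof.  `Z = {1, z}`.  All commutators lie in `Z`, so centralizers of non-central elements have
index 2.  Take `x ∉ Z`, `w` not commuting with `x`; `D = C(x) ⊓ C(w)` has index `≤ 4`, so
`|D| ≥ 4 > |Z|`: pick `a ∈ D ∖ Z`.  `E = C(a)` has order 8 and its centre contains `1, z, a`, so
`E / Z(E)` has order `≤ 2`, is cyclic, and `E` is abelian; but `x, w ∈ E` do not commute.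
-/

set_option autoImplicit false

namespace Cfsg.Agent.H12.ES

open Cfsg.Agent.H75.ES Matrix

universe u

theorem grp2 : StGrp2.{u} := by
  intro K _ _ hK hZ hcomm
  classical
  -- the non-trivial central element
  obtain ⟨z, hzc, hz1, hzall⟩ : ∃ z : K, z ∈ Subgroup.center K ∧ z ≠ 1 ∧
      ∀ c ∈ Subgroup.center K, c = 1 ∨ c = z := by
    have hZ' := hZ
    rw [Nat.card_eq_two_iff] at hZ'
    obtain ⟨u, v, huv, huniv⟩ := hZ'
    have hmem : ∀ c : Subgroup.center K, c = u ∨ c = v := by
      intro c
      have hc : c ∈ ({u, v} : Set (Subgroup.center K)) := by rw [huniv]; trivial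
      simpa using hc
    rcases hmem 1 with h1 | h1
    · refine ⟨v, v.2, ?_, ?_⟩
      · intro hv
        apply huv
        rw [← h1]
        exact Subtype.ext hv.symm
      · intro c hc
        rcases hmem ⟨c, hc⟩ with h | h
        · left
          rw [← h1] at h
          exact congrArg Subtype.val h
        · right
          exact congrArg Subtype.val h
    · refine ⟨u, u.2, ?_, ?_⟩
      · intro hu
        apply huv
        rw [← h1]
        exact Subtype.ext hu
      · intro c hc
        rcases hmem ⟨c, hc⟩ with h | h
        · right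
          exact congrArg Subtype.val h
        · left
          rw [← h1] at h
          exact congrArg Subtype.val h
  have hcz : ∀ a b : K, a * b * a⁻¹ * b⁻¹ = 1 ∨ a * b * a⁻¹ * b⁻¹ = z :=
    fun a b => hzall _ (hcomm a b)
  have hzz : z * z = 1 := by
    rcases hzall (z * z) (Subgroup.mul_mem _ hzc hzc) with h | h
    · exact h
    · exfalso
      apply hz1
      have h' : z * z = z * 1 := by rw [h, mul_one]
      exact mul_left_cancel h'
  have hzcomm : ∀ k : K, k * z = z * k := fun k => Subgroup.mem_center_iff.mp hzc k
  have hc1 : ∀ a b : K, a * b * a⁻¹ * b⁻¹ = 1 → a * b = b * a := by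
    intro a b h
    have h2 : a * b * a⁻¹ = b := mul_inv_eq_one.mp h
    exact mul_inv_eq_iff_eq_mul.mp h2
  have hcz' : ∀ u c : K, u * c ≠ c * u → u * c = z * c * u := by
    intro u c hu
    have e1 : u * c * u⁻¹ * c⁻¹ = z := (hcz u c).resolve_left (fun h => hu (hc1 u c h))
    have e2 : u * c * u⁻¹ * c⁻¹ * c * u = z * c * u := by rw [e1]
    simpa [mul_assoc] using e2
  -- if `u`, `v` do not commute with `c` then `u * v` does
  have hkey : ∀ c u v : K, u * c ≠ c * u → v * c ≠ c * v → (u * v) * c = c * (u * v) := by
    intro c u v hu hv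
    calc u * v * c = u * (v * c) := mul_assoc _ _ _
      _ = u * (z * c * v) := by rw [hcz' v c hv]
      _ = z * (u * c) * v := by
          rw [← mul_assoc, ← mul_assoc, hzcomm u, mul_assoc z u c]
      _ = z * (z * c * u) * v := by rw [hcz' u c hu]
      _ = (z * z) * c * u * v := by simp only [mul_assoc]
      _ = c * (u * v) := by rw [hzz, one_mul, mul_assoc]
  -- centralizers of non-central elements have index 2
  have hidx : ∀ c : K, c ∉ Subgroup.center K →
      (Subgroup.centralizer ({c} : Set K)).index = 2 := by
    intro c hc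
    obtain ⟨a, ha⟩ : ∃ a : K, a * c ≠ c * a := by
      by_contra hne
      push Not at hne
      exact hc (Subgroup.mem_center_iff.mpr hne)
    rw [Subgroup.index_eq_two_iff]
    refine ⟨a, fun b => ?_⟩
    have hmemC : ∀ g : K, g ∈ Subgroup.centralizer ({c} : Set K) ↔ c * g = g * c := by
      intro g
      rw [Subgroup.mem_centralizer_iff]
      constructor
      · intro h
        exact h c rfl
      · intro h k hk
        rw [Set.mem_singleton_iff.mp hk]
        exact h
    rw [hmemC, hmemC]
    by_cases hb : c * b = b * c
    · right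
      refine ⟨hb, fun hba => ha ?_⟩
      have h3 : b * (c * a) = b * (a * c) := by
        rw [← mul_assoc, ← hb, mul_assoc, hba, mul_assoc]
      exact (mul_left_cancel h3).symm
    · left
      exact ⟨(hkey c b a (fun h => hb h.symm) ha).symm, hb⟩
  -- choose x, w, a
  obtain ⟨x, hx⟩ : ∃ x : K, x ∉ Subgroup.center K := by
    by_contra hne
    push Not at hne
    have htop : Subgroup.center K = ⊤ := (Subgroup.eq_top_iff' _).mpr hne
    rw [htop, Subgroup.card_top, hK] at hZ
    omega
  obtain ⟨w, hw⟩ : ∃ w : K, w * x ≠ x * w := by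
    by_contra hne
    push Not at hne
    exact hx (Subgroup.mem_center_iff.mpr hne)
  have hwZ : w ∉ Subgroup.center K := fun h => hw ((Subgroup.mem_center_iff.mp h x).symm)
  have hDidx : (Subgroup.centralizer ({x} : Set K) ⊓ Subgroup.centralizer ({w} : Set K)).index
      ≤ 4 := by
    have h := Subgroup.index_inf_le (H := Subgroup.centralizer ({x} : Set K))
      (K := Subgroup.centralizer ({w} : Set K))
    rw [hidx x hx, hidx w hwZ] at h
    exact h
  have hDcard : 4 ≤ Nat.card
      ↥(Subgroup.centralizer ({x} : Set K) ⊓ Subgroup.centralizer ({w} : Set K)) := by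
    have h1 := Subgroup.card_mul_index
      (Subgroup.centralizer ({x} : Set K) ⊓ Subgroup.centralizer ({w} : Set K))
    rw [hK] at h1
    by_contra hlt
    push Not at hlt
    have h2 : Nat.card
        ↥(Subgroup.centralizer ({x} : Set K) ⊓ Subgroup.centralizer ({w} : Set K)) *
        (Subgroup.centralizer ({x} : Set K) ⊓ Subgroup.centralizer ({w} : Set K)).index
        ≤ 3 * 4 := Nat.mul_le_mul (by omega) hDidx
    omega
  obtain ⟨a, haD, haZ⟩ : ∃ a ∈ Subgroup.centralizer ({x} : Set K) ⊓
      Subgroup.centralizer ({w} : Set K), a ∉ Subgroup.center K := by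
    by_contra hne
    push Not at hne
    have hle : Subgroup.centralizer ({x} : Set K) ⊓ Subgroup.centralizer ({w} : Set K) ≤
        Subgroup.center K := hne
    have h := Subgroup.card_le_of_le hle
    omega
  have hax : x * a = a * x := Subgroup.mem_centralizer_iff.mp haD.1 x rfl
  have haw : w * a = a * w := Subgroup.mem_centralizer_iff.mp haD.2 w rfl
  have hEcard : Nat.card (Subgroup.centralizer ({a} : Set K)) = 8 := by
    have h1 := Subgroup.card_mul_index (Subgroup.centralizer ({a} : Set K))
    rw [hidx a haZ, hK] at h1
    omega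
  have hmemE : ∀ g : K, a * g = g * a → g ∈ Subgroup.centralizer ({a} : Set K) := by
    intro g h
    rw [Subgroup.mem_centralizer_iff]
    intro k hk
    rw [Set.mem_singleton_iff.mp hk]
    exact h
  have hxE : x ∈ Subgroup.centralizer ({a} : Set K) := hmemE x hax.symm
  have hwE : w ∈ Subgroup.centralizer ({a} : Set K) := hmemE w haw.symm
  have haE : a ∈ Subgroup.centralizer ({a} : Set K) := hmemE a rfl
  have hzE : z ∈ Subgroup.centralizer ({a} : Set K) := hmemE z (hzcomm a)
  have h3 : 2 < Nat.card (Subgroup.center (Subgroup.centralizer ({a} : Set K))) := by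
    have := Fintype.ofFinite (Subgroup.center (Subgroup.centralizer ({a} : Set K)))
    rw [Nat.card_eq_fintype_card, Fintype.two_lt_card_iff]
    refine ⟨1, ⟨⟨z, hzE⟩, ?_⟩, ⟨⟨a, haE⟩, ?_⟩, ?_, ?_, ?_⟩
    · rw [Subgroup.mem_center_iff]
      intro g
      exact Subtype.ext (hzcomm g)
    · rw [Subgroup.mem_center_iff]
      intro g
      apply Subtype.ext
      exact (Subgroup.mem_centralizer_iff.mp g.2 a rfl).symm
    · intro h
      apply hz1
      have h' := congrArg
        (fun c : Subgroup.center (Subgroup.centralizer ({a} : Set K)) =>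
          ((c : Subgroup.centralizer ({a} : Set K)) : K)) h
      exact h'.symm
    · intro h
      apply haZ
      have h' := congrArg
        (fun c : Subgroup.center (Subgroup.centralizer ({a} : Set K)) =>
          ((c : Subgroup.centralizer ({a} : Set K)) : K)) h
      have h'' : (1 : K) = a := h'
      rw [← h'']
      exact Subgroup.one_mem _
    · intro h
      apply haZ
      have h' := congrArg
        (fun c : Subgroup.center (Subgroup.centralizer ({a} : Set K)) =>
          ((c : Subgroup.centralizer ({a} : Set K)) : K)) h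
      have h'' : z = a := h'
      rw [← h'']
      exact hzc
  have hdvd : Nat.card (Subgroup.center (Subgroup.centralizer ({a} : Set K))) ∣ 8 := by
    rw [← hEcard]
    exact Subgroup.card_subgroup_dvd_card _
  have hq := Subgroup.card_eq_card_quotient_mul_card_subgroup
    (Subgroup.center (Subgroup.centralizer ({a} : Set K)))
  rw [hEcard] at hq
  have hq2 : Nat.card (Subgroup.centralizer ({a} : Set K) ⧸
      Subgroup.center (Subgroup.centralizer ({a} : Set K))) ∣ 2 := by
    have hle := Nat.le_of_dvd (by norm_num) hdvd
    generalize Nat.card (Subgroup.center (Subgroup.centralizer ({a} : Set K))) = c at *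
    generalize Nat.card (Subgroup.centralizer ({a} : Set K) ⧸
      Subgroup.center (Subgroup.centralizer ({a} : Set K))) = q at *
    have hc48 : c = 4 ∨ c = 8 := by
      interval_cases c <;> omega
    rcases hc48 with h | h
    · subst h
      exact ⟨1, by omega⟩
    · subst h
      exact ⟨2, by omega⟩
  have hp2 : Fact (Nat.Prime 2) := ⟨Nat.prime_two⟩
  have hcycq : IsCyclic (Subgroup.centralizer ({a} : Set K) ⧸
      Subgroup.center (Subgroup.centralizer ({a} : Set K))) := isCyclic_of_card_dvd_prime hq2
  have hcommE : IsMulCommutative (Subgroup.centralizer ({a} : Set K)) :=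
    MonoidHom.isMulCommutative_of_isCyclic_of_ker_le_center
      (QuotientGroup.mk' (Subgroup.center (Subgroup.centralizer ({a} : Set K))))
      (by rw [QuotientGroup.ker_mk'])
  have hxw := hcommE.is_comm.comm (⟨x, hxE⟩ : Subgroup.centralizer ({a} : Set K)) ⟨w, hwE⟩
  apply hw
  have h := congrArg Subtype.val hxw
  exact h.symm

example : StGrp2.{u} := grp2

end Cfsg.Agent.H12.ES
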