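import Mathlib
import Cfsg.Agent.H75.ESDefs

/-!
# S6002 piece SYL5 (for helper75)

`syl5 (hcyc : StCyc5) : StSyl5`: in a subgroup `H` of `GL_4(p)`, `p ≡ ±2 (mod 5)`, any two
elements of order five are conjugate up to a power: Sylow 5-subgroups of `H` are conjugate and
cyclic, and a cyclic group has at most `n` solutions of `c ^ n = 1`.
-/

set_option autoImplicit false

namespace Cfsg.Agent.H12.ES

open Cfsg.Agent.H75.ES Matrix

universe u

/-- in a finite cyclic group, an element with `c ^ n = 1` is a power of any element of order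
`n` -/
theorem mem_powers_of_cyclic {C : Type*} [Group C] [Finite C] [IsCyclic C] (n : ℕ) (hn : 0 < n)
    (c y : C) (hy : orderOf y = n) (hc : c ^ n = 1) : ∃ k : ℕ, c = y ^ k := by
  classical
  have := Fintype.ofFinite C
  have hle := IsCyclic.card_pow_eq_one_le (α := C) hn
  have hScard : ((Finset.range n).image (fun k => y ^ k)).card = n := by
    rw [Finset.card_image_of_injOn, Finset.card_range]
    intro a ha b hb hab
    have ha' : a ∈ Set.Iio (orderOf y) := by
      rw [hy]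
      exact Finset.mem_range.mp (Finset.mem_coe.mp ha)
    have hb' : b ∈ Set.Iio (orderOf y) := by
      rw [hy]
      exact Finset.mem_range.mp (Finset.mem_coe.mp hb)
    exact pow_injOn_Iio_orderOf ha' hb' hab
  have hSsub : (Finset.range n).image (fun k => y ^ k) ⊆
      Finset.univ.filter (fun a : C => a ^ n = 1) := by
    intro a ha
    obtain ⟨k, -, rfl⟩ := Finset.mem_image.mp ha
    rw [Finset.mem_filter]
    refine ⟨Finset.mem_univ _, ?_⟩
    rw [← pow_mul, mul_comm, pow_mul, ← hy, pow_orderOf_eq_one, one_pow]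
  have hEq : (Finset.range n).image (fun k => y ^ k) =
      Finset.univ.filter (fun a : C => a ^ n = 1) :=
    Finset.eq_of_subset_of_card_le hSsub (by rw [hScard]; exact hle)
  have hcS : c ∈ (Finset.range n).image (fun k => y ^ k) := by
    rw [hEq, Finset.mem_filter]
    exact ⟨Finset.mem_univ _, hc⟩
  obtain ⟨k, -, hk⟩ := Finset.mem_image.mp hcS
  exact ⟨k, hk.symm⟩

theorem syl5 (hcyc : StCyc5.{u}) : StSyl5.{u} := by
  intro F _ _ p _ hcard hp H x hx y hy hox hoy
  classical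
  have : Fact (Nat.Prime 5) := ⟨by norm_num⟩
  have hox' : orderOf (⟨x, hx⟩ : H) = 5 := by rw [← hox]; exact Subgroup.orderOf_mk x hx
  have hoy' : orderOf (⟨y, hy⟩ : H) = 5 := by rw [← hoy]; exact Subgroup.orderOf_mk y hy
  have hPx : IsPGroup 5 (Subgroup.zpowers (⟨x, hx⟩ : H)) := by
    apply IsPGroup.of_card (n := 1)
    rw [Nat.card_zpowers, hox', pow_one]
  have hPy : IsPGroup 5 (Subgroup.zpowers (⟨y, hy⟩ : H)) := by
    apply IsPGroup.of_card (n := 1)
    rw [Nat.card_zpowers, hoy', pow_one]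
  obtain ⟨Q, hQ⟩ := hPx.exists_le_sylow
  obtain ⟨P, hP⟩ := hPy.exists_le_sylow
  obtain ⟨g, hg⟩ := MulAction.exists_smul_eq H P Q
  have hxQ : (⟨x, hx⟩ : H) ∈ (Q : Subgroup H) := hQ (Subgroup.mem_zpowers _)
  have hyP : (⟨y, hy⟩ : H) ∈ (P : Subgroup H) := hP (Subgroup.mem_zpowers _)
  have hcP : g⁻¹ * (⟨x, hx⟩ : H) * g ∈ (P : Subgroup H) := by
    rw [← hg, Sylow.coe_subgroup_smul, Subgroup.mem_pointwise_smul_iff_inv_smul_mem] at hxQ
    rw [MulAut.smul_def, MulAut.conj_inv_apply] at hxQ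
    exact hxQ
  have hPcyc : IsCyclic (P : Subgroup H) := by
    have h1 : IsPGroup 5 ((P : Subgroup H).map H.subtype) := P.isPGroup'.map _
    have := hcyc F p hcard hp _ h1
    exact isCyclic_of_surjective
      ((P : Subgroup H).equivMapOfInjective H.subtype H.subtype_injective).symm
      (MulEquiv.surjective _)
  have hoyP : orderOf (⟨⟨y, hy⟩, hyP⟩ : (P : Subgroup H)) = 5 :=
    (Subgroup.orderOf_mk _ hyP).trans hoy'
  have hx5 : (⟨x, hx⟩ : H) ^ 5 = 1 := by
    have h := pow_orderOf_eq_one (⟨x, hx⟩ : H)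
    rw [hox'] at h
    exact h
  have hc5 : (⟨g⁻¹ * (⟨x, hx⟩ : H) * g, hcP⟩ : (P : Subgroup H)) ^ 5 = 1 := by
    apply Subtype.ext
    show (g⁻¹ * (⟨x, hx⟩ : H) * g) ^ 5 = 1
    have e : g⁻¹ * (⟨x, hx⟩ : H) * g = g⁻¹ * (⟨x, hx⟩ : H) * g⁻¹⁻¹ := by rw [inv_inv]
    rw [e, conj_pow, hx5]
    group
  obtain ⟨k, hk⟩ := mem_powers_of_cyclic (C := (P : Subgroup H)) 5 (by norm_num)
    ⟨g⁻¹ * (⟨x, hx⟩ : H) * g, hcP⟩ ⟨⟨y, hy⟩, hyP⟩ hoyP hc5
  refine ⟨(g : G4 F), g.2, k, ?_⟩
  have h := congrArg (fun a : (P : Subgroup H) => ((a : H) : G4 F)) hk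
  simpa using h

example (hcyc : StCyc5.{u}) : StSyl5.{u} := syl5 hcyc

end Cfsg.Agent.H12.ES
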