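import Mathlib
import Cfsg.Agent.H58.FCDefs

/-!
# Sub-project Z of S1353 / S1354 (helper58): piece FC-SUB — the Frobenius counting lemma inside an
ambient group, from the abstract commutative version `FC.StAb`.
-/

set_option autoImplicit false

namespace Cfsg.Agent.H12.KU

open Cfsg.Agent.H58.FC

universe u

section

variable {G : Type u} [Group G]

/-- conjugation by an element of the normalizer, restricted to the subgroup -/
def cj (V : Subgroup G) (g : G) (hg : g ∈ Subgroup.normalizer (V : Set G)) : MulAut ↥V where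
  toFun v := ⟨g * v * g⁻¹, (Subgroup.mem_normalizer_iff.mp hg v).mp v.2⟩
  invFun v := ⟨g⁻¹ * v * g, (Subgroup.mem_normalizer_iff''.mp hg v).mp v.2⟩
  left_inv v := by ext; simp [mul_assoc]
  right_inv v := by ext; simp [mul_assoc]
  map_mul' v w := by ext; simp [mul_assoc]

theorem cj_apply (V : Subgroup G) (g : G) (hg : g ∈ Subgroup.normalizer (V : Set G)) (v : ↥V) :
    ((cj V g hg v : ↥V) : G) = g * v * g⁻¹ := rfl

theorem cj_pow_apply (V : Subgroup G) (g : G) (hg : g ∈ Subgroup.normalizer (V : Set G)) (m : ℕ)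
    (v : ↥V) : (((cj V g hg) ^ m) v : G) = g ^ m * v * (g ^ m)⁻¹ := by
  induction m generalizing v with
  | zero => simp
  | succ m ih =>
    rw [pow_succ, MulAut.mul_apply, ih, cj_apply, pow_succ]
    group

/-- the commutative group structure on a commutative subgroup -/
@[reducible] def commV (V : Subgroup G) (hc : ∀ x ∈ V, ∀ y ∈ V, x * y = y * x) : CommGroup ↥V :=
  { V.toGroup with mul_comm := fun x y => Subtype.ext (hc x x.2 y y.2) }

/-- (FC-SUB) -/
theorem sub (h : StAb.{u}) : StSub G := by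
  intro V b e r hr hfin hc hb he hbr hez hfaith hfix hn
  -- the exponent `k`
  have hbfin : IsOfFinOrder b := by
    rw [← orderOf_pos_iff, hbr]
    exact hr.pos
  have hmem : e * b * e⁻¹ ∈ Subgroup.zpowers b :=
    (Subgroup.mem_normalizer_iff.mp hez b).mp (Subgroup.mem_zpowers b)
  obtain ⟨k, hk⟩ := hbfin.mem_powers_iff_mem_zpowers.mpr hmem
  have hk' : b ^ k = e * b * e⁻¹ := hk
  -- powers of `e` act on `b` by powers of `k`
  have hpow : ∀ i : ℕ, e ^ i * b * (e ^ i)⁻¹ = b ^ (k ^ i) := by
    intro i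
    induction i with
    | zero => simp
    | succ i ih =>
      have e1 : e ^ (i + 1) * b * (e ^ (i + 1))⁻¹ = e * (e ^ i * b * (e ^ i)⁻¹) * e⁻¹ := by
        rw [pow_succ']
        group
      rw [e1, ih, pow_succ, pow_mul]
      have e2 : e * (b ^ k ^ i) * e⁻¹ = (e * b * e⁻¹) ^ (k ^ i) := by
        rw [conj_pow]
      rw [e2, ← hk', ← pow_mul, ← pow_mul, mul_comm]
  have frob : Frob ↥V (cj V b hb) (cj V e he) r (orderOf e) k := by
    refine ⟨hr, hn, ?_, ?_, ?_, ?_, ?_⟩
    · ext v
      rw [cj_pow_apply, ← hbr, pow_orderOf_eq_one]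
      simp
    · ext v
      rw [cj_pow_apply, pow_orderOf_eq_one]
      simp
    · ext v
      rw [cj_pow_apply, hk']
      show e * (b * (e⁻¹ * v * e) * b⁻¹) * e⁻¹ = _
      group
    · intro i hi0 hin hmod
      have h1 : b ^ (k ^ i) = b ^ 1 := by
        rw [pow_eq_pow_iff_modEq, hbr]
        exact hmod
      have h2 : e ^ i * b = b * e ^ i := by
        have := hpow i
        rw [h1, pow_one] at this
        calc e ^ i * b = (e ^ i * b * (e ^ i)⁻¹) * e ^ i := by group
          _ = b * e ^ i := by rw [this]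
      have h3 := hfaith i h2
      have h4 := Nat.le_of_dvd hi0 (orderOf_dvd_of_pow_eq_one h3)
      omega
    · intro t ht
      have h1 : b * (t : G) * b⁻¹ = t := congrArg Subtype.val ht
      have h2 : b * (t : G) = t * b := by
        calc b * (t : G) = (b * (t : G) * b⁻¹) * b := by group
          _ = t * b := by rw [h1]
      exact Subtype.ext (hfix t t.2 h2)
  have key := @h ↥V (commV V hc) hfin (cj V b hb) (cj V e he) r (orderOf e) k frob
  rw [key]
  congr 1
  apply Nat.card_congr
  refine ⟨fun t => ⟨t.1.1, ⟨t.1.2, ?_⟩⟩, fun s => ⟨⟨s.1, s.2.1⟩, ?_⟩, ?_, ?_⟩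
  · show ((t.1 : ↥V) : G) ∈ Subgroup.centralizer ({e} : Set G)
    rw [Subgroup.mem_centralizer_iff]
    intro x hx
    rw [Set.mem_singleton_iff] at hx
    subst hx
    have h1 : x * (t.1 : G) * x⁻¹ = t.1 := congrArg Subtype.val t.2
    calc x * (t.1 : G) = (x * (t.1 : G) * x⁻¹) * x := by group
      _ = t.1 * x := by rw [h1]
  · apply Subtype.ext
    show e * (s : G) * e⁻¹ = s
    have h1 := (Subgroup.mem_centralizer_iff.mp s.2.2) e (Set.mem_singleton e)
    rw [h1]
    group
  · intro t
    rfl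
  · intro s
    rfl

end

example {G : Type u} [Group G] : StSub G =
    (∀ (V : Subgroup G) (b e : G) (r : ℕ), r.Prime → Finite V →
    (∀ x ∈ V, ∀ y ∈ V, x * y = y * x) →
    b ∈ Subgroup.normalizer (V : Set G) → e ∈ Subgroup.normalizer (V : Set G) →
    orderOf b = r → e ∈ Subgroup.normalizer ((Subgroup.zpowers b : Subgroup G) : Set G) →
    (∀ i : ℕ, e ^ i * b = b * e ^ i → e ^ i = 1) →
    (∀ v ∈ V, b * v = v * b → v = 1) → 0 < orderOf e →
    Nat.card V = Nat.card ↥(V ⊓ Subgroup.centralizer ({e} : Set G)) ^ orderOf e) :=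
  rfl

end Cfsg.Agent.H12.KU
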