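import Mathlib
import Cfsg.Agent.H95.FHDefs

set_option autoImplicit false

/-! helper12: piece S1142-EXPAND of helper95's S1142 team project (Feit–Higman) — every element
of the Hecke algebra is expanded in the `2 n` alternating words by means of the trace form. -/

namespace Cfsg.Agent.H12.FH

open Matrix Cfsg.Agent.H95.FH

universe u

theorem trace_transpose_mul {Ω : Type u} [Fintype Ω] (B C : Matrix Ω Ω ℝ) :
    (Bᵀ * C).trace = ∑ x, ∑ y, B x y * C x y := by
  simp only [Matrix.trace, Matrix.diag_apply, Matrix.mul_apply, Matrix.transpose_apply]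
  exact Finset.sum_comm

theorem trace_zero_of_disj {Ω : Type u} [Fintype Ω] (B C : Matrix Ω Ω ℝ)
    (h : ∀ x y, B x y * C x y = 0) : (Bᵀ * C).trace = 0 := by
  rw [trace_transpose_mul]
  exact Finset.sum_eq_zero fun x _ => Finset.sum_eq_zero fun y _ => h x y

theorem trace_self_of_zo {Ω : Type u} [Fintype Ω] (B : Matrix Ω Ω ℝ) (w : ℝ)
    (hzo : ∀ x y, B x y = 0 ∨ B x y = 1) (hrow : ∀ x, ∑ y, B x y = w) :
    (Bᵀ * B).trace = (Fintype.card Ω : ℝ) * w := by
  rw [trace_transpose_mul]
  have h1 : ∀ x, ∑ y, B x y * B x y = w := by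
    intro x
    rw [← hrow x]
    apply Finset.sum_congr rfl
    intro y _
    rcases hzo x y with h | h <;> rw [h] <;> ring
  rw [Finset.sum_congr rfl (fun x _ => h1 x), Finset.sum_const, Finset.card_univ, nsmul_eq_mul]

theorem wt_pos (p q : ℕ) (hp : 2 ≤ p) (hq : 2 ≤ q) (k : ℕ) : 0 < wt (p : ℝ) (q : ℝ) k := by
  unfold wt
  have hp' : (0 : ℝ) < p := by exact_mod_cast (by omega : 0 < p)
  have hq' : (0 : ℝ) < q := by exact_mod_cast (by omega : 0 < q)
  positivity

/-- **S1142-EXPAND.** -/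
theorem expand (hR : RowStmt.{u}) : ExpandStmt.{u} := by
  intro Ω _ _ a c p q n H X hX
  obtain ⟨-, hrow_a, hrow_c⟩ := hR a c p q n H
  have hN : (Fintype.card Ω : ℝ) ≠ 0 := by
    have := H.ne
    exact_mod_cast Fintype.card_ne_zero
  -- the expansion map
  obtain ⟨Φ, hΦ⟩ : ∃ Φ : Matrix Ω Ω ℝ → Matrix Ω Ω ℝ, ∀ X, Φ X =
      ∑ k ∈ Finset.range (n + 1),
          (((alt a c k)ᵀ * X).trace / ((Fintype.card Ω : ℝ) * wt p q k)) • alt a c k +
        ∑ l ∈ Finset.Ico 1 n,
          (((alt c a l)ᵀ * X).trace / ((Fintype.card Ω : ℝ) * wt q p l)) • alt c a l :=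
    ⟨_, fun _ => rfl⟩
  rw [← hΦ]
  have hzero : Φ 0 = 0 := by
    rw [hΦ]
    simp
  have hadd : ∀ X Y, Φ (X + Y) = Φ X + Φ Y := by
    intro X Y
    rw [hΦ, hΦ, hΦ]
    simp only [Matrix.mul_add, Matrix.trace_add, add_div, add_smul, Finset.sum_add_distrib]
    abel
  have hsmul : ∀ (t : ℝ) X, Φ (t • X) = t • Φ X := by
    intro t X
    rw [hΦ, hΦ]
    simp only [Matrix.mul_smul, Matrix.trace_smul, smul_eq_mul, mul_div_assoc, mul_smul,
      Finset.smul_sum, smul_add]
  refine Submodule.span_induction (p := fun X _ => X = Φ X) ?_ hzero.symm ?_ ?_ hX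
  · rintro B (⟨k₀, hk₀, rfl⟩ | ⟨l₀, hl₀, hl₀n, rfl⟩)
    · -- `B = alt a c k₀`
      rw [hΦ]
      have h2 : ∑ l ∈ Finset.Ico 1 n,
          (((alt c a l)ᵀ * alt a c k₀).trace / ((Fintype.card Ω : ℝ) * wt q p l)) • alt c a l
          = 0 := by
        apply Finset.sum_eq_zero
        intro l hl
        rw [Finset.mem_Ico] at hl
        rw [trace_zero_of_disj _ _ (fun x y => by
          rw [mul_comm]; exact H.disj_ac k₀ l hk₀ hl.1 hl.2 x y), zero_div, zero_smul]
      have h1 : ∑ k ∈ Finset.range (n + 1),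
          (((alt a c k)ᵀ * alt a c k₀).trace / ((Fintype.card Ω : ℝ) * wt p q k)) • alt a c k
          = alt a c k₀ := by
        rw [Finset.sum_eq_single k₀]
        · rw [trace_self_of_zo _ _ (H.zo_a k₀ hk₀) (hrow_a k₀ hk₀),
            div_self (mul_ne_zero hN (wt_pos p q H.hp H.hq k₀).ne'), one_smul]
        · intro k hk hkk
          rw [Finset.mem_range] at hk
          rw [trace_zero_of_disj _ _ (H.disj_aa k k₀ (by omega) hk₀ hkk), zero_div, zero_smul]
        · intro hk
          exact absurd (Finset.mem_range.2 (by omega)) hk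
      rw [h1, h2, add_zero]
    · -- `B = alt c a l₀`
      rw [hΦ]
      have h1 : ∑ k ∈ Finset.range (n + 1),
          (((alt a c k)ᵀ * alt c a l₀).trace / ((Fintype.card Ω : ℝ) * wt p q k)) • alt a c k
          = 0 := by
        apply Finset.sum_eq_zero
        intro k hk
        rw [Finset.mem_range] at hk
        rw [trace_zero_of_disj _ _ (H.disj_ac k l₀ (by omega) hl₀ hl₀n), zero_div, zero_smul]
      have h2 : ∑ l ∈ Finset.Ico 1 n,
          (((alt c a l)ᵀ * alt c a l₀).trace / ((Fintype.card Ω : ℝ) * wt q p l)) • alt c a l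
          = alt c a l₀ := by
        rw [Finset.sum_eq_single l₀]
        · rw [trace_self_of_zo _ _ (H.zo_c l₀ (by omega)) (hrow_c l₀ (by omega)),
            div_self (mul_ne_zero hN (wt_pos q p H.hq H.hp l₀).ne'), one_smul]
        · intro l hl hll
          rw [Finset.mem_Ico] at hl
          rw [trace_zero_of_disj _ _ (H.disj_cc l l₀ (by omega) (by omega) hll), zero_div,
            zero_smul]
        · intro hl
          exact absurd (Finset.mem_Ico.2 ⟨hl₀, hl₀n⟩) hl
      rw [h1, h2, zero_add]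
  · intro X Y _ _ hX hY
    rw [hadd, ← hX, ← hY]
  · intro t X _ hX
    rw [hsmul, ← hX]

end Cfsg.Agent.H12.FH

section check
universe u
open Cfsg.Agent.H95.FH in
example (hR : RowStmt.{u}) : ExpandStmt.{u} := Cfsg.Agent.H12.FH.expand hR
end check
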