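import Mathlib
import Cfsg.Agent.H95.FHDefs

set_option autoImplicit false

/-! helper12: piece S1142-GAM of helper95's S1142 team project (Feit–Higman) — the matrix
coefficients `gam` of the alternating words in `a2 p μ`, `c2 q` are given by the sequence `Gseq`. -/

namespace Cfsg.Agent.H12.FH

open Matrix Cfsg.Agent.H95.FH

theorem alt_two_mul {R : Type*} [Monoid R] (x y : R) (k : ℕ) : alt x y (2 * k) = (x * y) ^ k := by
  induction k with
  | zero =>
    rw [pow_zero]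
    rfl
  | succ k ih =>
    have e : 2 * (k + 1) = (2 * k + 1) + 1 := by ring
    rw [e]
    show x * alt y x (2 * k + 1) = _
    show x * (y * alt x y (2 * k)) = _
    rw [ih, pow_succ', mul_assoc]

theorem gam_a2_mul (p μ : ℝ) (Z : Matrix (Fin 2) (Fin 2) ℝ) :
    gam μ (a2 p μ * Z) = p * gam μ Z := by
  simp only [gam, a2, Matrix.mul_apply, Fin.sum_univ_two, Matrix.of_apply, Matrix.cons_val',
    Matrix.cons_val_zero, Matrix.cons_val_one, Matrix.cons_val_fin_one]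
  ring

theorem gam_one (μ : ℝ) : gam μ (1 : Matrix (Fin 2) (Fin 2) ℝ) = 1 := by
  simp [gam]

theorem gam_lin (μ T s : ℝ) (X Y : Matrix (Fin 2) (Fin 2) ℝ) :
    gam μ (T • X - s • Y) = T * gam μ X - s * gam μ Y := by
  simp only [gam, Matrix.sub_apply, Matrix.smul_apply, smul_eq_mul]
  ring

theorem ac_sq (p q μ : ℝ) :
    (a2 p μ * c2 q) * (a2 p μ * c2 q) =
      ((p + 1) * (q + 1) * μ - p - q) • (a2 p μ * c2 q) - (p * q) • (1 : Matrix (Fin 2) (Fin 2) ℝ) := by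
  ext i j
  fin_cases i <;> fin_cases j <;>
    simp [a2, c2, Matrix.mul_apply, Fin.sum_univ_two] <;> ring

theorem ca_sq (p q μ : ℝ) :
    (c2 q * a2 p μ) * (c2 q * a2 p μ) =
      ((p + 1) * (q + 1) * μ - p - q) • (c2 q * a2 p μ) - (p * q) • (1 : Matrix (Fin 2) (Fin 2) ℝ) := by
  ext i j
  fin_cases i <;> fin_cases j <;>
    simp [a2, c2, Matrix.mul_apply, Fin.sum_univ_two] <;> ring

theorem gam_ac (p q μ : ℝ) : gam μ (a2 p μ * c2 q) = p * ((q + 1) * μ - 1) := by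
  simp only [gam, a2, c2, Matrix.mul_apply, Fin.sum_univ_two, Matrix.of_apply, Matrix.cons_val',
    Matrix.cons_val_zero, Matrix.cons_val_one, Matrix.cons_val_fin_one]
  ring

theorem gam_ca (p q μ : ℝ) : gam μ (c2 q * a2 p μ) = p * ((q + 1) * μ - 1) := by
  simp only [gam, a2, c2, Matrix.mul_apply, Fin.sum_univ_two, Matrix.of_apply, Matrix.cons_val',
    Matrix.cons_val_zero, Matrix.cons_val_one, Matrix.cons_val_fin_one]
  ring

theorem gam_pow (p q μ : ℝ) (M : Matrix (Fin 2) (Fin 2) ℝ)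
    (hM : M * M = ((p + 1) * (q + 1) * μ - p - q) • M - (p * q) • (1 : Matrix (Fin 2) (Fin 2) ℝ))
    (h1 : gam μ M = p * ((q + 1) * μ - 1)) (k : ℕ) :
    gam μ (M ^ k) = Gseq p q μ k ∧ gam μ (M ^ (k + 1)) = Gseq p q μ (k + 1) := by
  induction k with
  | zero =>
    refine ⟨?_, ?_⟩
    · rw [pow_zero, gam_one]; rfl
    · rw [zero_add, pow_one, h1]; rfl
  | succ k ih =>
    refine ⟨ih.2, ?_⟩
    have e : M ^ (k + 1 + 1) = ((p + 1) * (q + 1) * μ - p - q) • M ^ (k + 1) - (p * q) • M ^ k := by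
      rw [pow_succ, pow_succ, mul_assoc, hM, mul_sub, Matrix.mul_smul, Matrix.mul_smul, mul_one,
        ← pow_succ]
    rw [e, gam_lin, ih.1, ih.2]
    rfl

/-- **S1142-GAM.** -/
theorem gamStmt : Cfsg.Agent.H95.FH.GamStmt := by
  intro p q μ hp k
  have hA : gam μ (alt (a2 p μ) (c2 q) (2 * k)) = Gseq p q μ k := by
    rw [alt_two_mul]
    exact (gam_pow p q μ _ (ac_sq p q μ) (gam_ac p q μ) k).1
  have hC : ∀ j : ℕ, gam μ (alt (c2 q) (a2 p μ) (2 * j)) = Gseq p q μ j := by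
    intro j
    rw [alt_two_mul]
    exact (gam_pow p q μ _ (ca_sq p q μ) (gam_ca p q μ) j).1
  have hA' : ∀ j : ℕ, gam μ (alt (a2 p μ) (c2 q) (2 * j)) = Gseq p q μ j := by
    intro j
    rw [alt_two_mul]
    exact (gam_pow p q μ _ (ac_sq p q μ) (gam_ac p q μ) j).1
  refine ⟨hA, ?_, hC k, ?_⟩
  · show gam μ (a2 p μ * alt (c2 q) (a2 p μ) (2 * k)) = _
    rw [gam_a2_mul, hC k]
  · have e : gam μ (a2 p μ * alt (c2 q) (a2 p μ) (2 * k + 1)) = Gseq p q μ (k + 1) := by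
      have e2 : a2 p μ * alt (c2 q) (a2 p μ) (2 * k + 1) = alt (a2 p μ) (c2 q) (2 * (k + 1)) := rfl
      rw [e2, hA' (k + 1)]
    rw [gam_a2_mul] at e
    rw [← e]
    field_simp

end Cfsg.Agent.H12.FH

section check
example : Cfsg.Agent.H95.FH.GamStmt := Cfsg.Agent.H12.FH.gamStmt
end check
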