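import Mathlib
import Cfsg.Agent.H12.Basic
import Cfsg.Agent.H12.Index

/-!
# Iterated focal subgroups and normal complements (helper12)
-/

set_option autoImplicit false
open Pointwise
open scoped commutatorElement

namespace Cfsg.Agent.H12

universe u

section

variable {G : Type*} [Group G]

theorem focalSubgroup_mono {K K' : Subgroup G} (h : K ≤ K') :
    K.focalSubgroup ≤ K'.focalSubgroup := by
  rw [Subgroup.focalSubgroup_def, Subgroup.focalSubgroup_def]
  apply Subgroup.closure_mono
  rintro g ⟨hg, x, hx, u, rfl⟩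
  exact ⟨h hg, x, h hx, u, rfl⟩

theorem map_subtype_focalSubgroup_le (L : Subgroup G) (X : Subgroup L) :
    (X.focalSubgroup).map L.subtype ≤ (X.map L.subtype).focalSubgroup := by
  rw [Subgroup.focalSubgroup_def, Subgroup.map_le_iff_le_comap, Subgroup.closure_le]
  rintro g ⟨hg, x, hx, u, rfl⟩
  rw [SetLike.mem_coe, Subgroup.mem_comap]
  apply Subgroup.subset_closure
  refine ⟨Subgroup.mem_map_of_mem _ hg, (x : G), Subgroup.mem_map_of_mem _ hx, (u : G), ?_⟩
  simp [commutatorElement_def]

theorem map_iterate_focalSubgroup_le (L : Subgroup G) (X : Subgroup L) (n : ℕ) :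
    ((fun K : Subgroup L => K.focalSubgroup)^[n] X).map L.subtype ≤
      (fun K : Subgroup G => K.focalSubgroup)^[n] (X.map L.subtype) := by
  induction n with
  | zero => exact le_rfl
  | succ n ih =>
    rw [Function.iterate_succ_apply', Function.iterate_succ_apply']
    exact (map_subtype_focalSubgroup_le L _).trans (focalSubgroup_mono ih)

theorem card_subgroupOf_of_le' {K L : Subgroup G} (h : K ≤ L) :
    Nat.card (K.subgroupOf L) = Nat.card K :=
  Nat.card_congr (Subgroup.subgroupOfEquivOfLe h).toEquiv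

/-- For a Hall subgroup `H`, the kernel of the transfer into `H / Foc(H)` is a normal subgroup
`G₁` with `G₁ ∩ H = Foc(H)` and `G₁ H = G`. -/
theorem exists_normal_inf_eq_focal [Finite G] (H : Subgroup G)
    (hHall : (Nat.card H).Coprime H.index) :
    ∃ G₁ : Subgroup G, G₁.Normal ∧ G₁ ⊓ H = H.focalSubgroup ∧ G₁ ⊔ H = ⊤ := by
  have hQcop : (Nat.card (H ⧸ H.focalSubgroupOf)).Coprime H.index :=
    Nat.Coprime.coprime_dvd_left (Subgroup.card_quotient_dvd_card _) hHall
  refine ⟨H.transferFocal.ker, inferInstance, ?_, ?_⟩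
  · ext x
    constructor
    · rintro ⟨hxk0, hxH0⟩
      have hxH : x ∈ H := hxH0
      have hxk : x ∈ H.transferFocal.ker := hxk0
      have h1 : H.transferFocal x = ((⟨x, hxH⟩ : H) : H ⧸ H.focalSubgroupOf) ^ H.index :=
        H.transferFocal_eq_pow ⟨x, hxH⟩
      rw [MonoidHom.mem_ker] at hxk
      rw [hxk] at h1
      have h2 : ((⟨x, hxH⟩ : H) : H ⧸ H.focalSubgroupOf) = 1 := by
        apply (powCoprime hQcop).injective
        show ((⟨x, hxH⟩ : H) : H ⧸ H.focalSubgroupOf) ^ H.index = 1 ^ H.index
        rw [← h1, one_pow]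
      rw [QuotientGroup.eq_one_iff] at h2
      exact h2
    · intro hx
      have hxH : x ∈ H := H.focalSubgroup_le hx
      refine ⟨?_, hxH⟩
      show x ∈ H.transferFocal.ker
      rw [MonoidHom.mem_ker]
      have h1 : H.transferFocal x = ((⟨x, hxH⟩ : H) : H ⧸ H.focalSubgroupOf) ^ H.index :=
        H.transferFocal_eq_pow ⟨x, hxH⟩
      rw [h1, (QuotientGroup.eq_one_iff _).mpr (show (⟨x, hxH⟩ : H) ∈ H.focalSubgroupOf from hx),
        one_pow]
  · rw [eq_top_iff]
    intro g _
    obtain ⟨y, hy⟩ := (powCoprime hQcop).surjective (H.transferFocal g)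
    obtain ⟨x, rfl⟩ := QuotientGroup.mk_surjective y
    have hy' : (x : H ⧸ H.focalSubgroupOf) ^ H.index = H.transferFocal g := hy
    have h1 : H.transferFocal (x : G) = (x : H ⧸ H.focalSubgroupOf) ^ H.index :=
      H.transferFocal_eq_pow x
    have h2 : H.transferFocal (g * (x : G)⁻¹) = 1 := by
      rw [map_mul, map_inv, h1, hy', mul_inv_cancel]
    have e : g = (g * (x : G)⁻¹) * x := by group
    rw [e]
    exact Subgroup.mul_mem _ (le_sup_left (b := H) (MonoidHom.mem_ker.mpr h2))
      (le_sup_right (a := H.transferFocal.ker) x.2)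

end

theorem exists_normal_complement_of_iterate_focal_aux (n : ℕ) :
    ∀ (G : Type u) [Group G] [Finite G] (H : Subgroup G),
    (Nat.card H).Coprime H.index → (fun K : Subgroup G => K.focalSubgroup)^[n] H = ⊥ →
    ∃ N : Subgroup G, N.Normal ∧ Subgroup.IsComplement' N H := by
  induction n with
  | zero =>
    intro G _ _ H _ hH
    simp only [Function.iterate_zero, id] at hH
    subst hH
    exact ⟨⊤, inferInstance, Subgroup.isComplement'_top_bot⟩
  | succ n ih =>
    intro G _ _ H hHall hfoc
    rw [Function.iterate_succ_apply] at hfoc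
    obtain ⟨G₁, hG₁n, hG₁H, hG₁sup⟩ := exists_normal_inf_eq_focal H hHall
    have hH₁G₁ : H.focalSubgroup ≤ G₁ := hG₁H ▸ inf_le_left
    have hH₁H : H.focalSubgroup ≤ H := H.focalSubgroup_le
    have hidx : (H.focalSubgroup.subgroupOf G₁).index = H.index := by
      show H.focalSubgroup.relIndex G₁ = H.index
      rw [← hG₁H, Subgroup.inf_relIndex_left, ← relIndex_sup_eq_relIndex_of_normal H G₁, sup_comm,
        hG₁sup, Subgroup.relIndex_top_right]
    have hcard₁ : Nat.card (H.focalSubgroup.subgroupOf G₁) = Nat.card H.focalSubgroup :=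
      card_subgroupOf_of_le' hH₁G₁
    have hcop : (Nat.card H.focalSubgroup).Coprime H.index :=
      Nat.Coprime.coprime_dvd_left (Subgroup.card_dvd_of_le hH₁H) hHall
    have hHall₁ : (Nat.card (H.focalSubgroup.subgroupOf G₁)).Coprime
        (H.focalSubgroup.subgroupOf G₁).index := by
      rw [hidx, hcard₁]; exact hcop
    have hfoc₁ : (fun K : Subgroup G₁ => K.focalSubgroup)^[n] (H.focalSubgroup.subgroupOf G₁)
        = ⊥ := by
      have h1 := map_iterate_focalSubgroup_le G₁ (H.focalSubgroup.subgroupOf G₁) n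
      rw [Subgroup.map_subgroupOf_eq_of_le hH₁G₁, hfoc, le_bot_iff] at h1
      exact (Subgroup.map_eq_bot_iff_of_injective _ G₁.subtype_injective).mp h1
    obtain ⟨N', hN'n, hN'c⟩ := ih G₁ (H.focalSubgroup.subgroupOf G₁) hHall₁ hfoc₁
    have hN'card : Nat.card N' = H.index := by
      rw [← hidx]; exact hN'c.index_eq_card.symm
    have hN'idx : N'.index = Nat.card H.focalSubgroup := by
      rw [← hcard₁]; exact hN'c.symm.index_eq_card
    have huniq : ∀ X : Subgroup G₁, Nat.card X = Nat.card N' → X = N' := by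
      intro X hX
      have h1 : N'.relIndex X ∣ N'.index := Subgroup.relIndex_dvd_index_of_normal N' X
      have h2 : N'.relIndex X ∣ Nat.card X := Subgroup.relIndex_dvd_card N' X
      rw [hN'idx] at h1
      rw [hX, hN'card] at h2
      have h3 : X ≤ N' := Subgroup.relIndex_eq_one.mp (Nat.eq_one_of_dvd_coprimes hcop h1 h2)
      exact Subgroup.eq_of_le_of_card_ge h3 hX.ge
    refine ⟨N'.map G₁.subtype, ?_, ?_⟩
    · have hNG₁ : N'.map G₁.subtype ≤ G₁ := Subgroup.map_subtype_le N'
      rw [← Subgroup.normalizer_eq_top_iff, eq_top_iff]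
      intro g _
      rw [← conj_smul_eq_iff_mem_normalizer]
      have hle : MulAut.conj g • N'.map G₁.subtype ≤ G₁ := by
        calc MulAut.conj g • N'.map G₁.subtype ≤ MulAut.conj g • G₁ :=
              Subgroup.pointwise_smul_le_pointwise_smul_iff.mpr hNG₁
          _ = G₁ := Subgroup.Normal.conj_smul_eq_self g G₁
      have h1 := huniq ((MulAut.conj g • N'.map G₁.subtype).subgroupOf G₁) (by
        rw [card_subgroupOf_of_le' hle, card_conj_smul, Subgroup.card_subtype])
      have h2 := congrArg (Subgroup.map G₁.subtype) h1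
      rwa [Subgroup.map_subgroupOf_eq_of_le hle] at h2
    · apply Subgroup.isComplement'_of_coprime
      · rw [Subgroup.card_subtype, hN'card, mul_comm]; exact Subgroup.card_mul_index H
      · rw [Subgroup.card_subtype, hN'card]; exact hHall.symm

/-- A Hall subgroup whose iterated focal subgroups reach the trivial subgroup has a normal
complement. -/
theorem exists_normal_complement_of_iterate_focal {G : Type u} [Group G] [Finite G]
    (H : Subgroup G) (hHall : (Nat.card H).Coprime H.index) (n : ℕ)
    (hfoc : (fun K : Subgroup G => K.focalSubgroup)^[n] H = ⊥) :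
    ∃ N : Subgroup G, N.Normal ∧ Subgroup.IsComplement' N H :=
  exists_normal_complement_of_iterate_focal_aux n G H hHall hfoc

end Cfsg.Agent.H12
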