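import Mathlib
import Cfsg.Agent.H12.Focal
import Cfsg.Agent.H12.Schmidt
import Cfsg.Agent.H1.Basic
import Cfsg.Agent.H1.SylowSystem

/-!
# Nilpotent Hall subgroups with self-normalizing-type Sylow subgroups (Wielandt) (helper12)
-/

set_option autoImplicit false
open Pointwise
open scoped commutatorElement

namespace Cfsg.Agent.H12

universe u

section

variable {G : Type*} [Group G]

/-- Sylow conjugacy inside a subgroup containing two Sylow subgroups. -/
theorem sylow_conj_in_subgroup [Finite G] {p : ℕ} [Fact p.Prime] (C : Subgroup G)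
    (P₁ P₂ : Sylow p G) (h₁ : (P₁ : Subgroup G) ≤ C) (h₂ : (P₂ : Subgroup G) ≤ C) :
    ∃ c ∈ C, MulAut.conj c • (P₁ : Subgroup G) = P₂ := by
  obtain ⟨c, hc⟩ := MulAction.exists_smul_eq C (P₁.subtype h₁) (P₂.subtype h₂)
  have hc' : MulAut.conj c • (P₁ : Subgroup G).subgroupOf C = (P₂ : Subgroup G).subgroupOf C := by
    have h1 : ((c • P₁.subtype h₁ : Sylow p C) : Subgroup C) = (P₂.subtype h₂ : Sylow p C) := by
      rw [hc]
    rw [Sylow.smul_def, Sylow.pointwise_smul_def] at h1
    exact h1
  exact ⟨c, c.2, Cfsg.Agent.H1.conj_smul_eq_of_subgroupOf h₁ h₂ c hc'⟩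

/-- A Sylow subgroup `P` of `H` with `N_G(P) = H` is a Sylow subgroup of `G`. -/
theorem exists_sylow_eq_map_of_normalizer_eq [Finite G] {p : ℕ} [Fact p.Prime] (H : Subgroup G)
    (P : Sylow p H)
    (hN : Subgroup.normalizer (((P : Subgroup H).map H.subtype : Subgroup G) : Set G) = H) :
    ∃ Ps : Sylow p G, (Ps : Subgroup G) = (P : Subgroup H).map H.subtype := by
  have hPg : IsPGroup p ((P : Subgroup H).map H.subtype) := P.isPGroup'.map H.subtype
  obtain ⟨Ps, hle⟩ := hPg.exists_le_sylow
  refine ⟨Ps, ?_⟩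
  by_contra hne
  have hlt : (P : Subgroup H).map H.subtype < (Ps : Subgroup G) := lt_of_le_of_ne hle (Ne.symm hne)
  have hnil : Group.IsNilpotent (Ps : Subgroup G) := Ps.isPGroup'.isNilpotent
  obtain ⟨x, hxPs, hxN, hxP⟩ := exists_mem_normalizer_not_mem_of_lt hnil hlt
  rw [hN] at hxN
  have hX : IsPGroup p (((Ps : Subgroup G) ⊓ H).subgroupOf H) :=
    (Ps.isPGroup'.to_le inf_le_left).comap_of_injective H.subtype H.subtype_injective
  have hPX : (P : Subgroup H) ≤ ((Ps : Subgroup G) ⊓ H).subgroupOf H := by
    intro y hy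
    exact ⟨hle (Subgroup.mem_map_of_mem H.subtype hy), y.2⟩
  have e := P.is_maximal' hX hPX
  have hxX : (⟨x, hxN⟩ : H) ∈ ((Ps : Subgroup G) ⊓ H).subgroupOf H := ⟨hxPs, hxN⟩
  rw [e] at hxX
  exact hxP (Subgroup.mem_map_of_mem H.subtype hxX)

end

/-- **Wielandt**: a subgroup `H` which is not a Sylow subgroup, such that `N_G(P) = H` for all
Sylow subgroups `P` of `H`, has a normal complement. -/
theorem exists_normal_complement_of_normalizer_sylow {G : Type u} [Group G] [Finite G]
    (H : Subgroup G) (hnot : ∀ p : ℕ, p.Prime → ∀ P : Sylow p G, (P : Subgroup G) ≠ H)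
    (hnorm : ∀ p : ℕ, p.Prime → p ∣ Nat.card H → ∀ P : Sylow p H,
      Subgroup.normalizer (((P : Subgroup H).map H.subtype : Subgroup G) : Set G) = H) :
    ∃ N : Subgroup G, N.Normal ∧ Subgroup.IsComplement' N H := by
  classical
  -- `H` is nilpotent
  have hHnil : Group.IsNilpotent H := by
    refine (Group.isNilpotent_of_finite_tfae.out 0 3 rfl rfl).mpr ?_
    intro r hr R
    by_cases hrd : r ∣ Nat.card H
    · have h1 := hnorm r hr.out hrd R
      have h2 : (((R : Subgroup H).map H.subtype).subgroupOf H).Normal :=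
        (Subgroup.normal_subgroupOf_iff_le_normalizer (Subgroup.map_subtype_le _)).mpr
          (le_of_eq h1.symm)
      have e : ((R : Subgroup H).map H.subtype).subgroupOf H = (R : Subgroup H) :=
        Subgroup.comap_map_eq_self_of_injective H.subtype_injective _
      rwa [e] at h2
    · have hR : (R : Subgroup H) = ⊥ := by
        rw [← Subgroup.card_eq_one, R.card_eq_multiplicity,
          Nat.factorization_eq_zero_of_not_dvd hrd, pow_zero]
      rw [hR]
      exact Subgroup.normal_bot
  obtain ⟨c, hc⟩ := (Subgroup.isNilpotent_iff_lowerCentralSeries H).mp hHnil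
  -- normal complements for the Sylow subgroups
  have hex : ∀ p : ℕ, ∃ N : Subgroup G, N.Normal ∧
      (p.Prime → N.index = p ^ (Nat.card H).factorization p) ∧
      (p.Prime → p ∣ Nat.card H → ¬ p ∣ Nat.card N) := by
    intro p
    by_cases hp : p.Prime ∧ p ∣ Nat.card H
    · obtain ⟨hpp, hpd⟩ := hp
      have : Fact p.Prime := ⟨hpp⟩
      obtain ⟨P⟩ : Nonempty (Sylow p H) := inferInstance
      have hPN := hnorm p hpp hpd P
      obtain ⟨Ps, hPs⟩ := exists_sylow_eq_map_of_normalizer_eq H P hPN
      have hPgH : (P : Subgroup H).map H.subtype ≤ H := Subgroup.map_subtype_le _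
      -- a second prime
      have hq : ∃ q : ℕ, q.Prime ∧ q ∣ Nat.card H ∧ q ≠ p := by
        by_contra hcon
        push Not at hcon
        apply hnot p hpp Ps
        rw [hPs]
        have hHp : IsPGroup p H := by
          apply IsPGroup.of_card (n := (Nat.card H).primeFactorsList.length)
          apply Nat.eq_prime_pow_of_unique_prime_dvd Nat.card_pos.ne'
          intro d hd hdvd
          exact hcon d hd hdvd
        have hHp' : IsPGroup p (⊤ : Subgroup H) := hHp.to_subgroup ⊤
        have e : (⊤ : Subgroup H) = P := P.is_maximal' hHp' le_top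
        rw [← e, ← MonoidHom.range_eq_map, Subgroup.range_subtype]
      obtain ⟨q, hqp, hqd, hqne⟩ := hq
      have : Fact q.Prime := ⟨hqp⟩
      obtain ⟨Q⟩ : Nonempty (Sylow q H) := inferInstance
      have hQN := hnorm q hqp hqd Q
      obtain ⟨Qs, hQs⟩ := exists_sylow_eq_map_of_normalizer_eq H Q hQN
      -- `P` and `Q` commute elementwise
      have hdisj : Disjoint (P : Subgroup H) (Q : Subgroup H) :=
        IsPGroup.disjoint_of_ne p q (Ne.symm hqne) _ _ P.isPGroup' Q.isPGroup'
      have hcomm : ∀ a ∈ (P : Subgroup H).map H.subtype, ∀ b ∈ (Q : Subgroup H).map H.subtype,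
          a * b = b * a := by
        rintro _ ⟨a, ha, rfl⟩ _ ⟨b, hb, rfl⟩
        have := Subgroup.commute_of_normal_of_disjoint _ _ (inferInstance : (P : Subgroup H).Normal)
          (inferInstance : (Q : Subgroup H).Normal) hdisj a b ha hb
        exact congrArg Subtype.val this.eq
      -- fusion lemma
      have hFL : ∀ K : Subgroup G, K ≤ (P : Subgroup H).map H.subtype →
          K.focalSubgroup ≤ ⁅K, H⁆ := by
        intro K hK
        rw [Subgroup.focalSubgroup_def, Subgroup.closure_le]
        rintro g ⟨hgK, x, hxK, u, rfl⟩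
        have hy : u * x⁻¹ * u⁻¹ ∈ (P : Subgroup H).map H.subtype := by
          have := Subgroup.mul_mem _ (Subgroup.inv_mem _ (hK hxK)) (hK hgK)
          rw [commutatorElement_def] at this
          have e : x⁻¹ * (x * u * x⁻¹ * u⁻¹) = u * x⁻¹ * u⁻¹ := by group
          rwa [e] at this
        have hQC : (Qs : Subgroup G) ≤ Subgroup.centralizer ({u * x⁻¹ * u⁻¹} : Set G) := by
          rw [hQs]
          intro b hb
          rw [Subgroup.mem_centralizer_iff]
          intro z hz
          rw [Set.mem_singleton_iff] at hz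
          rw [hz]
          exact hcomm _ hy b hb
        have hQC' : ((u • Qs : Sylow q G) : Subgroup G) ≤
            Subgroup.centralizer ({u * x⁻¹ * u⁻¹} : Set G) := by
          rw [Sylow.coe_subgroup_smul, hQs]
          rintro _ ⟨b, hb, rfl⟩
          rw [Subgroup.mem_centralizer_iff]
          intro z hz
          rw [Set.mem_singleton_iff] at hz
          rw [hz]
          show u * x⁻¹ * u⁻¹ * (u * b * u⁻¹) = u * b * u⁻¹ * (u * x⁻¹ * u⁻¹)
          have h1 := hcomm x⁻¹ (Subgroup.inv_mem _ (hK hxK)) b hb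
          calc u * x⁻¹ * u⁻¹ * (u * b * u⁻¹) = u * (x⁻¹ * b) * u⁻¹ := by group
            _ = u * (b * x⁻¹) * u⁻¹ := by rw [h1]
            _ = u * b * u⁻¹ * (u * x⁻¹ * u⁻¹) := by group
        obtain ⟨c', hc'C, hc'⟩ := sylow_conj_in_subgroup _ (u • Qs) Qs hQC' hQC
        rw [Sylow.coe_subgroup_smul, conj_smul_conj_smul, hQs] at hc'
        have hh : c' * u ∈ H := by
          have := conj_smul_eq_iff_mem_normalizer.mp hc'
          rwa [hQN] at this
        have hc'comm : u * x⁻¹ * u⁻¹ * c' = c' * (u * x⁻¹ * u⁻¹) :=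
          Subgroup.mem_centralizer_iff.mp hc'C _ rfl
        have e : ⁅x, u⁆ = ⁅x, c' * u⁆ := by
          rw [commutatorElement_def, commutatorElement_def]
          calc x * u * x⁻¹ * u⁻¹ = x * (u * x⁻¹ * u⁻¹) := by group
            _ = x * (c' * (u * x⁻¹ * u⁻¹) * c'⁻¹) := by rw [← hc'comm]; group
            _ = x * (c' * u) * x⁻¹ * (c' * u)⁻¹ := by group
        rw [e]
        exact Subgroup.commutator_mem_commutator hxK hh
      -- iterated focal subgroups descend along the lower central series of `H`
      have hiter : ∀ k : ℕ,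
          (fun K : Subgroup G => K.focalSubgroup)^[k] ((P : Subgroup H).map H.subtype) ≤
            H.lowerCentralSeries k ∧
          (fun K : Subgroup G => K.focalSubgroup)^[k] ((P : Subgroup H).map H.subtype) ≤
            (P : Subgroup H).map H.subtype := by
        intro k
        induction k with
        | zero => exact ⟨hPgH, le_rfl⟩
        | succ k ih =>
          rw [Function.iterate_succ_apply']
          refine ⟨?_, (Subgroup.focalSubgroup_le _).trans ih.2⟩
          rw [Subgroup.lowerCentralSeries_succ]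
          exact (hFL _ ih.2).trans (Subgroup.commutator_mono ih.1 le_rfl)
      have hfoc : (fun K : Subgroup G => K.focalSubgroup)^[c] ((P : Subgroup H).map H.subtype)
          = ⊥ := by
        have := (hiter c).1
        rwa [hc, le_bot_iff] at this
      have hHall : (Nat.card ((P : Subgroup H).map H.subtype)).Coprime
          ((P : Subgroup H).map H.subtype).index := by
        rw [← hPs]; exact Ps.card_coprime_index
      obtain ⟨N, hNn, hNc⟩ := exists_normal_complement_of_iterate_focal _ hHall c hfoc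
      refine ⟨N, hNn, fun _ => ?_, fun _ _ => ?_⟩
      · rw [hNc.symm.index_eq_card, Subgroup.card_subtype, P.card_eq_multiplicity]
      · rw [← hNc.index_eq_card, ← hPs]
        exact Ps.not_dvd_index
    · refine ⟨⊤, inferInstance, fun hpp => ?_, fun hpp hpd => absurd ⟨hpp, hpd⟩ hp⟩
      have hpd : ¬ p ∣ Nat.card H := fun h => hp ⟨hpp, h⟩
      rw [Subgroup.index_top, Nat.factorization_eq_zero_of_not_dvd hpd, pow_zero]
  choose Nf hNfn hNfi hNfc using hex
  have hNn : (⨅ p ∈ (Nat.card H).primeFactors, Nf p).Normal :=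
    Subgroup.normal_iInf_normal fun p => Subgroup.normal_iInf_normal fun _ => hNfn p
  have hidx : (⨅ p ∈ (Nat.card H).primeFactors, Nf p).index = Nat.card H := by
    rw [Cfsg.Agent.H1.index_biInf_of_primes Nf (Nat.card H).factorization
      (fun q hq => hNfi q hq) (Nat.card H).primeFactors
      (fun q hq => Nat.prime_of_mem_primeFactors hq)]
    have := Nat.prod_factorization_pow_eq_self (Nat.card_pos (α := H)).ne'
    rwa [Finsupp.prod, Nat.support_factorization] at this
  refine ⟨⨅ p ∈ (Nat.card H).primeFactors, Nf p, hNn, ?_⟩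
  apply Subgroup.isComplement'_of_coprime
  · have h1 := Subgroup.card_mul_index (⨅ p ∈ (Nat.card H).primeFactors, Nf p)
    rwa [hidx] at h1
  · apply Nat.Coprime.symm
    apply Nat.coprime_of_dvd
    intro k hk hkH hkN
    have hle : (⨅ p ∈ (Nat.card H).primeFactors, Nf p) ≤ Nf k :=
      iInf₂_le k (Nat.mem_primeFactors.mpr ⟨hk, hkH, Nat.card_pos.ne'⟩)
    exact hNfc k hk hkH (hkN.trans (Subgroup.card_dvd_of_le hle))

end Cfsg.Agent.H12
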