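import Mathlib
import Cfsg.Prelude.Def_GeometricClasses

/-!
# S5876 piece B2 (for helper17)

`fitting_trichotomy`: a square matrix `b` over a field is injective, or nilpotent, or there is
a non-trivial idempotent commuting with everything that commutes with `b` (the projection onto
the Fitting kernel along the Fitting range).
-/

set_option autoImplicit false

open Matrix

namespace Cfsg.Agent.H12.Fp

theorem fitting_trichotomy {F : Type*} [Field F] {n : ℕ} (b : Matrix (Fin n) (Fin n) F) :
    LinearMap.ker (Matrix.toLin' b) = ⊥ ∨ IsNilpotent b ∨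
      ∃ e : Matrix (Fin n) (Fin n) F, e * e = e ∧ e ≠ 0 ∧ e ≠ 1 ∧
        ∀ m : Matrix (Fin n) (Fin n) F, m * b = b * m → m * e = e * m := by
  classical
  obtain ⟨N, hc, hN⟩ := ((Matrix.toLin' b).eventually_isCompl_ker_pow_range_pow.and
    (Filter.eventually_ge_atTop 1)).exists
  by_cases hK0 : LinearMap.ker ((Matrix.toLin' b) ^ N) = ⊥
  · left
    rw [eq_bot_iff, ← hK0]
    intro v hv
    rw [LinearMap.mem_ker] at hv ⊢
    obtain ⟨k, rfl⟩ : ∃ k, N = k + 1 := ⟨N - 1, by omega⟩
    rw [pow_succ, Module.End.mul_apply, hv, map_zero]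
  by_cases hK1 : LinearMap.ker ((Matrix.toLin' b) ^ N) = ⊤
  · right
    left
    refine ⟨N, ?_⟩
    have h1 : (Matrix.toLin' b) ^ N = 0 := LinearMap.ker_eq_top.mp hK1
    rw [← Matrix.toLin'_pow] at h1
    exact (LinearEquiv.map_eq_zero_iff Matrix.toLin').mp h1
  right
  right
  have hRne : LinearMap.range ((Matrix.toLin' b) ^ N) ≠ ⊥ := by
    intro hR
    apply hK1
    have h := hc.sup_eq_top
    rw [hR, sup_bot_eq] at h
    exact h
  have hPK : ∀ k ∈ LinearMap.ker ((Matrix.toLin' b) ^ N),
      Submodule.projection _ _ hc k = k :=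
    fun k hk => Submodule.projection_apply_of_mem_left hc hk
  have hPR : ∀ r ∈ LinearMap.range ((Matrix.toLin' b) ^ N),
      Submodule.projection _ _ hc r = 0 :=
    fun r hr => Submodule.projection_apply_of_mem_right hc hr
  have hPmem : ∀ v, Submodule.projection _ _ hc v ∈ LinearMap.ker ((Matrix.toLin' b) ^ N) :=
    fun v => Submodule.projection_apply_mem hc v
  refine ⟨LinearMap.toMatrix' (Submodule.projection _ _ hc), ?_, ?_, ?_, ?_⟩
  · rw [← LinearMap.toMatrix'_comp]
    congr 1
    apply LinearMap.ext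
    intro v
    rw [LinearMap.comp_apply]
    exact hPK _ (hPmem v)
  · intro h0
    have hP0 : Submodule.projection _ _ hc = 0 :=
      (LinearEquiv.map_eq_zero_iff LinearMap.toMatrix').mp h0
    obtain ⟨k, hk, hk0⟩ := (Submodule.ne_bot_iff _).mp hK0
    apply hk0
    rw [← hPK k hk, hP0, LinearMap.zero_apply]
  · intro h1
    have hP1 : Submodule.projection _ _ hc = LinearMap.id := by
      apply LinearMap.toMatrix'.injective
      rw [h1, LinearMap.toMatrix'_id]
    obtain ⟨r, hr, hr0⟩ := (Submodule.ne_bot_iff _).mp hRne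
    apply hr0
    have h2 := hPR r hr
    rw [hP1, LinearMap.id_apply] at h2
    exact h2
  · intro m hm
    have hcomm : ∀ k : ℕ, ∀ v : Fin n → F,
        Matrix.toLin' m (((Matrix.toLin' b) ^ k) v) =
          ((Matrix.toLin' b) ^ k) (Matrix.toLin' m v) := by
      intro k
      induction k with
      | zero => intro v; simp
      | succ k ih =>
        intro v
        rw [pow_succ, Module.End.mul_apply, Module.End.mul_apply, ih]
        congr 1
        rw [Matrix.toLin'_apply, Matrix.toLin'_apply, Matrix.toLin'_apply, Matrix.toLin'_apply,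
          Matrix.mulVec_mulVec, Matrix.mulVec_mulVec, hm]
    have hmK : ∀ k ∈ LinearMap.ker ((Matrix.toLin' b) ^ N),
        Matrix.toLin' m k ∈ LinearMap.ker ((Matrix.toLin' b) ^ N) := by
      intro k hk
      rw [LinearMap.mem_ker] at hk ⊢
      rw [← hcomm, hk, map_zero]
    have hmR : ∀ r ∈ LinearMap.range ((Matrix.toLin' b) ^ N),
        Matrix.toLin' m r ∈ LinearMap.range ((Matrix.toLin' b) ^ N) := by
      rintro _ ⟨w, rfl⟩
      exact ⟨Matrix.toLin' m w, (hcomm N w).symm⟩
    have hcomp : (Matrix.toLin' m).comp (Submodule.projection _ _ hc) =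
        (Submodule.projection _ _ hc).comp (Matrix.toLin' m) := by
      apply LinearMap.ext
      intro v
      have hv : v ∈ LinearMap.ker ((Matrix.toLin' b) ^ N) ⊔
          LinearMap.range ((Matrix.toLin' b) ^ N) := by
        rw [hc.sup_eq_top]
        trivial
      obtain ⟨k, hk, r, hr, rfl⟩ := Submodule.mem_sup.mp hv
      have e1 : Submodule.projection _ _ hc (k + r) = k := by
        rw [map_add, hPK k hk, hPR r hr, add_zero]
      have e2 : Submodule.projection _ _ hc (Matrix.toLin' m (k + r)) = Matrix.toLin' m k := by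
        rw [map_add, map_add, hPK _ (hmK k hk), hPR _ (hmR r hr), add_zero]
      rw [LinearMap.comp_apply, LinearMap.comp_apply, e1, e2]
    have h3 := congrArg LinearMap.toMatrix' hcomp
    rw [LinearMap.toMatrix'_comp, LinearMap.toMatrix'_comp, LinearMap.toMatrix'_toLin'] at h3
    exact h3

example {F : Type*} [Field F] {n : ℕ} (b : Matrix (Fin n) (Fin n) F) :
    LinearMap.ker (Matrix.toLin' b) = ⊥ ∨ IsNilpotent b ∨
      ∃ e : Matrix (Fin n) (Fin n) F, e * e = e ∧ e ≠ 0 ∧ e ≠ 1 ∧
        ∀ m : Matrix (Fin n) (Fin n) F, m * b = b * m → m * e = e * m :=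
  fitting_trichotomy b

end Cfsg.Agent.H12.Fp
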