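import Mathlib
import Cfsg.Prelude.Def_GeometricClasses

/-!
# S5876 piece L1 (for helper17)

`fix_comm_bound`: `2 * dim fix(g) ≤ n + dim fix(g⁻¹ * (x⁻¹ * g * x))`.
-/

set_option autoImplicit false

open Matrix

namespace Cfsg.Agent.H12.Fp

/-- membership in the fixed space of a matrix -/
theorem mem_fix_iff {F : Type*} [Field F] {n : ℕ} (M : Matrix (Fin n) (Fin n) F)
    (v : Fin n → F) : v ∈ Module.End.eigenspace (Matrix.toLin' M) 1 ↔ M *ᵥ v = v := by
  rw [Module.End.mem_eigenspace_iff, Matrix.toLin'_apply, one_smul]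

theorem fix_comm_bound {F : Type*} [Field F] {n : ℕ} (g x : GL (Fin n) F) :
    2 * Module.finrank F (Module.End.eigenspace (Matrix.toLin' (g : Matrix (Fin n) (Fin n) F)) 1)
      ≤ n + Module.finrank F (Module.End.eigenspace
          (Matrix.toLin' ((g⁻¹ * (x⁻¹ * g * x) : GL (Fin n) F) : Matrix (Fin n) (Fin n) F)) 1) := by
  have hxx : ((x : GL (Fin n) F) : Matrix (Fin n) (Fin n) F) *
      ((x⁻¹ : GL (Fin n) F) : Matrix (Fin n) (Fin n) F) = 1 := by
    rw [← Units.val_mul, mul_inv_cancel, Units.val_one]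
  have hgg : ((g⁻¹ : GL (Fin n) F) : Matrix (Fin n) (Fin n) F) *
      ((g : GL (Fin n) F) : Matrix (Fin n) (Fin n) F) = 1 := by
    rw [← Units.val_mul, inv_mul_cancel, Units.val_one]
  have hxx' : ((x⁻¹ : GL (Fin n) F) : Matrix (Fin n) (Fin n) F) *
      ((x : GL (Fin n) F) : Matrix (Fin n) (Fin n) F) = 1 := by
    rw [← Units.val_mul, inv_mul_cancel, Units.val_one]
  -- the three fixed spaces
  obtain ⟨U, hU⟩ : ∃ U : Submodule F (Fin n → F),
      U = Module.End.eigenspace (Matrix.toLin' (g : Matrix (Fin n) (Fin n) F)) 1 := ⟨_, rfl⟩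
  obtain ⟨W, hW⟩ : ∃ W : Submodule F (Fin n → F),
      W = Module.End.eigenspace
        (Matrix.toLin' ((x⁻¹ * g * x : GL (Fin n) F) : Matrix (Fin n) (Fin n) F)) 1 := ⟨_, rfl⟩
  obtain ⟨V3, hV3⟩ : ∃ V3 : Submodule F (Fin n → F),
      V3 = Module.End.eigenspace
        (Matrix.toLin' ((g⁻¹ * (x⁻¹ * g * x) : GL (Fin n) F) : Matrix (Fin n) (Fin n) F)) 1 :=
    ⟨_, rfl⟩
  rw [← hU, ← hV3]
  have hmU : ∀ v, v ∈ U ↔ (g : Matrix (Fin n) (Fin n) F) *ᵥ v = v := by
    intro v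
    rw [hU, mem_fix_iff]
  have hmW : ∀ v, v ∈ W ↔ ((x⁻¹ : GL (Fin n) F) : Matrix (Fin n) (Fin n) F) *ᵥ
      ((g : Matrix (Fin n) (Fin n) F) *ᵥ
        ((x : Matrix (Fin n) (Fin n) F) *ᵥ v)) = v := by
    intro v
    rw [hW, mem_fix_iff, Units.val_mul, Units.val_mul, ← Matrix.mulVec_mulVec,
      ← Matrix.mulVec_mulVec]
  have hmV3 : ∀ v, v ∈ V3 ↔ ((g⁻¹ : GL (Fin n) F) : Matrix (Fin n) (Fin n) F) *ᵥ
      (((x⁻¹ : GL (Fin n) F) : Matrix (Fin n) (Fin n) F) *ᵥ
        ((g : Matrix (Fin n) (Fin n) F) *ᵥ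
          ((x : Matrix (Fin n) (Fin n) F) *ᵥ v))) = v := by
    intro v
    rw [hV3, mem_fix_iff, Units.val_mul, Units.val_mul, Units.val_mul, ← Matrix.mulVec_mulVec,
      ← Matrix.mulVec_mulVec, ← Matrix.mulVec_mulVec]
  -- (a) `x⁻¹` maps `U` into `W`
  have hinj : Function.Injective
      (Matrix.toLin' ((x⁻¹ : GL (Fin n) F) : Matrix (Fin n) (Fin n) F)) := by
    intro v w hvw
    rw [Matrix.toLin'_apply, Matrix.toLin'_apply] at hvw
    have h := congrArg (fun u => (x : Matrix (Fin n) (Fin n) F) *ᵥ u) hvw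
    simp only [Matrix.mulVec_mulVec, hxx, Matrix.one_mulVec] at h
    exact h
  have hmap : U.map (Matrix.toLin' ((x⁻¹ : GL (Fin n) F) : Matrix (Fin n) (Fin n) F)) ≤ W := by
    rintro _ ⟨v, hv, rfl⟩
    have hv' := (hmU v).mp hv
    rw [hmW, Matrix.toLin'_apply, Matrix.mulVec_mulVec v (x : Matrix (Fin n) (Fin n) F)
      ((x⁻¹ : GL (Fin n) F) : Matrix (Fin n) (Fin n) F), hxx, Matrix.one_mulVec, hv']
  have hUW : Module.finrank F U ≤ Module.finrank F W := by
    have h1 : Module.finrank F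
        (U.map (Matrix.toLin' ((x⁻¹ : GL (Fin n) F) : Matrix (Fin n) (Fin n) F))) =
        Module.finrank F U :=
      (Submodule.equivMapOfInjective _ hinj U).finrank_eq.symm
    rw [← h1]
    exact Submodule.finrank_mono hmap
  -- (b) `U ⊓ W ≤ V3`
  have hinf : U ⊓ W ≤ V3 := by
    rintro v ⟨hvU, hvW⟩
    have h1 := (hmU v).mp hvU
    have h2 := (hmW v).mp hvW
    rw [hmV3, h2]
    have h3 : ((g⁻¹ : GL (Fin n) F) : Matrix (Fin n) (Fin n) F) *ᵥ
        ((g : Matrix (Fin n) (Fin n) F) *ᵥ v) = v := by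
      rw [Matrix.mulVec_mulVec, hgg, Matrix.one_mulVec]
    rw [h1] at h3
    exact h3
  -- (c) dimension count
  have h4 := Submodule.finrank_sup_add_finrank_inf_eq U W
  have h5 : Module.finrank F ↥(U ⊔ W) ≤ n := by
    have h := Submodule.finrank_le (U ⊔ W)
    rw [Module.finrank_fin_fun] at h
    exact h
  have h6 : Module.finrank F ↥(U ⊓ W) ≤ Module.finrank F V3 := Submodule.finrank_mono hinf
  omega

example {F : Type*} [Field F] {n : ℕ} (g x : GL (Fin n) F) :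
    2 * Module.finrank F (Module.End.eigenspace (Matrix.toLin' (g : Matrix (Fin n) (Fin n) F)) 1)
      ≤ n + Module.finrank F (Module.End.eigenspace
          (Matrix.toLin' ((g⁻¹ * (x⁻¹ * g * x) : GL (Fin n) F) : Matrix (Fin n) (Fin n) F)) 1) :=
  fix_comm_bound g x

end Cfsg.Agent.H12.Fp
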