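import Cfsg.Agent.H12.GraphGens
import Cfsg.Agent.H23.ChkD4
import Cfsg.Agent.H23.NconjD4
import Cfsg.Agent.H23.TabD4
import Cfsg.Prelude.Def_ChevAutomorphisms

set_option autoImplicit false

/-!
# S2734-GA (helper12, for helper23): a graph automorphism of order 3 of `D₄(F)` has the same
fixed points as the concrete triality automorphism with node table `[2, 1, 3, 0]`.
-/

open Cfsg Cfsg.Lie

namespace Cfsg.Agent.H12

namespace GraphFix

theorem d4_notLong : ∀ j : Fin 4, chevD4.isLong (chevD4.simple j) = false := by decide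

theorem d4_graphExp (c i j : ℕ) (hj : j < 4) : chevD4.graphExp c i j = 1 := by
  unfold ChevalleyDatum.graphExp
  rw [d4_notLong ⟨j, hj⟩]
  rfl

theorem d4_bonds : ∀ i j : Fin 4, i ≠ j →
    chevD4.bonds i j = if (i = 1 ∨ j = 1) then 1 else 0 := by decide

theorem d4_pres (π : Equiv.Perm (Fin 4))
    (hπ : ∀ i j : Fin 4, i ≠ j → chevD4.bonds (π i) (π j) = chevD4.bonds i j)
    (i : Fin 4) (hi : i ≠ 1) : π i = 1 ∨ π 1 = 1 := by
  have e := hπ i 1 hi
  rw [d4_bonds _ _ (π.injective.ne hi), d4_bonds i 1 hi, if_pos (Or.inr rfl)] at e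
  by_contra hc
  rw [if_neg hc] at e
  exact zero_ne_one e

set_option maxRecDepth 100000 in
set_option synthInstance.maxSize 100000 in
set_option synthInstance.maxHeartbeats 0 in
set_option maxHeartbeats 0 in
theorem d4_csp : ∀ a0 a1 a2 a3 : Fin 4,
    ((a0 = 1 ∨ a1 = 1) ∧ (a2 = 1 ∨ a1 = 1) ∧ (a3 = 1 ∨ a1 = 1) ∧ a0 ≠ a1 ∧ a0 ≠ a2 ∧ a0 ≠ a3 ∧
      a1 ≠ a2 ∧ a1 ≠ a3 ∧ a2 ≠ a3) →
    (a0 = 0 ∧ a1 = 1 ∧ a2 = 2 ∧ a3 = 3) ∨ (a0 = 2 ∧ a1 = 1 ∧ a2 = 0 ∧ a3 = 3) ∨
    (a0 = 3 ∧ a1 = 1 ∧ a2 = 2 ∧ a3 = 0) ∨ (a0 = 0 ∧ a1 = 1 ∧ a2 = 3 ∧ a3 = 2) ∨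
    (a0 = 2 ∧ a1 = 1 ∧ a2 = 3 ∧ a3 = 0) ∨ (a0 = 3 ∧ a1 = 1 ∧ a2 = 0 ∧ a3 = 2) := by decide

/-- The symmetries of the `D₄` diagram: involutions, the triality `[2, 1, 3, 0]`, or its inverse. -/
theorem d4_class (π : Equiv.Perm (Fin 4))
    (hπ : ∀ i j : Fin 4, i ≠ j → chevD4.bonds (π i) (π j) = chevD4.bonds i j) :
    (∀ j : Fin 4, π (π j) = j) ∨
    (∀ (i : ℕ) (hi : i < 4), ((π ⟨i, hi⟩ : Fin 4) : ℕ) = [2, 1, 3, 0].getD i 0) ∨
    (∀ (i : ℕ) (hi : i < 4), [2, 1, 3, 0].getD ((π ⟨i, hi⟩ : Fin 4) : ℕ) 0 = i) := by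
  have h := d4_csp (π 0) (π 1) (π 2) (π 3)
    ⟨d4_pres π hπ 0 (by decide), d4_pres π hπ 2 (by decide), d4_pres π hπ 3 (by decide),
      π.injective.ne (by decide), π.injective.ne (by decide), π.injective.ne (by decide),
      π.injective.ne (by decide), π.injective.ne (by decide), π.injective.ne (by decide)⟩
  rcases h with ⟨h0, h1, h2, h3⟩ | ⟨h0, h1, h2, h3⟩ | ⟨h0, h1, h2, h3⟩ | ⟨h0, h1, h2, h3⟩ |
    ⟨h0, h1, h2, h3⟩ | ⟨h0, h1, h2, h3⟩
  · left
    intro j
    fin_cases j <;> simp [h0, h1, h2, h3]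
  · left
    intro j
    fin_cases j <;> simp [h0, h1, h2, h3]
  · left
    intro j
    fin_cases j <;> simp [h0, h1, h2, h3]
  · left
    intro j
    fin_cases j <;> simp [h0, h1, h2, h3]
  · right; left
    intro i hi
    interval_cases i <;> simp [h0, h1, h2, h3]
  · right; right
    intro i hi
    interval_cases i <;> simp [h0, h1, h2, h3]

end GraphFix

open GraphFix in
/-- **S2734-GA.** -/
theorem graph3_fix {F : Type*} [Field F] (τ : MulAut ↥(chevD4.group F)) (hτ : chevD4.IsGraphAut τ)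
    (hτ3 : orderOf τ = 3) (σ : ↥(chevD4.group F) ≃* ↥(chevD4.group F))
    (hσ : ∀ (g : ↥(chevD4.group F)) (i : ℕ) (t : F), i < chevD4.rank →
      (((g : GL chevD4.Idx F) : Matrix chevD4.Idx chevD4.Idx F) = chevD4.x F (chevD4.simple i) t →
        ((σ g : GL chevD4.Idx F) : Matrix chevD4.Idx chevD4.Idx F) =
          chevD4.x F (chevD4.simple ([2, 1, 3, 0].getD i 0)) t) ∧
      (((g : GL chevD4.Idx F) : Matrix chevD4.Idx chevD4.Idx F) = chevD4.x F (chevD4.neg (chevD4.simple i)) t →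
        ((σ g : GL chevD4.Idx F) : Matrix chevD4.Idx chevD4.Idx F) =
          chevD4.x F (chevD4.neg (chevD4.simple ([2, 1, 3, 0].getD i 0))) t)) :
    ∀ g : ↥(chevD4.group F), τ g = g ↔ σ g = g := by
  have hτ' : ∃ π : Equiv.Perm (Fin 4),
      (∀ i j : Fin 4, i ≠ j → chevD4.bonds (π i) (π j) = chevD4.bonds i j) ∧
      ∀ (g : ↥(chevD4.group F)) (i : Fin 4) (t : F),
        (((g : GL chevD4.Idx F) : Matrix chevD4.Idx chevD4.Idx F) = chevD4.x F (chevD4.simple i) t →
          ((τ g : GL chevD4.Idx F) : Matrix chevD4.Idx chevD4.Idx F) =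
            chevD4.x F (chevD4.simple (π i)) (t ^ chevD4.graphExp (ringChar F) i (π i))) ∧
        (((g : GL chevD4.Idx F) : Matrix chevD4.Idx chevD4.Idx F) =
            chevD4.x F (chevD4.neg (chevD4.simple i)) t →
          ((τ g : GL chevD4.Idx F) : Matrix chevD4.Idx chevD4.Idx F) =
            chevD4.x F (chevD4.neg (chevD4.simple (π i))) (t ^ chevD4.graphExp (ringChar F) i (π i))) :=
    hτ
  obtain ⟨π, hπ, hg⟩ := hτ'
  have hS := Cfsg.Agent.H23.chk_D4.sem F
  have hN := Cfsg.Agent.H23.nconj_D4.semN Cfsg.Agent.H23.chk_D4.tblOK F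
  have hT := Cfsg.Agent.H23.tab_D4
  -- the graph automorphism acts on the fundamental root elements without exponents
  have hg1 : ∀ (g : ↥(chevD4.group F)) (i : Fin 4) (t : F),
      (((g : GL chevD4.Idx F) : Matrix chevD4.Idx chevD4.Idx F) = chevD4.x F (chevD4.simple i) t →
        ((τ g : GL chevD4.Idx F) : Matrix chevD4.Idx chevD4.Idx F) =
          chevD4.x F (chevD4.simple (π i)) t) ∧
      (((g : GL chevD4.Idx F) : Matrix chevD4.Idx chevD4.Idx F) =
          chevD4.x F (chevD4.neg (chevD4.simple i)) t →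
        ((τ g : GL chevD4.Idx F) : Matrix chevD4.Idx chevD4.Idx F) =
          chevD4.x F (chevD4.neg (chevD4.simple (π i))) t) := by
    intro g i t
    have h := hg g i t
    rw [d4_graphExp _ _ _ (π i).isLt, pow_one] at h
    exact h
  rcases d4_class π hπ with hinv | hfw | hbw
  · -- `π` is an involution: then `τ * τ = 1`, impossible
    exfalso
    have key : τ.toMonoidHom.comp τ.toMonoidHom = MonoidHom.id _ := by
      apply GraphFix.hom_ext_fund hS hN hT
      intro k i t hi' hk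
      have hi : i < 4 := hi'
      show τ (τ k) = k
      apply Subtype.ext
      apply Units.ext
      rcases hk with hk | hk
      · have h1 := (hg1 k ⟨i, hi⟩ t).1 hk
        have h2 := (hg1 (τ k) (π ⟨i, hi⟩) t).1 h1
        rw [hinv ⟨i, hi⟩] at h2
        rw [h2, hk]
      · have h1 := (hg1 k ⟨i, hi⟩ t).2 hk
        have h2 := (hg1 (τ k) (π ⟨i, hi⟩) t).2 h1
        rw [hinv ⟨i, hi⟩] at h2
        rw [h2, hk]
    have h2 : τ ^ 2 = 1 := by
      rw [sq]
      ext y
      exact congrArg (fun z : ↥(chevD4.group F) => ((z : GL chevD4.Idx F) : Matrix chevD4.Idx chevD4.Idx F) _ _)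
        (DFunLike.congr_fun key y)
    have h3 := orderOf_dvd_of_pow_eq_one h2
    rw [hτ3] at h3
    exact absurd h3 (by decide)
  · -- `π` is the table of `σ`: then `τ = σ`
    have key : τ.toMonoidHom = σ.toMonoidHom := by
      apply GraphFix.hom_ext_fund hS hN hT
      intro k i t hi' hk
      have hi : i < 4 := hi'
      show τ k = σ k
      apply Subtype.ext
      apply Units.ext
      rcases hk with hk | hk
      · have h1 := (hg1 k ⟨i, hi⟩ t).1 hk
        have h2 := (hσ k i t hi').1 hk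
        rw [h1, h2, hfw i hi]
      · have h1 := (hg1 k ⟨i, hi⟩ t).2 hk
        have h2 := (hσ k i t hi').2 hk
        rw [h1, h2, hfw i hi]
    intro g
    have e : τ g = σ g := DFunLike.congr_fun key g
    rw [e]
  · -- `π` is the inverse of the table of `σ`: then `σ ∘ τ = id`
    have key : σ.toMonoidHom.comp τ.toMonoidHom = MonoidHom.id _ := by
      apply GraphFix.hom_ext_fund hS hN hT
      intro k i t hi' hk
      have hi : i < 4 := hi'
      show σ (τ k) = k
      apply Subtype.ext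
      apply Units.ext
      rcases hk with hk | hk
      · have h1 := (hg1 k ⟨i, hi⟩ t).1 hk
        have h2 := (hσ (τ k) (π ⟨i, hi⟩) t (π ⟨i, hi⟩).isLt).1 h1
        rw [hbw i hi] at h2
        rw [h2, hk]
      · have h1 := (hg1 k ⟨i, hi⟩ t).2 hk
        have h2 := (hσ (τ k) (π ⟨i, hi⟩) t (π ⟨i, hi⟩).isLt).2 h1
        rw [hbw i hi] at h2
        rw [h2, hk]
    intro g
    have e : σ (τ g) = g := DFunLike.congr_fun key g
    constructor
    · intro h
      rw [h] at e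
      exact e
    · intro h
      apply σ.injective
      rw [e, h]

end Cfsg.Agent.H12
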