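import Cfsg.Agent.H12.GraphGens
import Cfsg.Agent.H23.ChkE6
import Cfsg.Agent.H23.NconjE6
import Cfsg.Agent.H23.TabE6
import Cfsg.Prelude.Def_ChevAutomorphisms

set_option autoImplicit false

/-!
# S2211-GA (helper12, for helper23): a non-trivial graph automorphism of `E₆(F)` is the concrete
graph automorphism with node table `[5, 1, 4, 3, 2, 0]` (so they have the same fixed points).
-/

open Cfsg Cfsg.Lie

namespace Cfsg.Agent.H12

namespace GraphFix

theorem e6_notLong : ∀ j : Fin 6, chevE6.isLong (chevE6.simple j) = false := by decide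

theorem e6_graphExp (c i j : ℕ) (hj : j < 6) : chevE6.graphExp c i j = 1 := by
  unfold ChevalleyDatum.graphExp
  rw [e6_notLong ⟨j, hj⟩]
  rfl

/-- Adjacency in the `E₆` diagram (nodes `0 – 2 – 3 – 4 – 5`, node `1` attached to `3`). -/
def e6adj (i j : Fin 6) : Bool :=
  (i == 0 && j == 2) || (i == 2 && j == 0) || (i == 1 && j == 3) || (i == 3 && j == 1) ||
  (i == 2 && j == 3) || (i == 3 && j == 2) || (i == 3 && j == 4) || (i == 4 && j == 3) ||
  (i == 4 && j == 5) || (i == 5 && j == 4)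

theorem e6_bonds : ∀ i j : Fin 6, i ≠ j → chevE6.bonds i j = if e6adj i j then 1 else 0 := by
  decide

theorem e6_pres (π : Equiv.Perm (Fin 6))
    (hπ : ∀ i j : Fin 6, i ≠ j → chevE6.bonds (π i) (π j) = chevE6.bonds i j)
    (i j : Fin 6) (hij : i ≠ j) (hadj : e6adj i j = true) : e6adj (π i) (π j) = true := by
  have e := hπ i j hij
  rw [e6_bonds _ _ (π.injective.ne hij), e6_bonds i j hij, hadj, if_pos rfl] at e
  by_contra hc
  rw [if_neg hc] at e
  exact zero_ne_one e

set_option maxRecDepth 100000 in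
set_option synthInstance.maxSize 100000 in
set_option synthInstance.maxHeartbeats 0 in
set_option maxHeartbeats 0 in
theorem e6_csp : ∀ a0 a1 a2 a3 a4 a5 : Fin 6,
    (e6adj a0 a2 = true ∧ e6adj a1 a3 = true ∧ e6adj a2 a3 = true ∧ e6adj a3 a4 = true ∧
      e6adj a4 a5 = true ∧ a0 ≠ a1 ∧ a0 ≠ a3 ∧ a0 ≠ a4 ∧ a0 ≠ a5 ∧ a1 ≠ a2 ∧ a1 ≠ a4 ∧ a1 ≠ a5 ∧
      a2 ≠ a4 ∧ a2 ≠ a5 ∧ a3 ≠ a5) →
    (a0 = 0 ∧ a1 = 1 ∧ a2 = 2 ∧ a3 = 3 ∧ a4 = 4 ∧ a5 = 5) ∨
    (a0 = 5 ∧ a1 = 1 ∧ a2 = 4 ∧ a3 = 3 ∧ a4 = 2 ∧ a5 = 0) := by decide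

/-- The symmetries of the `E₆` diagram: the identity and the table `[5, 1, 4, 3, 2, 0]`. -/
theorem e6_class (π : Equiv.Perm (Fin 6))
    (hπ : ∀ i j : Fin 6, i ≠ j → chevE6.bonds (π i) (π j) = chevE6.bonds i j) :
    (∀ j : Fin 6, π j = j) ∨
    (∀ (i : ℕ) (hi : i < 6), ((π ⟨i, hi⟩ : Fin 6) : ℕ) = [5, 1, 4, 3, 2, 0].getD i 0) := by
  have h := e6_csp (π 0) (π 1) (π 2) (π 3) (π 4) (π 5)
    ⟨e6_pres π hπ 0 2 (by decide) (by decide), e6_pres π hπ 1 3 (by decide) (by decide),
      e6_pres π hπ 2 3 (by decide) (by decide), e6_pres π hπ 3 4 (by decide) (by decide),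
      e6_pres π hπ 4 5 (by decide) (by decide),
      π.injective.ne (by decide), π.injective.ne (by decide), π.injective.ne (by decide),
      π.injective.ne (by decide), π.injective.ne (by decide), π.injective.ne (by decide),
      π.injective.ne (by decide), π.injective.ne (by decide), π.injective.ne (by decide),
      π.injective.ne (by decide)⟩
  rcases h with ⟨h0, h1, h2, h3, h4, h5⟩ | ⟨h0, h1, h2, h3, h4, h5⟩
  · left
    intro j
    fin_cases j <;> simp [h0, h1, h2, h3, h4, h5]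
  · right
    intro i hi
    interval_cases i <;> simp [h0, h1, h2, h3, h4, h5]

end GraphFix

open GraphFix in
/-- **S2211-GA.** -/
theorem graph2_fix {F : Type*} [Field F] (φ : MulAut ↥(chevE6.group F)) (hφ : chevE6.IsGraphAut φ)
    (h1 : φ ≠ 1) (σ : ↥(chevE6.group F) ≃* ↥(chevE6.group F))
    (hσ : ∀ (g : ↥(chevE6.group F)) (i : ℕ) (t : F), i < chevE6.rank →
      (((g : GL chevE6.Idx F) : Matrix chevE6.Idx chevE6.Idx F) = chevE6.x F (chevE6.simple i) t →
        ((σ g : GL chevE6.Idx F) : Matrix chevE6.Idx chevE6.Idx F) =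
          chevE6.x F (chevE6.simple ([5, 1, 4, 3, 2, 0].getD i 0)) t) ∧
      (((g : GL chevE6.Idx F) : Matrix chevE6.Idx chevE6.Idx F) = chevE6.x F (chevE6.neg (chevE6.simple i)) t →
        ((σ g : GL chevE6.Idx F) : Matrix chevE6.Idx chevE6.Idx F) =
          chevE6.x F (chevE6.neg (chevE6.simple ([5, 1, 4, 3, 2, 0].getD i 0))) t)) :
    ∀ g : ↥(chevE6.group F), φ g = g ↔ σ g = g := by
  have hφ' : ∃ π : Equiv.Perm (Fin 6),
      (∀ i j : Fin 6, i ≠ j → chevE6.bonds (π i) (π j) = chevE6.bonds i j) ∧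
      ∀ (g : ↥(chevE6.group F)) (i : Fin 6) (t : F),
        (((g : GL chevE6.Idx F) : Matrix chevE6.Idx chevE6.Idx F) = chevE6.x F (chevE6.simple i) t →
          ((φ g : GL chevE6.Idx F) : Matrix chevE6.Idx chevE6.Idx F) =
            chevE6.x F (chevE6.simple (π i)) (t ^ chevE6.graphExp (ringChar F) i (π i))) ∧
        (((g : GL chevE6.Idx F) : Matrix chevE6.Idx chevE6.Idx F) =
            chevE6.x F (chevE6.neg (chevE6.simple i)) t →
          ((φ g : GL chevE6.Idx F) : Matrix chevE6.Idx chevE6.Idx F) =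
            chevE6.x F (chevE6.neg (chevE6.simple (π i))) (t ^ chevE6.graphExp (ringChar F) i (π i))) :=
    hφ
  obtain ⟨π, hπ, hg⟩ := hφ'
  have hS := Cfsg.Agent.H23.chk_E6.sem F
  have hN := Cfsg.Agent.H23.nconj_E6.semN Cfsg.Agent.H23.chk_E6.tblOK F
  have hT := Cfsg.Agent.H23.tab_E6
  -- the graph automorphism acts on the fundamental root elements without exponents
  have hg1 : ∀ (g : ↥(chevE6.group F)) (i : Fin 6) (t : F),
      (((g : GL chevE6.Idx F) : Matrix chevE6.Idx chevE6.Idx F) = chevE6.x F (chevE6.simple i) t →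
        ((φ g : GL chevE6.Idx F) : Matrix chevE6.Idx chevE6.Idx F) =
          chevE6.x F (chevE6.simple (π i)) t) ∧
      (((g : GL chevE6.Idx F) : Matrix chevE6.Idx chevE6.Idx F) =
          chevE6.x F (chevE6.neg (chevE6.simple i)) t →
        ((φ g : GL chevE6.Idx F) : Matrix chevE6.Idx chevE6.Idx F) =
          chevE6.x F (chevE6.neg (chevE6.simple (π i))) t) := by
    intro g i t
    have h := hg g i t
    rw [e6_graphExp _ _ _ (π i).isLt, pow_one] at h
    exact h
  rcases e6_class π hπ with hid | hfw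
  · -- `π = 1`: then `φ = 1`, excluded
    exfalso
    have key : φ.toMonoidHom = MonoidHom.id _ := by
      apply GraphFix.hom_ext_fund hS hN hT
      intro k i t hi' hk
      have hi : i < 6 := hi'
      show φ k = k
      apply Subtype.ext
      apply Units.ext
      rcases hk with hk | hk
      · have h2 := (hg1 k ⟨i, hi⟩ t).1 hk
        rw [hid ⟨i, hi⟩] at h2
        rw [h2, hk]
      · have h2 := (hg1 k ⟨i, hi⟩ t).2 hk
        rw [hid ⟨i, hi⟩] at h2
        rw [h2, hk]
    apply h1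
    ext y
    exact congrArg (fun z : ↥(chevE6.group F) => ((z : GL chevE6.Idx F) : Matrix chevE6.Idx chevE6.Idx F) _ _)
      (DFunLike.congr_fun key y)
  · -- `π` is the table of `σ`: then `φ = σ`
    have key : φ.toMonoidHom = σ.toMonoidHom := by
      apply GraphFix.hom_ext_fund hS hN hT
      intro k i t hi' hk
      have hi : i < 6 := hi'
      show φ k = σ k
      apply Subtype.ext
      apply Units.ext
      rcases hk with hk | hk
      · have h2 := (hg1 k ⟨i, hi⟩ t).1 hk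
        have h3 := (hσ k i t hi').1 hk
        rw [h2, h3, hfw i hi]
      · have h2 := (hg1 k ⟨i, hi⟩ t).2 hk
        have h3 := (hσ k i t hi').2 hk
        rw [h2, h3, hfw i hi]
    intro g
    have e : φ g = σ g := DFunLike.congr_fun key g
    rw [e]

end Cfsg.Agent.H12
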