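import Cfsg.Agent.H96.GuDefs

/-!
# S5700 (team project, helper96): piece GU-EXTB — the adjoint of `J` is `t - J`, `J` scales `Q` by
`N`, and `B x (J x) = t Q x`.
-/

set_option autoImplicit false

namespace Cfsg.Agent.H12.Gu

open Module Matrix Cfsg.Agent.H96.Gu

universe u

/-- (GU-EXTB) -/
theorem extB : StExtB.{u} := by
  intro n F _ Q hQ K Jm t N hK hsq hirr hns hF hadj hnsa hsc
  have Bl := hQ.polar_bilinear
  have Bsymm : ∀ u v : Fin n → F, QuadraticMap.polar Q u v = QuadraticMap.polar Q v u :=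
    fun u v => QuadraticMap.polar_comm Q u v
  have Bsubl : ∀ x y v : Fin n → F, QuadraticMap.polar Q (x - y) v =
      QuadraticMap.polar Q x v - QuadraticMap.polar Q y v := by
    intro x y v
    have e : x - y = x + (-1 : F) • y := by rw [neg_one_smul, sub_eq_add_neg]
    rw [e, Bl.add_left, Bl.smul_left]
    ring
  have Bsubr : ∀ v x y : Fin n → F, QuadraticMap.polar Q v (x - y) =
      QuadraticMap.polar Q v x - QuadraticMap.polar Q v y := by
    intro v x y
    rw [Bsymm, Bsubl, Bsymm x, Bsymm y]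
  have Q0 : Q 0 = 0 := by
    have h := hQ.smul 0 0
    rw [zero_smul] at h
    rw [h]
    ring
  have B0l : ∀ v : Fin n → F, QuadraticMap.polar Q 0 v = 0 := by
    intro v
    have h := Bl.smul_left 0 0 v
    rw [zero_smul, zero_mul] at h
    exact h
  have hpol : ∀ u v : Fin n → F, Q (u + v) = Q u + Q v + QuadraticMap.polar Q u v := by
    intro u v
    unfold QuadraticMap.polar
    ring
  have hJK : Jm ∈ K := (hK Jm).mpr ⟨1, 0, by simp⟩
  have hjj : ∀ x : Fin n → F, Jm *ᵥ (Jm *ᵥ x) = t • (Jm *ᵥ x) - N • x := by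
    intro x
    rw [Matrix.mulVec_mulVec, hsq, Matrix.sub_mulVec, Matrix.smul_mulVec, Matrix.smul_mulVec,
      Matrix.one_mulVec]
  obtain ⟨J', hJ'K, hJ'⟩ := hadj Jm hJK
  -- `J'` satisfies the quadratic equation of `J`
  have hquadv : ∀ v : Fin n → F, J' *ᵥ (J' *ᵥ v) = t • (J' *ᵥ v) - N • v := by
    intro v
    by_contra hne
    have hne' : J' *ᵥ (J' *ᵥ v) - (t • (J' *ᵥ v) - N • v) ≠ 0 := sub_ne_zero.mpr hne
    obtain ⟨u, hu⟩ := (hQ.nondegenerate _ hne').1
    apply hu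
    rw [Bsubr, Bsubr, Bl.smul_right, Bl.smul_right, ← hJ' u (J' *ᵥ v), ← hJ' (Jm *ᵥ u) v,
      ← hJ' u v, hjj u, Bsubl, Bl.smul_left, Bl.smul_left]
    ring
  have hquad : J' * J' = t • J' - N • (1 : Matrix (Fin n) (Fin n) F) := by
    apply Matrix.mulVec_injective
    funext v
    rw [← Matrix.mulVec_mulVec, hquadv v, Matrix.sub_mulVec, Matrix.smul_mulVec,
      Matrix.smul_mulVec, Matrix.one_mulVec]
  -- `J' ≠ J`
  have hne1 : J' - Jm ≠ 0 := by
    intro h0
    have e : J' = Jm := sub_eq_zero.mp h0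
    rw [e] at hJ'
    apply hnsa
    intro k hk u v
    obtain ⟨a, b, rfl⟩ := (hK k).mp hk
    rw [Matrix.add_mulVec, Matrix.add_mulVec, Matrix.smul_mulVec, Matrix.smul_mulVec,
      Matrix.smul_mulVec, Matrix.smul_mulVec, Matrix.one_mulVec, Matrix.one_mulVec, Bl.add_left,
      Bl.add_right, Bl.smul_left, Bl.smul_left, Bl.smul_right, Bl.smul_right, hJ' u v]
  -- `J' = t - J`
  have hJ'eq : J' = t • (1 : Matrix (Fin n) (Fin n) F) - Jm := by
    have hE1 : J' - Jm ∈ K := K.sub_mem hJ'K hJK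
    have hcomm : J' * Jm = Jm * J' := hF.comm J' hJ'K Jm hJK
    have hprod : (J' - Jm) * (J' - (t • (1 : Matrix (Fin n) (Fin n) F) - Jm)) = 0 := by
      have e : (J' - Jm) * (J' - (t • (1 : Matrix (Fin n) (Fin n) F) - Jm)) =
          J' * J' - t • J' + (J' * Jm - Jm * J') + t • Jm - Jm * Jm := by
        simp only [sub_mul, mul_sub, Matrix.mul_smul, mul_one]
        abel
      rw [e, hquad, hsq, hcomm]
      abel
    obtain ⟨y, hyK, hy⟩ := hF.inv _ hE1 hne1
    have hy' : y * (J' - Jm) = 1 := by rw [hF.comm y hyK _ hE1]; exact hy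
    have h2 : J' - (t • (1 : Matrix (Fin n) (Fin n) F) - Jm) = 0 := by
      calc J' - (t • (1 : Matrix (Fin n) (Fin n) F) - Jm)
          = (y * (J' - Jm)) * (J' - (t • (1 : Matrix (Fin n) (Fin n) F) - Jm)) := by
            rw [hy', one_mul]
        _ = y * ((J' - Jm) * (J' - (t • (1 : Matrix (Fin n) (Fin n) F) - Jm))) := by
            rw [mul_assoc]
        _ = 0 := by rw [hprod, mul_zero]
    exact sub_eq_zero.mp h2
  have hj' : ∀ y : Fin n → F, J' *ᵥ y = t • y - Jm *ᵥ y := by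
    intro y
    rw [hJ'eq, Matrix.sub_mulVec, Matrix.smul_mulVec, Matrix.one_mulVec]
  -- (1)
  have h1 : ∀ x y : Fin n → F, QuadraticMap.polar Q (Jm *ᵥ x) y
      = t * QuadraticMap.polar Q x y - QuadraticMap.polar Q x (Jm *ᵥ y) := by
    intro x y
    rw [hJ' x y, hj', Bsubr, Bl.smul_right]
  -- (2)
  obtain ⟨c, hc⟩ := hsc Jm hJK
  have key2 : ∀ u v : Fin n → F, QuadraticMap.polar Q (Jm *ᵥ u) (Jm *ᵥ v) =
      c * QuadraticMap.polar Q u v := by
    intro u v
    unfold QuadraticMap.polar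
    rw [← Matrix.mulVec_add, hc, hc, hc]
    ring
  have key2' : ∀ u v : Fin n → F, QuadraticMap.polar Q (Jm *ᵥ u) (Jm *ᵥ v) =
      N * QuadraticMap.polar Q u v := by
    intro u v
    rw [hJ' u (Jm *ᵥ v), hj', hjj, Bsubr, Bsubr, Bl.smul_right, Bl.smul_right]
    ring
  have h2 : ∀ x : Fin n → F, Q (Jm *ᵥ x) = N * Q x := by
    intro x
    by_cases hx : x = 0
    · rw [hx, Matrix.mulVec_zero, Q0, mul_zero]
    · obtain ⟨y, hy⟩ := (hQ.nondegenerate x hx).1
      have e : c * QuadraticMap.polar Q y x = N * QuadraticMap.polar Q y x := by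
        rw [← key2, key2']
      rw [hc, mul_right_cancel₀ hy e]
  -- (3)
  obtain ⟨c₁, hc₁⟩ := hsc (Jm + 1) (K.add_mem hJK K.one_mem)
  have hs : ∀ v : Fin n → F, QuadraticMap.polar Q (Jm *ᵥ v) v = (c₁ - N - 1) * Q v := by
    intro v
    have e := hc₁ v
    rw [Matrix.add_mulVec, Matrix.one_mulVec, hpol, h2] at e
    linear_combination e
  have key3 : ∀ u v : Fin n → F, t * QuadraticMap.polar Q u v =
      (c₁ - N - 1) * QuadraticMap.polar Q u v := by
    intro u v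
    have e1 := hs (u + v)
    rw [Matrix.mulVec_add, Bl.add_left, Bl.add_right, Bl.add_right, hs u, hs v, hpol] at e1
    have e2 : QuadraticMap.polar Q (Jm *ᵥ v) u =
        t * QuadraticMap.polar Q u v - QuadraticMap.polar Q (Jm *ᵥ u) v := by
      rw [h1 v u, Bsymm v u, Bsymm v (Jm *ᵥ u)]
    rw [e2] at e1
    linear_combination e1
  have h3 : ∀ x : Fin n → F, QuadraticMap.polar Q x (Jm *ᵥ x) = t * Q x := by
    intro x
    by_cases hx : x = 0
    · rw [hx, B0l, Q0, mul_zero]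
    · obtain ⟨y, hy⟩ := (hQ.nondegenerate x hx).1
      have e : t = c₁ - N - 1 := mul_right_cancel₀ hy (key3 y x)
      rw [Bsymm, hs, e]
  exact ⟨h1, h2, h3⟩

example : StExtB.{u} =
    (∀ {n : ℕ} {F : Type u} [Field F] (Q : (Fin n → F) → F),
    Cfsg.Geo.IsNondegenerateQuadraticForm Q →
    ∀ (K : Subalgebra F (Matrix (Fin n) (Fin n) F)) (Jm : Matrix (Fin n) (Fin n) F) (t N : F),
      (∀ k : Matrix (Fin n) (Fin n) F, k ∈ K ↔
        ∃ a b : F, k = a • Jm + b • (1 : Matrix (Fin n) (Fin n) F)) →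
      Jm * Jm = t • Jm - N • (1 : Matrix (Fin n) (Fin n) F) →
      (∀ a : F, a * a - t * a + N ≠ 0) →
      (∀ a : F, Jm ≠ a • (1 : Matrix (Fin n) (Fin n) F)) →
      Cfsg.Geo.IsFieldSubalgebra 2 K →
      Cfsg.Geo.IsAdjointClosedFor (QuadraticMap.polar Q) K →
      ¬ Cfsg.Geo.IsSelfAdjointFor (QuadraticMap.polar Q) K →
      (∀ k ∈ K, ∃ c : F, ∀ v : Fin n → F, Q (k *ᵥ v) = c * Q v) →
      (∀ x y : Fin n → F, QuadraticMap.polar Q (Jm *ᵥ x) y
        = t * QuadraticMap.polar Q x y - QuadraticMap.polar Q x (Jm *ᵥ y)) ∧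
      (∀ x : Fin n → F, Q (Jm *ᵥ x) = N * Q x) ∧
      (∀ x : Fin n → F, QuadraticMap.polar Q x (Jm *ᵥ x) = t * Q x)) :=
  rfl

end Cfsg.Agent.H12.Gu
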