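import Cfsg.Agent.H96.GuDefs

/-!
# S5700 (team project, helper96): piece GU-NORM — the normaliser of `F[J]` in matrix terms.
-/

set_option autoImplicit false

namespace Cfsg.Agent.H12.Gu

open Module Matrix Cfsg.Agent.H96.Gu

universe u

/-- (GU-NORM) -/
theorem normG : StNormG.{u} := by
  intro n F _ K Jm hK hns g
  obtain ⟨G, hG⟩ : ∃ G : Matrix (Fin n) (Fin n) F, G = (g : Matrix (Fin n) (Fin n) F) := ⟨_, rfl⟩
  obtain ⟨Gi, hGi⟩ : ∃ Gi : Matrix (Fin n) (Fin n) F,
      Gi = ((g⁻¹ : Matrix.GeneralLinearGroup (Fin n) F) : Matrix (Fin n) (Fin n) F) := ⟨_, rfl⟩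
  have h1 : G * Gi = 1 := by
    rw [hG, hGi]
    exact Units.mul_inv g
  have h2 : Gi * G = 1 := by
    rw [hG, hGi]
    exact Units.inv_mul g
  have hmem : g ∈ Cfsg.Geo.subalgebraNormalizer K ↔ ∀ k : Matrix (Fin n) (Fin n) F,
      k ∈ K ↔ G * k * Gi ∈ K := by
    rw [hG, hGi]
    exact Iff.rfl
  rw [hmem, ← hG]
  constructor
  · intro hg
    have hJ : Jm ∈ K := (hK Jm).mpr ⟨1, 0, by simp⟩
    obtain ⟨a, b, hab⟩ := (hK _).mp ((hg Jm).mp hJ)
    refine ⟨a, b, ?_⟩
    calc G * Jm = G * Jm * (Gi * G) := by rw [h2, mul_one]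
      _ = (G * Jm * Gi) * G := by simp only [mul_assoc]
      _ = _ := by rw [hab]
  · rintro ⟨a, b, hab⟩
    have e1 : G * Jm * Gi = a • Jm + b • (1 : Matrix (Fin n) (Fin n) F) := by
      rw [hab, mul_assoc, h1, mul_one]
    have e0 : Gi * (G * Jm * Gi) * G = Jm := by
      calc Gi * (G * Jm * Gi) * G = (Gi * G) * Jm * (Gi * G) := by simp only [mul_assoc]
        _ = Jm := by rw [h2, one_mul, mul_one]
    have e4 : ∀ c d : F, Gi * (c • Jm + d • (1 : Matrix (Fin n) (Fin n) F)) * G =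
        c • (Gi * Jm * G) + d • (1 : Matrix (Fin n) (Fin n) F) := by
      intro c d
      simp only [mul_add, add_mul, Matrix.mul_smul, Matrix.smul_mul, mul_one, h2]
    have e5 : ∀ c d : F, G * (c • Jm + d • (1 : Matrix (Fin n) (Fin n) F)) * Gi =
        c • (G * Jm * Gi) + d • (1 : Matrix (Fin n) (Fin n) F) := by
      intro c d
      simp only [mul_add, add_mul, Matrix.mul_smul, Matrix.smul_mul, mul_one, h1]
    have e3 : Jm = a • (Gi * Jm * G) + b • (1 : Matrix (Fin n) (Fin n) F) := by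
      rw [← e4, ← e1]
      exact e0.symm
    have ha : a ≠ 0 := by
      intro ha0
      rw [ha0, zero_smul, zero_add] at e3
      exact hns b e3
    have e6 : Gi * Jm * G = a⁻¹ • Jm - (a⁻¹ * b) • (1 : Matrix (Fin n) (Fin n) F) := by
      have e7 : a • (Gi * Jm * G) = Jm - b • (1 : Matrix (Fin n) (Fin n) F) := by
        rw [eq_sub_iff_add_eq]
        exact e3.symm
      calc Gi * Jm * G = a⁻¹ • (a • (Gi * Jm * G)) := by
            rw [smul_smul, inv_mul_cancel₀ ha, one_smul]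
        _ = a⁻¹ • Jm - (a⁻¹ * b) • (1 : Matrix (Fin n) (Fin n) F) := by
            rw [e7, smul_sub, smul_smul]
    intro k
    constructor
    · intro hk
      obtain ⟨c, d, rfl⟩ := (hK k).mp hk
      apply (hK _).mpr
      refine ⟨c * a, c * b + d, ?_⟩
      rw [e5, e1]
      module
    · intro hk
      obtain ⟨c, d, hcd⟩ := (hK _).mp hk
      have e8 : k = Gi * (G * k * Gi) * G := by
        calc k = (Gi * G) * k * (Gi * G) := by rw [h2, one_mul, mul_one]
          _ = Gi * (G * k * Gi) * G := by simp only [mul_assoc]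
      apply (hK k).mpr
      refine ⟨c * a⁻¹, d - c * (a⁻¹ * b), ?_⟩
      rw [e8, hcd, e4, e6]
      module

example : StNormG.{u} =
    (∀ {n : ℕ} {F : Type u} [Field F] (K : Subalgebra F (Matrix (Fin n) (Fin n) F))
    (Jm : Matrix (Fin n) (Fin n) F),
    (∀ k : Matrix (Fin n) (Fin n) F, k ∈ K ↔
      ∃ a b : F, k = a • Jm + b • (1 : Matrix (Fin n) (Fin n) F)) →
    (∀ a : F, Jm ≠ a • (1 : Matrix (Fin n) (Fin n) F)) →
    ∀ g : Matrix.GeneralLinearGroup (Fin n) F,
      g ∈ Cfsg.Geo.subalgebraNormalizer K ↔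
        ∃ a b : F, (g : Matrix (Fin n) (Fin n) F) * Jm
          = (a • Jm + b • (1 : Matrix (Fin n) (Fin n) F)) * (g : Matrix (Fin n) (Fin n) F)) :=
  rfl

end Cfsg.Agent.H12.Gu
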