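import Mathlib
import Cfsg.Prelude.Def_SolvableStructure
import Cfsg.Agent.H12.Basic
import Cfsg.Agent.H12.Index
import Cfsg.Agent.H1.Hall
import Cfsg.Agent.H1.Index
import Cfsg.Agent.H1.Coprime

/-!
# Hall complement systems and system normalizers (helper12)
-/

set_option autoImplicit false
open Pointwise

namespace Cfsg.Agent.H12

universe u

section Basic

variable {G : Type*} [Group G]

theorem index_conj_smul [Finite G] (A : Subgroup G) (g : G) :
    (MulAut.conj g • A).index = A.index := by
  have h1 := Subgroup.card_mul_index (MulAut.conj g • A)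
  have h2 := Subgroup.card_mul_index A
  rw [card_conj_smul] at h1
  exact Nat.eq_of_mul_eq_mul_left Nat.card_pos (h1.trans h2.symm)

theorem complementSystem_conj [Finite G] {K : Nat.Primes → Subgroup G}
    (hK : Cfsg.IsComplementSystem K) (g : G) :
    Cfsg.IsComplementSystem (fun p => MulAut.conj g • K p) := fun p => by
  show (MulAut.conj g • K p).index = _
  rw [index_conj_smul]; exact hK p

theorem complementSystem_coprime [Finite G] {K : Nat.Primes → Subgroup G}
    (hK : Cfsg.IsComplementSystem K) (p : Nat.Primes) : (Nat.card (K p)).Coprime p := by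
  have h := Subgroup.card_mul_index (K p)
  rw [hK p] at h
  have hN : Nat.card G ≠ 0 := Nat.card_pos.ne'
  have h1 : Nat.card (K p) = Nat.card G / (p : ℕ) ^ (Nat.card G).factorization p :=
    (Nat.div_eq_of_eq_mul_left (pow_pos p.2.pos _) h.symm).symm
  rw [h1]
  exact (Nat.coprime_ordCompl p.2 hN).symm

theorem complementSystem_card_eq [Finite G] {K L : Nat.Primes → Subgroup G}
    (hK : Cfsg.IsComplementSystem K) (hL : Cfsg.IsComplementSystem L) (p : Nat.Primes) :
    Nat.card (K p) = Nat.card (L p) := by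
  have h1 := Subgroup.card_mul_index (K p)
  have h2 := Subgroup.card_mul_index (L p)
  rw [hK p] at h1
  rw [hL p] at h2
  exact Nat.eq_of_mul_eq_mul_right (pow_pos p.2.pos _) (h1.trans h2.symm)

theorem complementSystem_eq_top [Finite G] {K : Nat.Primes → Subgroup G}
    (hK : Cfsg.IsComplementSystem K) (p : Nat.Primes) (hp : ¬ (p : ℕ) ∣ Nat.card G) :
    K p = ⊤ := by
  rw [← Subgroup.index_eq_one, hK p, Nat.factorization_eq_zero_of_not_dvd hp, pow_zero]

theorem complementSystem_coprime_index_biInf [Finite G] {L : Nat.Primes → Subgroup G}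
    (hL : Cfsg.IsComplementSystem L) (T : Finset Nat.Primes) :
    ∀ q : Nat.Primes, q ∉ T → Nat.Coprime (⨅ p ∈ T, L p).index q := by
  classical
  induction T using Finset.induction_on with
  | empty => intro q _; simp
  | insert a T ha ih =>
    intro q hq
    rw [Finset.iInf_insert]
    have hqT : q ∉ T := fun h => hq (Finset.mem_insert_of_mem h)
    have hqa : q ≠ a := fun h => hq (h ▸ Finset.mem_insert_self a T)
    have h1 : ((L a).index).Coprime (⨅ p ∈ T, L p).index := by
      rw [hL a]; exact Nat.Coprime.pow_left _ (ih a ha).symm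
    rw [Cfsg.Agent.H1.index_inf_of_coprime _ _ h1, hL a]
    apply Nat.Coprime.mul_left
    · exact Nat.Coprime.pow_left _
        ((Nat.coprime_primes a.2 q.2).mpr (fun h => hqa (Subtype.ext h).symm))
    · exact ih q hqT

end Basic

/-- Relative simultaneous conjugacy of Hall complement systems (finite set of primes). -/
theorem exists_conj_complementSystem_aux {G : Type u} [Group G] [Finite G] [Group.IsSolvable G]
    (N : Subgroup G) [N.Normal] (A B : Nat.Primes → Subgroup G)
    (hA : Cfsg.IsComplementSystem A) (hB : Cfsg.IsComplementSystem B)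
    (hAB : ∀ p, A p ⊔ N = B p ⊔ N) (T : Finset Nat.Primes) :
    ∃ n ∈ N, ∀ p ∈ T, MulAut.conj n • A p = B p := by
  classical
  induction T using Finset.induction_on with
  | empty => exact ⟨1, N.one_mem, by simp⟩
  | insert q T hq ih =>
    obtain ⟨n₀, hn₀, h₀⟩ := ih
    have hA'idx : (MulAut.conj n₀ • A q).index = (q : ℕ) ^ (Nat.card G).factorization q := by
      rw [index_conj_smul]; exact hA q
    have hA'N : MulAut.conj n₀ • A q ⊔ N = B q ⊔ N := by
      rw [← hAB q]
      have h1 : MulAut.conj n₀ • (A q ⊔ N) = A q ⊔ N :=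
        Subgroup.conj_smul_eq_self_of_mem (le_sup_right (a := A q) hn₀)
      rw [Subgroup.smul_sup, Subgroup.Normal.conj_smul_eq_self n₀ N] at h1
      exact h1
    have hA'X : MulAut.conj n₀ • A q ≤ B q ⊔ N := hA'N ▸ le_sup_left
    have hBX : B q ≤ B q ⊔ N := le_sup_left
    have hcardA' : Nat.card (MulAut.conj n₀ • A q : Subgroup G) = Nat.card (B q) := by
      rw [card_conj_smul]; exact complementSystem_card_eq hA hB q
    obtain ⟨x, hx⟩ : ∃ x : (B q ⊔ N : Subgroup G),
        MulAut.conj x • (MulAut.conj n₀ • A q).subgroupOf (B q ⊔ N) =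
          (B q).subgroupOf (B q ⊔ N) := by
      apply Cfsg.Agent.H1.hall_conj (G := ↥(B q ⊔ N)) (Nat.card (B q))
        ((B q).relIndex (B q ⊔ N))
      · exact (card_mul_relIndex hBX).symm
      · have hdvd : (B q).relIndex (B q ⊔ N) ∣ (q : ℕ) ^ (Nat.card G).factorization q :=
          hB q ▸ Subgroup.relIndex_dvd_index_of_le hBX
        exact Nat.Coprime.coprime_dvd_right hdvd
          (Nat.Coprime.pow_right _ (complementSystem_coprime hB q))
      · rw [Cfsg.Agent.H1.card_subgroupOf_of_le hA'X, hcardA']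
      · rw [Cfsg.Agent.H1.card_subgroupOf_of_le hBX]
    have hx' : MulAut.conj (x : G) • (MulAut.conj n₀ • A q) = B q :=
      Cfsg.Agent.H1.conj_smul_eq_of_subgroupOf hA'X hBX x hx
    have hxmem : (x : G) ∈ N ⊔ MulAut.conj n₀ • A q := by
      rw [sup_comm, hA'N]; exact x.2
    obtain ⟨n₁, hn₁, k, hk, hxe⟩ := Subgroup.mem_sup_of_normal_left.mp hxmem
    have hn₁' : MulAut.conj n₁ • (MulAut.conj n₀ • A q) = B q := by
      rw [← hx', ← hxe, ← conj_smul_conj_smul _ n₁ k, Subgroup.conj_smul_eq_self_of_mem hk]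
    have hcop : (((⨅ p ∈ T, B p).subgroupOf N).index).Coprime
        ((Subgroup.normalizer ((MulAut.conj n₀ • A q : Subgroup G) : Set G)).subgroupOf N).index := by
      have h1 : ((⨅ p ∈ T, B p).subgroupOf N).index ∣ (⨅ p ∈ T, B p).index :=
        relIndex_dvd_index_of_normal_right _ N
      have h2 : ((Subgroup.normalizer ((MulAut.conj n₀ • A q : Subgroup G) : Set G)).subgroupOf
          N).index ∣ (q : ℕ) ^ (Nat.card G).factorization q := by
        rw [← hA'idx]
        exact (relIndex_dvd_index_of_normal_right _ N).trans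
          (Subgroup.index_dvd_of_le Subgroup.le_normalizer)
      exact Nat.Coprime.coprime_dvd_left h1 (Nat.Coprime.coprime_dvd_right h2
        (Nat.Coprime.pow_right _ (complementSystem_coprime_index_biInf hB T q hq)))
    obtain ⟨d, hd, m, hm, hdm⟩ := (Cfsg.Agent.H1.coprime_index _ _ hcop).2 ⟨n₁, hn₁⟩
    have hdm' : n₁ = (d : G) * (m : G) := congrArg Subtype.val hdm
    have hm' : (m : G) ∈ Subgroup.normalizer ((MulAut.conj n₀ • A q : Subgroup G) : Set G) := hm
    refine ⟨(d : G) * n₀, N.mul_mem d.2 hn₀, ?_⟩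
    intro p hp
    rw [Finset.mem_insert] at hp
    rcases hp with rfl | hp
    · rw [← conj_smul_conj_smul, ← hn₁', hdm', ← conj_smul_conj_smul _ (d : G) (m : G),
        conj_smul_eq_of_mem_normalizer hm']
    · rw [← conj_smul_conj_smul, h₀ p hp]
      apply Subgroup.conj_smul_eq_self_of_mem
      exact (iInf₂_le p hp : (⨅ p ∈ T, B p) ≤ B p) hd

/-- Relative simultaneous conjugacy of Hall complement systems. -/
theorem exists_conj_complementSystem {G : Type u} [Group G] [Finite G] [Group.IsSolvable G]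
    (N : Subgroup G) [N.Normal] (A B : Nat.Primes → Subgroup G)
    (hA : Cfsg.IsComplementSystem A) (hB : Cfsg.IsComplementSystem B)
    (hAB : ∀ p, A p ⊔ N = B p ⊔ N) : ∃ n ∈ N, ∀ p : Nat.Primes, MulAut.conj n • A p = B p := by
  obtain ⟨n, hn, h⟩ := exists_conj_complementSystem_aux N A B hA hB hAB
    (Finset.subtype Nat.Prime (Nat.card G).primeFactors)
  refine ⟨n, hn, fun p => ?_⟩
  by_cases hp : (p : ℕ) ∣ Nat.card G
  · exact h p (Finset.mem_subtype.mpr (Nat.mem_primeFactors.mpr ⟨p.2, hp, Nat.card_pos.ne'⟩))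
  · rw [complementSystem_eq_top hA p hp, complementSystem_eq_top hB p hp]
    exact Subgroup.Normal.conj_smul_eq_self n ⊤

/-- A finite group with a normal `q`-complement for every prime `q` is nilpotent. -/
theorem isNilpotent_of_normal_complements {H : Type*} [Group H] [Finite H]
    (C : Nat.Primes → Subgroup H) (hn : ∀ q, (C q).Normal)
    (hidx : ∀ q : Nat.Primes, ∃ j, (C q).index = (q : ℕ) ^ j)
    (hcop : ∀ q : Nat.Primes, (Nat.card (C q)).Coprime q) : Group.IsNilpotent H := by
  refine (Group.isNilpotent_of_finite_tfae.out 0 3 rfl rfl).mpr ?_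
  intro p hp P
  have hIn : (⨅ q : {q : Nat.Primes // q ≠ ⟨p, hp.out⟩}, C q).Normal :=
    Subgroup.normal_iInf_normal fun q => hn q
  have hPI : (P : Subgroup H) ≤ ⨅ q : {q : Nat.Primes // q ≠ ⟨p, hp.out⟩}, C q := by
    apply le_iInf
    rintro ⟨q, hq⟩
    have := hn q
    obtain ⟨j, hj⟩ := hidx q
    have h1 : (C q).relIndex P ∣ (q : ℕ) ^ j := hj ▸ Subgroup.relIndex_dvd_index_of_normal (C q) P
    have h2 : (C q).relIndex P ∣ Nat.card P := Subgroup.relIndex_dvd_card (C q) P
    obtain ⟨k, hk⟩ := IsPGroup.iff_card.mp P.isPGroup'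
    rw [hk] at h2
    have hcop' : Nat.Coprime ((q : ℕ) ^ j) (p ^ k) :=
      Nat.Coprime.pow _ _ ((Nat.coprime_primes q.2 hp.out).mpr (fun h => hq (Subtype.ext h)))
    exact Subgroup.relIndex_eq_one.mp (Nat.eq_one_of_dvd_coprimes hcop' h1 h2)
  have hIp : IsPGroup p (⨅ q : {q : Nat.Primes // q ≠ ⟨p, hp.out⟩}, C q : Subgroup H) := by
    apply IsPGroup.of_card (n := (Nat.card (⨅ q : {q : Nat.Primes // q ≠ ⟨p, hp.out⟩}, C q :
      Subgroup H)).primeFactorsList.length)
    apply Nat.eq_prime_pow_of_unique_prime_dvd Nat.card_pos.ne'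
    intro d hd hdvd
    by_contra hne
    have hle : (⨅ q : {q : Nat.Primes // q ≠ ⟨p, hp.out⟩}, C q) ≤ C ⟨d, hd⟩ :=
      iInf_le (fun q : {q : Nat.Primes // q ≠ ⟨p, hp.out⟩} => C q)
        ⟨⟨d, hd⟩, fun h => hne (congrArg Subtype.val h)⟩
    have h1 : d ∣ Nat.card (C ⟨d, hd⟩) := hdvd.trans (Subgroup.card_dvd_of_le hle)
    have h2 := hcop ⟨d, hd⟩
    exact hd.one_lt.ne' (Nat.eq_one_of_dvd_coprimes h2 h1 dvd_rfl)
  have e := P.is_maximal' hIp hPI
  rw [← e]; exact hIn

/-- The system normalizer of a Hall complement system is nilpotent. -/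
theorem isNilpotent_systemNormalizer {G : Type u} [Group G] [Finite G]
    (K : Nat.Primes → Subgroup G) (hK : Cfsg.IsComplementSystem K) :
    Group.IsNilpotent (Cfsg.systemNormalizer K) := by
  have hNle : ∀ q, Cfsg.systemNormalizer K ≤ Subgroup.normalizer (K q : Set G) :=
    fun q => iInf_le _ q
  apply isNilpotent_of_normal_complements (H := Cfsg.systemNormalizer K)
    (fun q => (K q).subgroupOf (Cfsg.systemNormalizer K))
  · intro q; exact Subgroup.normal_subgroupOf_of_le_normalizer (hNle q)
  · intro q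
    have h1 : ((K q).subgroupOf (Cfsg.systemNormalizer K)).index ∣
        (q : ℕ) ^ (Nat.card G).factorization q := by
      rw [← hK q]
      show (K q).relIndex (Cfsg.systemNormalizer K) ∣ (K q).index
      rw [← Cfsg.Agent.H1.relIndex_sup_of_le_normalizer (Cfsg.systemNormalizer K) (K q) (hNle q)]
      exact Subgroup.relIndex_dvd_index_of_le le_sup_right
    obtain ⟨j, -, hj⟩ := (Nat.dvd_prime_pow q.2).mp h1
    exact ⟨j, hj⟩
  · intro q
    have h1 : Nat.card ((K q).subgroupOf (Cfsg.systemNormalizer K)) ∣ Nat.card (K q) := by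
      rw [Cfsg.Agent.H1.card_subgroupOf]; exact Subgroup.card_dvd_of_le inf_le_left
    exact Nat.Coprime.coprime_dvd_left h1 (complementSystem_coprime hK q)

/-- The image of a Hall complement system in a quotient is a Hall complement system. -/
theorem complementSystem_map {G : Type u} [Group G] [Finite G] {K : Nat.Primes → Subgroup G}
    (hK : Cfsg.IsComplementSystem K) (N : Subgroup G) [N.Normal] :
    Cfsg.IsComplementSystem (fun p => (K p).map (QuotientGroup.mk' N)) := by
  intro p
  have hsurj := QuotientGroup.mk'_surjective N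
  have h1 : ((K p).map (QuotientGroup.mk' N)).index ∣ (p : ℕ) ^ (Nat.card G).factorization p :=
    hK p ▸ Subgroup.index_map_dvd (K p) hsurj
  obtain ⟨j, -, hj⟩ := (Nat.dvd_prime_pow p.2).mp h1
  show ((K p).map (QuotientGroup.mk' N)).index = _
  rw [hj]
  congr 1
  have h2 := Subgroup.card_mul_index ((K p).map (QuotientGroup.mk' N))
  rw [hj] at h2
  have hcop : (Nat.card ((K p).map (QuotientGroup.mk' N))).Coprime p := by
    have hd : Nat.card ((K p).map (QuotientGroup.mk' N)) ∣ Nat.card (K p) :=
      Dvd.intro _ (Cfsg.Agent.H1.card_map_mk'_mul N (K p))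
    exact Nat.Coprime.coprime_dvd_left hd (complementSystem_coprime hK p)
  have hz : (Nat.card ((K p).map (QuotientGroup.mk' N))).factorization p = 0 :=
    Nat.factorization_eq_zero_of_not_dvd ((Nat.Prime.coprime_iff_not_dvd p.2).mp hcop.symm)
  rw [← h2, Nat.factorization_mul Nat.card_pos.ne' (pow_ne_zero _ p.2.ne_zero),
    p.2.factorization_pow, Finsupp.add_apply, hz, Finsupp.single_eq_same, zero_add]

/-- System normalizers pass to quotients. -/
theorem systemNormalizer_map {G : Type u} [Group G] [Finite G] [Group.IsSolvable G]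
    (K : Nat.Primes → Subgroup G) (hK : Cfsg.IsComplementSystem K) (N : Subgroup G) [N.Normal] :
    Cfsg.systemNormalizer (fun p => (K p).map (QuotientGroup.mk' N)) =
      (Cfsg.systemNormalizer K).map (QuotientGroup.mk' N) := by
  apply le_antisymm
  · intro yb hyb
    obtain ⟨y, rfl⟩ := QuotientGroup.mk'_surjective N yb
    have hAB : ∀ p, MulAut.conj y • K p ⊔ N = K p ⊔ N := by
      intro p
      have h1 : (MulAut.conj y • K p).map (QuotientGroup.mk' N) =
          (K p).map (QuotientGroup.mk' N) := by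
        rw [Cfsg.Agent.H1.map_conj_smul]
        exact conj_smul_eq_of_mem_normalizer
          ((iInf_le (fun p => Subgroup.normalizer
            (((K p).map (QuotientGroup.mk' N) : Subgroup (G ⧸ N)) : Set (G ⧸ N))) p) hyb)
      have h2 := congrArg (Subgroup.comap (QuotientGroup.mk' N)) h1
      rwa [Subgroup.comap_map_eq, Subgroup.comap_map_eq, QuotientGroup.ker_mk'] at h2
    obtain ⟨n, hn, h⟩ := exists_conj_complementSystem N (fun p => MulAut.conj y • K p) K
      (complementSystem_conj hK y) hK hAB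
    refine ⟨n * y, ?_, ?_⟩
    · show n * y ∈ ⨅ p : Nat.Primes, Subgroup.normalizer (K p : Set G)
      rw [Subgroup.mem_iInf]
      intro p
      rw [← conj_smul_eq_iff_mem_normalizer, ← conj_smul_conj_smul]
      exact h p
    · have h1 : (QuotientGroup.mk' N) n = 1 := (QuotientGroup.eq_one_iff n).mpr hn
      rw [map_mul, h1, one_mul]
  · rintro _ ⟨x, hx, rfl⟩
    show QuotientGroup.mk' N x ∈ ⨅ p : Nat.Primes,
      Subgroup.normalizer (((K p).map (QuotientGroup.mk' N) : Subgroup (G ⧸ N)) : Set (G ⧸ N))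
    rw [Subgroup.mem_iInf]
    intro p
    exact Subgroup.le_normalizer_map (QuotientGroup.mk' N)
      (Subgroup.mem_map_of_mem _ ((Subgroup.mem_iInf.mp hx) p))

end Cfsg.Agent.H12
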