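import Mathlib
import Cfsg.Agent.H12.Basic

/-!
# Permutable subgroups (helper12)

`PermL H K` says `HK ⊆ KH` elementwise; then `HK` is the subgroup `H ⊔ K`.
-/

set_option autoImplicit false
open Pointwise

namespace Cfsg.Agent.H12

variable {G : Type*} [Group G]

/-- `H K ⊆ K H`, elementwise. -/
def PermL (H K : Subgroup G) : Prop :=
  ∀ h ∈ H, ∀ k ∈ K, ∃ k' ∈ K, ∃ h' ∈ H, h * k = k' * h'

theorem PermL.symm {H K : Subgroup G} (hp : PermL H K) : PermL K H := by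
  intro k hk h hh
  obtain ⟨k', hk', h', hh', e⟩ := hp h⁻¹ (H.inv_mem hh) k⁻¹ (K.inv_mem hk)
  refine ⟨h'⁻¹, H.inv_mem hh', k'⁻¹, K.inv_mem hk', ?_⟩
  have : k * h = (h⁻¹ * k⁻¹)⁻¹ := by group
  rw [this, e]; group

/-- If the product set `H * K` is (the carrier of) a subgroup, then `H` and `K` permute. -/
theorem permL_of_coe_eq_mul {S H K : Subgroup G} (hS : (S : Set G) = (H : Set G) * (K : Set G)) :
    PermL H K := by
  intro h hh k hk
  have hHS : ∀ x ∈ H, x ∈ S := by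
    intro x hx
    have : x ∈ (S : Set G) := by rw [hS]; exact ⟨x, hx, 1, K.one_mem, by simp⟩
    exact this
  have hKS : ∀ x ∈ K, x ∈ S := by
    intro x hx
    have : x ∈ (S : Set G) := by rw [hS]; exact ⟨1, H.one_mem, x, hx, by simp⟩
    exact this
  have h1 : k⁻¹ * h⁻¹ ∈ (S : Set G) := S.mul_mem (hKS _ (K.inv_mem hk)) (hHS _ (H.inv_mem hh))
  rw [hS] at h1
  obtain ⟨h₁, hh₁, k₁, hk₁, e⟩ := h1
  refine ⟨k₁⁻¹, K.inv_mem hk₁, h₁⁻¹, H.inv_mem hh₁, ?_⟩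
  have e' : h₁ * k₁ = k⁻¹ * h⁻¹ := e
  have : h * k = (k⁻¹ * h⁻¹)⁻¹ := by group
  rw [this, ← e']; group

/-- For permuting subgroups, every element of the join is a product. -/
theorem PermL.exists_mul_of_mem_sup {H K : Subgroup G} (hp : PermL H K) {x : G}
    (hx : x ∈ H ⊔ K) : ∃ h ∈ H, ∃ k ∈ K, x = h * k := by
  let T : Subgroup G :=
    { carrier := {x | ∃ h ∈ H, ∃ k ∈ K, x = h * k}
      one_mem' := ⟨1, H.one_mem, 1, K.one_mem, by simp⟩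
      mul_mem' := by
        rintro _ _ ⟨h₁, hh₁, k₁, hk₁, rfl⟩ ⟨h₂, hh₂, k₂, hk₂, rfl⟩
        obtain ⟨h₃, hh₃, k₃, hk₃, e⟩ := hp.symm k₁ hk₁ h₂ hh₂
        refine ⟨h₁ * h₃, H.mul_mem hh₁ hh₃, k₃ * k₂, K.mul_mem hk₃ hk₂, ?_⟩
        calc h₁ * k₁ * (h₂ * k₂) = h₁ * (k₁ * h₂) * k₂ := by group
          _ = h₁ * (h₃ * k₃) * k₂ := by rw [e]
          _ = h₁ * h₃ * (k₃ * k₂) := by group
      inv_mem' := by
        rintro _ ⟨h, hh, k, hk, rfl⟩
        obtain ⟨k', hk', h', hh', e⟩ := hp h hh k hk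
        refine ⟨h'⁻¹, H.inv_mem hh', k'⁻¹, K.inv_mem hk', ?_⟩
        rw [e]; group }
  have hle : H ⊔ K ≤ T := by
    apply sup_le
    · intro h hh; exact ⟨h, hh, 1, K.one_mem, by simp⟩
    · intro k hk; exact ⟨1, H.one_mem, k, hk, by simp⟩
  exact hle hx

/-- For permuting subgroups, the join is the product set. -/
theorem PermL.coe_sup {H K : Subgroup G} (hp : PermL H K) :
    ((H ⊔ K : Subgroup G) : Set G) = (H : Set G) * (K : Set G) := by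
  ext x
  constructor
  · intro hx
    obtain ⟨h, hh, k, hk, rfl⟩ := hp.exists_mul_of_mem_sup hx
    exact ⟨h, hh, k, hk, rfl⟩
  · rintro ⟨h, hh, k, hk, rfl⟩
    exact mul_mem ((le_sup_left : H ≤ H ⊔ K) hh) ((le_sup_right : K ≤ H ⊔ K) hk)

/-- If `H * K` is the carrier of the subgroup `S`, then `S = H ⊔ K`. -/
theorem eq_sup_of_coe_eq_mul {S H K : Subgroup G} (hS : (S : Set G) = (H : Set G) * (K : Set G)) :
    S = H ⊔ K := by
  apply SetLike.coe_injective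
  rw [hS, (permL_of_coe_eq_mul hS).coe_sup]

/-- A join of subgroups each permuting with `Y` permutes with `Y`. -/
theorem permL_iSup {ι : Sort*} {X : ι → Subgroup G} {Y : Subgroup G} (hp : ∀ i, PermL (X i) Y) :
    PermL (⨆ i, X i) Y := by
  intro t ht
  refine Subgroup.iSup_induction X (C := fun t => ∀ y ∈ Y, ∃ y' ∈ Y, ∃ t' ∈ ⨆ i, X i, t * y = y' * t')
    ht ?_ ?_ ?_
  · intro i x hx y hy
    obtain ⟨y', hy', x', hx', e⟩ := hp i x hx y hy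
    exact ⟨y', hy', x', Subgroup.mem_iSup_of_mem i hx', e⟩
  · intro y hy
    exact ⟨y, hy, 1, Subgroup.one_mem _, by simp⟩
  · intro t₁ t₂ ih₁ ih₂ y hy
    obtain ⟨y₁, hy₁, s₂, hs₂, e₂⟩ := ih₂ y hy
    obtain ⟨y₂, hy₂, s₁, hs₁, e₁⟩ := ih₁ y₁ hy₁
    refine ⟨y₂, hy₂, s₁ * s₂, Subgroup.mul_mem _ hs₁ hs₂, ?_⟩
    calc t₁ * t₂ * y = t₁ * (t₂ * y) := by group
      _ = t₁ * (y₁ * s₂) := by rw [e₂]
      _ = t₁ * y₁ * s₂ := by group
      _ = y₂ * s₁ * s₂ := by rw [e₁]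
      _ = y₂ * (s₁ * s₂) := by group

/-- Conjugating a permuting pair. -/
theorem PermL.conj {H K : Subgroup G} (hp : PermL H K) (g : G) :
    PermL (MulAut.conj g • H) (MulAut.conj g • K) := by
  rintro _ ⟨h, hh, rfl⟩ _ ⟨k, hk, rfl⟩
  obtain ⟨k', hk', h', hh', e⟩ := hp h hh k hk
  refine ⟨g * k' * g⁻¹, ⟨k', hk', rfl⟩, g * h' * g⁻¹, ⟨h', hh', rfl⟩, ?_⟩
  simp only [MulDistribMulAction.toMonoidEnd_apply, MulDistribMulAction.toMonoidHom_apply,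
    MulAut.smul_def, MulAut.conj_apply]
  calc g * h * g⁻¹ * (g * k * g⁻¹) = g * (h * k) * g⁻¹ := by group
    _ = g * (k' * h') * g⁻¹ := by rw [e]
    _ = g * k' * g⁻¹ * (g * h' * g⁻¹) := by group

end Cfsg.Agent.H12
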