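import Mathlib
import Cfsg.Agent.H12.Basic
import Cfsg.Agent.H12.Permute
import Cfsg.Agent.H12.PGroup
import Cfsg.Agent.H12.Schmidt
import Cfsg.Agent.H12.Focal2
import Cfsg.Agent.H1.Basic
import Cfsg.Agent.H1.MinNormal
import Cfsg.Agent.H1.CoprimeSylow
import Cfsg.Agent.H1.HallProduct
import Cfsg.Agent.H13.Coprime
import Cfsg.Agent.H13.HallAux

/-!
# Kegel–Wielandt: general lemmas (helper12)

Sylow parts `sy p A` of a (nilpotent) subgroup, factorized subgroups, relative versions of the Hall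
product lemma and of Wielandt's complement theorem.
-/

set_option autoImplicit false
open Pointwise

namespace Cfsg.Agent.H12

universe u

variable {G : Type u} [Group G]

/-! ### Nilpotency transfers -/

theorem isNilpotent_of_le' {H K : Subgroup G} (h : H ≤ K) (hK : Group.IsNilpotent K) :
    Group.IsNilpotent H := by
  have : Group.IsNilpotent (H.subgroupOf K) := inferInstance
  exact Group.nilpotent_of_mulEquiv (Subgroup.subgroupOfEquivOfLe h)

theorem isNilpotent_conj_smul (g : G) {A : Subgroup G} (hA : Group.IsNilpotent A) :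
    Group.IsNilpotent (MulAut.conj g • A : Subgroup G) :=
  Group.nilpotent_of_mulEquiv (Subgroup.equivSMul (MulAut.conj g) A)

theorem isNilpotent_map' {G' : Type*} [Group G'] (f : G →* G') {A : Subgroup G}
    (hA : Group.IsNilpotent A) : Group.IsNilpotent (A.map f) :=
  Group.nilpotent_of_surjective (f.subgroupMap A) (f.subgroupMap_surjective A)

theorem isNilpotent_subgroupOf' {H K : Subgroup G} (hH : Group.IsNilpotent H) :
    Group.IsNilpotent (H.subgroupOf K) := by
  have h1 : Group.IsNilpotent (H ⊓ K : Subgroup G) := isNilpotent_of_le' inf_le_left hH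
  rw [← Subgroup.inf_subgroupOf_right]
  exact Group.nilpotent_of_mulEquiv (Subgroup.subgroupOfEquivOfLe (inf_le_right : H ⊓ K ≤ K)).symm

/-! ### Sylow parts -/

/-- The image in `G` of a chosen Sylow `p`-subgroup of `A`. -/
noncomputable def sy (p : ℕ) (A : Subgroup G) : Subgroup G :=
  ((default : Sylow p A) : Subgroup A).map A.subtype

theorem sy_le (p : ℕ) (A : Subgroup G) : sy p A ≤ A := Subgroup.map_subtype_le _

theorem isPGroup_sy (p : ℕ) (A : Subgroup G) : IsPGroup p (sy p A) :=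
  (default : Sylow p A).isPGroup'.map A.subtype

theorem card_sy [Finite G] (p : ℕ) [Fact p.Prime] (A : Subgroup G) :
    Nat.card (sy p A) = p ^ (Nat.card A).factorization p :=
  H1.sylow_map_card p A default

theorem sy_ne_bot [Finite G] {p : ℕ} (hp : p.Prime) {A : Subgroup G} (hd : p ∣ Nat.card A) :
    sy p A ≠ ⊥ := by
  have : Fact p.Prime := ⟨hp⟩
  intro h
  have h1 := card_sy p A
  rw [h, Subgroup.card_bot] at h1
  have h2 : 0 < (Nat.card A).factorization p :=
    hp.factorization_pos_of_dvd Nat.card_pos.ne' hd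
  have h3 : 1 < p ^ (Nat.card A).factorization p := Nat.one_lt_pow h2.ne' hp.one_lt
  omega

theorem dvd_card_of_sy_ne_bot [Finite G] {p : ℕ} (hp : p.Prime) {A : Subgroup G}
    (h : sy p A ≠ ⊥) : p ∣ Nat.card A := by
  have : Fact p.Prime := ⟨hp⟩
  by_contra hd
  apply h
  rw [← Subgroup.card_eq_one, card_sy, Nat.factorization_eq_zero_of_not_dvd hd, pow_zero]

theorem le_normalizer_sy [Finite G] (p : ℕ) [Fact p.Prime] {A : Subgroup G}
    (hA : Group.IsNilpotent A) : A ≤ Subgroup.normalizer (sy p A : Set G) :=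
  H13.le_normalizer_map_normal A _

theorem le_sy [Finite G] (p : ℕ) [Fact p.Prime] {A : Subgroup G} (hA : Group.IsNilpotent A)
    {X : Subgroup G} (hX : X ≤ A) (hp : IsPGroup p X) : X ≤ sy p A := by
  have hp' : IsPGroup p (X.subgroupOf A) := hp.comap_subtype
  obtain ⟨Q, hQ⟩ := hp'.exists_le_sylow
  obtain ⟨g, hg⟩ := MulAction.exists_smul_eq A (default : Sylow p A) Q
  rw [Sylow.smul_eq_of_normal] at hg
  intro x hx
  have : (⟨x, hX hx⟩ : A) ∈ ((default : Sylow p A) : Subgroup A) := by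
    rw [hg]; exact hQ (by rw [Subgroup.mem_subgroupOf]; exact hx)
  exact ⟨⟨x, hX hx⟩, this, rfl⟩

theorem mem_sy_of_orderOf [Finite G] {p : ℕ} (hp : p.Prime) {A : Subgroup G}
    (hA : Group.IsNilpotent A) {x : G} (hx : x ∈ A) {k : ℕ} (ho : x ^ p ^ k = 1) : x ∈ sy p A := by
  have : Fact p.Prime := ⟨hp⟩
  have h1 : IsPGroup p (Subgroup.zpowers x) := by
    rintro ⟨y, hy⟩
    obtain ⟨n, rfl⟩ := Subgroup.mem_zpowers_iff.mp hy
    refine ⟨k, Subtype.ext ?_⟩
    simp only [Subgroup.coe_pow, Subgroup.coe_one]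
    rw [← zpow_natCast, ← zpow_mul, mul_comm, zpow_mul, zpow_natCast, ho, one_zpow]
  exact le_sy p hA (Subgroup.zpowers_le.mpr hx) h1 (Subgroup.mem_zpowers x)

theorem sy_commute [Finite G] {p q : ℕ} [hp : Fact p.Prime] [hq : Fact q.Prime] (hpq : p ≠ q)
    {A : Subgroup G} (hA : Group.IsNilpotent A) {x y : G} (hx : x ∈ sy p A) (hy : y ∈ sy q A) :
    x * y = y * x := by
  apply H13.coprime_commute_of_mem A hA (sy_le p A hx) (sy_le q A hy)
  obtain ⟨k, hk⟩ := (IsPGroup.iff_orderOf.mp (isPGroup_sy p A)) ⟨x, hx⟩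
  obtain ⟨j, hj⟩ := (IsPGroup.iff_orderOf.mp (isPGroup_sy q A)) ⟨y, hy⟩
  rw [Subgroup.orderOf_mk] at hk hj
  rw [hk, hj]
  exact Nat.Coprime.pow _ _ ((Nat.coprime_primes hp.out hq.out).mpr hpq)

/-- A subgroup containing all Sylow parts of `A` contains `A`. -/
theorem le_of_sy_le [Finite G] {A K : Subgroup G} (h : ∀ p : ℕ, p.Prime → sy p A ≤ K) :
    A ≤ K := by
  have h1 : Nat.card A ∣ Nat.card (A ⊓ K : Subgroup G) := by
    rw [Nat.dvd_iff_prime_pow_dvd_dvd]
    intro p k hp hpk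
    have : Fact p.Prime := ⟨hp⟩
    have h2 : Nat.card (sy p A) ∣ Nat.card (A ⊓ K : Subgroup G) :=
      Subgroup.card_dvd_of_le (le_inf (sy_le p A) (h p hp))
    rw [card_sy] at h2
    refine dvd_trans ?_ h2
    apply pow_dvd_pow
    exact (hp.pow_dvd_iff_le_factorization Nat.card_pos.ne').mp hpk
  have h3 : A ⊓ K = A :=
    Subgroup.eq_of_le_of_card_ge inf_le_left (Nat.le_of_dvd Nat.card_pos h1)
  exact inf_eq_left.mp h3

/-- In a nilpotent subgroup, the Sylow part of an intersection. -/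
theorem sy_inf_le [Finite G] (p : ℕ) [Fact p.Prime] {A : Subgroup G} (hA : Group.IsNilpotent A)
    (L : Subgroup G) : sy p (L ⊓ A) ≤ L ⊓ sy p A :=
  le_inf ((sy_le p _).trans inf_le_left)
    (le_sy p hA ((sy_le p _).trans inf_le_right) (isPGroup_sy p _))

theorem inf_sy_le [Finite G] (p : ℕ) [Fact p.Prime] {A : Subgroup G} (hA : Group.IsNilpotent A)
    (L : Subgroup G) : L ⊓ sy p A ≤ sy p (L ⊓ A) :=
  le_sy p (isNilpotent_of_le' inf_le_right hA) (inf_le_inf_left L (sy_le p A))
    ((isPGroup_sy p A).to_le inf_le_right)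

/-! ### Subgroups of Sylow order -/

theorem card_eq_of_le_of_sylow_card [Finite G] {p : ℕ} (hp : p.Prime) {X K : Subgroup G}
    (hXK : X ≤ K) (hX : Nat.card X = p ^ (Nat.card G).factorization p) :
    Nat.card X = p ^ (Nat.card K).factorization p := by
  have h1 : Nat.card X ∣ Nat.card K := Subgroup.card_dvd_of_le hXK
  have h2 : Nat.card K ∣ Nat.card G := Subgroup.card_subgroup_dvd_card K
  rw [hX] at h1 ⊢
  congr 1
  apply le_antisymm
  · exact (hp.pow_dvd_iff_le_factorization Nat.card_pos.ne').mp h1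
  · exact (Nat.factorization_le_iff_dvd Nat.card_pos.ne' Nat.card_pos.ne').mpr h2 p

theorem coprime_index_of_sylow_card [Finite G] {p : ℕ} [Fact p.Prime] {X : Subgroup G}
    (hX : Nat.card X = p ^ (Nat.card G).factorization p) : (Nat.card X).Coprime X.index :=
  (Sylow.ofCard X hX).card_coprime_index

theorem coprime_relIndex_of_sylow_card [Finite G] {p : ℕ} [Fact p.Prime] {X L : Subgroup G}
    (hXL : X ≤ L) (hX : Nat.card X = p ^ (Nat.card G).factorization p) :
    (Nat.card X).Coprime (X.relIndex L) :=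
  Nat.Coprime.coprime_dvd_right (Dvd.intro _ (Subgroup.relIndex_mul_index hXL))
    (coprime_index_of_sylow_card hX)

/-- A `p`-subgroup normalized by a subgroup of Sylow order lies in it. -/
theorem pgroup_le_of_normalizes [Finite G] {p : ℕ} [Fact p.Prime] {W X : Subgroup G}
    (hX : Nat.card X = p ^ (Nat.card G).factorization p) (hW : IsPGroup p W)
    (hn : X ≤ Subgroup.normalizer (W : Set G)) : W ≤ X := by
  have hXp : IsPGroup p X := IsPGroup.of_card hX
  have h1 : IsPGroup p (W ⊔ X : Subgroup G) := hW.to_sup_of_normal_left' hXp hn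
  have h2 := (Sylow.ofCard X hX).is_maximal' h1 le_sup_right
  have h3 : W ⊔ X = X := h2
  exact sup_eq_right.mp h3

/-! ### Factorized subgroups -/

theorem card_mul_of_fact [Finite G] {L H K : Subgroup G} (hH : H ≤ L) (hK : K ≤ L)
    (hfact : ∀ l ∈ L, ∃ h ∈ H, ∃ k ∈ K, l = h * k) (hd : H ⊓ K = ⊥) :
    Nat.card H * Nat.card K = Nat.card L := by
  have hinj := Subgroup.mul_injective_of_disjoint (disjoint_iff.mpr hd)
  have hr : Set.range (fun g : H × K => (g.1 : G) * g.2) = (L : Set G) := by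
    ext x
    constructor
    · rintro ⟨⟨h, k⟩, rfl⟩
      exact L.mul_mem (hH h.2) (hK k.2)
    · intro hx
      obtain ⟨h, hh, k, hk, rfl⟩ := hfact x hx
      exact ⟨(⟨h, hh⟩, ⟨k, hk⟩), rfl⟩
  rw [← Nat.card_prod, Nat.card_congr (Equiv.ofInjective _ hinj), hr]
  rfl

theorem card_sup_of_permL [Finite G] {X Y : Subgroup G} (hp : PermL X Y) (hd : X ⊓ Y = ⊥) :
    Nat.card (X ⊔ Y : Subgroup G) = Nat.card X * Nat.card Y :=
  (card_mul_of_fact le_sup_left le_sup_right (fun _ hl => hp.exists_mul_of_mem_sup hl) hd).symm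

/-! ### Normal `p`-subgroups of solvable subgroups -/

theorem exists_normal_pgroup_of_solvable [Finite G] {T : Subgroup G} (hT : Group.IsSolvable T)
    (hne : T ≠ ⊥) :
    ∃ (l : ℕ) (N : Subgroup G), l.Prime ∧ N ≤ T ∧ T ≤ Subgroup.normalizer (N : Set G) ∧ N ≠ ⊥ ∧
      IsPGroup l N := by
  have : Nontrivial T := (Subgroup.nontrivial_iff_ne_bot T).mpr hne
  obtain ⟨l, N, hl, hNn, hNb, hNp⟩ := H1.exists_normal_pgroup (G := T)
  refine ⟨l, N.map T.subtype, hl, Subgroup.map_subtype_le _, H13.le_normalizer_map_normal T N, ?_,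
    hNp.map _⟩
  rwa [Ne, Subgroup.map_eq_bot_iff_of_injective _ (Subgroup.subtype_injective _)]

/-! ### Relative Hall product -/

theorem permL_of_hall_in_subgroup [Finite G] (L H K X Y : Subgroup G) (hL : Group.IsSolvable L)
    (hfact : ∀ l ∈ L, ∃ h ∈ H, ∃ k ∈ K, l = h * k) (hH : H ≤ L) (hK : K ≤ L)
    (hX : X ≤ L) (hY : Y ≤ L)
    (hHX : H ≤ Subgroup.normalizer (X : Set G)) (hKY : K ≤ Subgroup.normalizer (Y : Set G))
    (hXh : (Nat.card X).Coprime (X.relIndex L)) (hYh : (Nat.card Y).Coprime (Y.relIndex L)) :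
    PermL X Y := by
  have hfact' : ∀ g : L, ∃ h ∈ H.subgroupOf L, ∃ k ∈ K.subgroupOf L, g = h * k := by
    rintro ⟨g, hg⟩
    obtain ⟨h, hh, k, hk, e⟩ := hfact g hg
    exact ⟨⟨h, hH hh⟩, by rw [Subgroup.mem_subgroupOf]; exact hh, ⟨k, hK hk⟩,
      by rw [Subgroup.mem_subgroupOf]; exact hk, Subtype.ext e⟩
  have hn : ∀ {H X : Subgroup G}, H ≤ Subgroup.normalizer (X : Set G) →
      H.subgroupOf L ≤ Subgroup.normalizer (X.subgroupOf L : Set L) := by
    intro H X hHX h hh
    rw [Subgroup.mem_subgroupOf] at hh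
    have h1 := hHX hh
    rw [Subgroup.mem_normalizer_iff] at h1 ⊢
    intro x
    simp only [Subgroup.mem_subgroupOf, Subgroup.coe_mul, Subgroup.coe_inv]
    exact h1 x
  obtain ⟨S, hS⟩ := H1.hall_mul_of_factorization (G := L) (H.subgroupOf L) (K.subgroupOf L)
    (X.subgroupOf L) (Y.subgroupOf L) hfact' (hn hHX) (hn hKY)
    (by rw [H1.card_subgroupOf_of_le hX]; exact hXh)
    (by rw [H1.card_subgroupOf_of_le hY]; exact hYh)
  have hp : PermL (X.subgroupOf L) (Y.subgroupOf L) := permL_of_coe_eq_mul hS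
  intro x hx y hy
  obtain ⟨y', hy', x', hx', e⟩ := hp ⟨x, hX hx⟩ (by rw [Subgroup.mem_subgroupOf]; exact hx)
    ⟨y, hY hy⟩ (by rw [Subgroup.mem_subgroupOf]; exact hy)
  rw [Subgroup.mem_subgroupOf] at hy' hx'
  exact ⟨y', hy', x', hx', congrArg Subtype.val e⟩

/-! ### Relative Wielandt complement theorem -/

theorem rel_normal_complement [Finite G] (C H : Subgroup G) (hHC : H ≤ C)
    (hnil : Group.IsNilpotent H)
    (hpp : ∃ p r : ℕ, p.Prime ∧ r.Prime ∧ p ≠ r ∧ p ∣ Nat.card H ∧ r ∣ Nat.card H)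
    (hnorm : ∀ s : ℕ, s.Prime → s ∣ Nat.card H →
      C ⊓ Subgroup.normalizer (sy s H : Set G) ≤ H) :
    ∃ K : Subgroup G, K ≤ C ∧ C ≤ Subgroup.normalizer (K : Set G) ∧ K ⊓ H = ⊥ ∧
      Nat.card K * Nat.card H = Nat.card C ∧ (Nat.card K).Coprime (Nat.card H) := by
  set H' : Subgroup C := H.subgroupOf C with hH'
  have hcH' : Nat.card H' = Nat.card H := H1.card_subgroupOf_of_le hHC
  have hnot : ∀ p : ℕ, p.Prime → ∀ P : Sylow p C, (P : Subgroup C) ≠ H' := by
    intro s hs P hP
    have : Fact s.Prime := ⟨hs⟩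
    obtain ⟨p, r, hp, hr, hpr, hpd, hrd⟩ := hpp
    have hc : Nat.card H = s ^ (Nat.card C).factorization s := by
      rw [← hcH', ← hP]; exact P.card_eq_multiplicity
    rw [hc] at hpd hrd
    have h1 := (Nat.prime_dvd_prime_iff_eq hp hs).mp (hp.dvd_of_dvd_pow hpd)
    have h2 := (Nat.prime_dvd_prime_iff_eq hr hs).mp (hr.dvd_of_dvd_pow hrd)
    exact hpr (h1.trans h2.symm)
  have hPG : ∀ s : ℕ, s.Prime → ∀ P : Sylow s H',
      ((P : Subgroup H').map H'.subtype) = (sy s H).subgroupOf C := by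
    intro s hs P
    have : Fact s.Prime := ⟨hs⟩
    have h1 : ((P : Subgroup H').map H'.subtype).map C.subtype = sy s H := by
      apply Subgroup.eq_of_le_of_card_ge
      · apply le_sy s hnil
        · rintro _ ⟨c, ⟨h, -, rfl⟩, rfl⟩
          exact h.2
        · exact (P.isPGroup'.map _).map _
      · rw [card_sy, Subgroup.card_map_of_injective (Subgroup.subtype_injective _),
          Subgroup.card_map_of_injective (Subgroup.subtype_injective _), P.card_eq_multiplicity,
          hcH']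
    rw [← h1]
    exact (Subgroup.comap_map_eq_self_of_injective (Subgroup.subtype_injective C) _).symm
  have hnorm' : ∀ p : ℕ, p.Prime → p ∣ Nat.card H' → ∀ P : Sylow p H',
      Subgroup.normalizer (((P : Subgroup H').map H'.subtype : Subgroup C) : Set C) = H' := by
    intro s hs hsd P
    have : Fact s.Prime := ⟨hs⟩
    rw [hcH'] at hsd
    rw [hPG s hs P, ← Subgroup.subgroupOf_normalizer_eq ((sy_le s H).trans hHC), hH',
      Subgroup.subgroupOf_inj]
    apply le_antisymm
    · exact le_inf (by rw [inf_comm]; exact hnorm s hs hsd) inf_le_right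
    · exact le_inf (inf_le_left.trans (le_normalizer_sy s hnil)) inf_le_right
  obtain ⟨K', hK'n, hK'c⟩ := exists_normal_complement_of_normalizer_sylow H' hnot hnorm'
  have hcK : Nat.card (K'.map C.subtype) = Nat.card K' :=
    Subgroup.card_map_of_injective (Subgroup.subtype_injective _)
  have hmul : Nat.card (K'.map C.subtype) * Nat.card H = Nat.card C := by
    rw [hcK, ← hcH']; exact hK'c.card_mul_card
  refine ⟨K'.map C.subtype, Subgroup.map_subtype_le _, H13.le_normalizer_map_normal C K', ?_,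
    hmul, ?_⟩
  · rw [eq_bot_iff]
    rintro x ⟨⟨k, hk, rfl⟩, hxH⟩
    have h1 : k ∈ K' ⊓ H' := ⟨hk, Subgroup.mem_subgroupOf.mpr hxH⟩
    rw [hK'c.disjoint.eq_bot, Subgroup.mem_bot] at h1
    rw [h1]; exact Subgroup.one_mem _
  · apply Nat.coprime_of_dvd
    intro s hs hsK hsH
    have : Fact s.Prime := ⟨hs⟩
    obtain ⟨P⟩ : Nonempty (Sylow s H') := inferInstance
    obtain ⟨Ps, hPs⟩ := exists_sylow_eq_map_of_normalizer_eq H' P
      (hnorm' s hs (by rw [hcH']; exact hsH) P)
    have h1 : Nat.card (Ps : Subgroup C) = s ^ (Nat.card C).factorization s :=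
      Ps.card_eq_multiplicity
    rw [hPs, Subgroup.card_map_of_injective (Subgroup.subtype_injective _),
      P.card_eq_multiplicity, hcH'] at h1
    have h2 := Nat.pow_right_injective hs.two_le h1
    rw [← hmul, Nat.factorization_mul Nat.card_pos.ne' Nat.card_pos.ne'] at h2
    have h3 : 0 < (Nat.card (K'.map C.subtype)).factorization s :=
      hs.factorization_pos_of_dvd Nat.card_pos.ne' hsK
    simp only [Finsupp.coe_add, Pi.add_apply] at h2
    omega

/-! ### Miscellaneous -/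

theorem conj_smul_top (a : G) : MulAut.conj a • (⊤ : Subgroup G) = ⊤ := by
  rw [Subgroup.eq_top_iff']
  intro x
  rw [mem_conj_smul_iff]
  trivial

theorem eq_top_of_conj_smul_eq_top {K : Subgroup G} {a : G} (h : MulAut.conj a • K = ⊤) :
    K = ⊤ := by
  rw [Subgroup.eq_top_iff']
  intro x
  have h1 : a * x * a⁻¹ ∈ MulAut.conj a • K := by rw [h]; trivial
  rw [mem_conj_smul_iff] at h1
  have h2 : a⁻¹ * (a * x * a⁻¹) * a = x := by group
  rwa [h2] at h1

theorem commute_of_conj_commute {a x y : G}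
    (h : (a⁻¹ * x * a) * (a⁻¹ * y * a) = (a⁻¹ * y * a) * (a⁻¹ * x * a)) : x * y = y * x := by
  calc x * y = a * ((a⁻¹ * x * a) * (a⁻¹ * y * a)) * a⁻¹ := by group
    _ = a * ((a⁻¹ * y * a) * (a⁻¹ * x * a)) * a⁻¹ := by rw [h]
    _ = y * x := by group

theorem normalizer_le_normalizer_centralizer (N : Subgroup G) :
    Subgroup.normalizer (N : Set G) ≤
      Subgroup.normalizer (Subgroup.centralizer (N : Set G) : Set G) := by
  have key : ∀ g ∈ Subgroup.normalizer (N : Set G), ∀ c ∈ Subgroup.centralizer (N : Set G),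
      g * c * g⁻¹ ∈ Subgroup.centralizer (N : Set G) := by
    intro g hg c hc
    rw [Subgroup.mem_centralizer_iff] at hc ⊢
    intro n hn
    have hn' : g⁻¹ * n * g ∈ N := ((Subgroup.mem_normalizer_iff''.mp hg) n).mp hn
    have h1 := hc _ hn'
    calc n * (g * c * g⁻¹) = g * ((g⁻¹ * n * g) * c) * g⁻¹ := by group
      _ = g * (c * (g⁻¹ * n * g)) * g⁻¹ := by rw [h1]
      _ = g * c * g⁻¹ * n := by group
  intro g hg
  rw [Subgroup.mem_normalizer_iff]
  intro c
  constructor
  · exact key g hg c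
  · intro h1
    have h2 := key g⁻¹ (Subgroup.inv_mem _ hg) _ h1
    have h3 : g⁻¹ * (g * c * g⁻¹) * g⁻¹⁻¹ = c := by group
    rwa [h3] at h2

theorem isPGroup_conj_smul {p : ℕ} {X : Subgroup G} (hX : IsPGroup p X) (g : G) :
    IsPGroup p (MulAut.conj g • X : Subgroup G) :=
  hX.of_equiv (Subgroup.equivSMul (MulAut.conj g) X)

/-- An element of a Sylow part of a nilpotent subgroup that is central in the part is central. -/
theorem central_of_sy [Finite G] {p : ℕ} [Fact p.Prime] {A : Subgroup G}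
    (hA : Group.IsNilpotent A) {z : G} (hz : z ∈ sy p A)
    (hc : ∀ y ∈ sy p A, y * z = z * y) : ∀ a ∈ A, a * z = z * a := by
  have h1 : A ≤ Subgroup.centralizer ({z} : Set G) := by
    apply le_of_sy_le
    intro t ht y hy
    have : Fact t.Prime := ⟨ht⟩
    rw [Subgroup.mem_centralizer_iff]
    intro w hw
    rw [Set.mem_singleton_iff] at hw
    subst hw
    by_cases htp : t = p
    · subst htp
      exact (hc y hy).symm
    · exact (sy_commute htp hA hy hz).symm
  intro a ha
  have h2 := h1 ha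
  rw [Subgroup.mem_centralizer_iff] at h2
  exact (h2 z rfl).symm

/-- A subgroup of a Sylow part normalized by the part is normalized by the whole nilpotent
subgroup. -/
theorem le_normalizer_of_le_sy [Finite G] {l : ℕ} [Fact l.Prime] {A : Subgroup G}
    (hA : Group.IsNilpotent A) {N : Subgroup G} (hNS : N ≤ sy l A)
    (hn : sy l A ≤ Subgroup.normalizer (N : Set G)) : A ≤ Subgroup.normalizer (N : Set G) := by
  apply le_of_sy_le
  intro t ht
  have : Fact t.Prime := ⟨ht⟩
  by_cases htl : t = l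
  · subst htl; exact hn
  · refine le_trans ?_ (Subgroup.centralizer_le_normalizer _)
    intro y hy
    rw [Subgroup.mem_centralizer_iff]
    intro n hn'
    exact (sy_commute htl hA hy (hNS hn')).symm

theorem exists_prime_orderOf_mem [Finite G] {K : Subgroup G} (hK : K ≠ ⊥) :
    ∃ p : ℕ, p.Prime ∧ ∃ x ∈ K, orderOf x = p := by
  have h1 : Nat.card K ≠ 1 := fun h => hK (Subgroup.card_eq_one.mp h)
  obtain ⟨p, hp, hpd⟩ := Nat.exists_prime_and_dvd h1
  have : Fact p.Prime := ⟨hp⟩
  obtain ⟨x, hx⟩ := exists_prime_orderOf_dvd_card' (G := K) p hpd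
  exact ⟨p, hp, x, x.2, by rw [← hx, Subgroup.orderOf_coe]⟩

theorem prime_dvd_card_of_isPGroup_ne_bot [Finite G] {l : ℕ} [Fact l.Prime] {N : Subgroup G}
    (hN : IsPGroup l N) (hne : N ≠ ⊥) : l ∣ Nat.card N := by
  obtain ⟨n, hn⟩ := IsPGroup.iff_card.mp hN
  have h1 : Nat.card N ≠ 1 := fun h => hne (Subgroup.card_eq_one.mp h)
  rw [hn] at h1 ⊢
  rcases Nat.eq_zero_or_pos n with h0 | h0
  · rw [h0, pow_zero] at h1; exact absurd rfl h1
  · exact dvd_pow_self l h0.ne'

theorem eq_of_prime_dvd_prime_pow {l p k : ℕ} (hl : l.Prime) (hp : p.Prime) (h : l ∣ p ^ k) :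
    l = p :=
  (Nat.prime_dvd_prime_iff_eq hl hp).mp (hl.dvd_of_dvd_pow h)

theorem exists_mem_zpowers_orderOf_eq [Finite G] {x : G} {q : ℕ} (hq : q ∣ orderOf x) :
    ∃ y ∈ Subgroup.zpowers x, orderOf y = q :=
  ⟨x ^ (orderOf x / q), Subgroup.pow_mem _ (Subgroup.mem_zpowers x) _,
    orderOf_pow_orderOf_div (orderOf_pos x).ne' hq⟩

/-- An element of the normalizer of `A` outside `A` has a power of prime order `q ∣ [G : A]`. -/
theorem exists_prime_orderOf_of_not_mem [Finite G] {A : Subgroup G} {d : G}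
    (hdN : d ∈ Subgroup.normalizer (A : Set G)) (hdA : d ∉ A) :
    ∃ q : ℕ, q.Prime ∧ q ∣ A.index ∧ ∃ y ∈ Subgroup.zpowers d, orderOf y = q := by
  set N := Subgroup.normalizer (A : Set G) with hN
  have hnorm : (A.subgroupOf N).Normal := Subgroup.normal_in_normalizer
  have h1 : (⟨d, hdN⟩ : N) ^ (A.subgroupOf N).index ∈ A.subgroupOf N :=
    Subgroup.pow_index_mem _ _
  rw [Subgroup.mem_subgroupOf] at h1
  have h2 : d ^ A.relIndex N ∈ A := h1
  have h3 : ¬ (A.relIndex N).Coprime (orderOf d) := by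
    intro hcop
    obtain ⟨m, hm⟩ := exists_pow_eq_self_of_coprime hcop
    apply hdA
    rw [← hm]
    exact Subgroup.pow_mem _ h2 _
  obtain ⟨q, hq, hq1, hq2⟩ := Nat.Prime.not_coprime_iff_dvd.mp h3
  obtain ⟨y, hy, hyo⟩ := exists_mem_zpowers_orderOf_eq hq2
  exact ⟨q, hq, hq1.trans (Dvd.intro _ (Subgroup.relIndex_mul_index Subgroup.le_normalizer)), y, hy,
    hyo⟩

theorem coprime_relIndex_of_card [Finite G] {p : ℕ} [Fact p.Prime] {X L : Subgroup G}
    (hXL : X ≤ L) (hX : Nat.card X = p ^ (Nat.card L).factorization p) :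
    (Nat.card X).Coprime (X.relIndex L) := by
  have h1 := (Sylow.ofCard (X.subgroupOf L)
    (by rw [H1.card_subgroupOf_of_le hXL, hX])).card_coprime_index
  rw [Sylow.coe_ofCard, H1.card_subgroupOf_of_le hXL] at h1
  exact h1

end Cfsg.Agent.H12
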