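import Mathlib
import Cfsg.Agent.H12.KW0
import Cfsg.Agent.S0566
import Cfsg.Agent.S0562
import Cfsg.Agent.H4.PaQb

/-!
# Kegel–Wielandt, coprime case: the minimal counterexample (helper12), part 1
-/

set_option autoImplicit false
open Pointwise

namespace Cfsg.Agent.H12

universe u

variable {G : Type u} [Group G]

/-- A minimal counterexample to the coprime Kegel–Wielandt theorem. -/
structure KW (A B : Subgroup G) : Prop where
  nilA : Group.IsNilpotent A
  nilB : Group.IsNilpotent B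
  cop : (Nat.card A).Coprime (Nat.card B)
  fact : ∀ g : G, ∃ a ∈ A, ∃ b ∈ B, g = a * b
  simple : ∀ N : Subgroup G, N.Normal → N = ⊥ ∨ N = ⊤
  nonsolv : ¬ Group.IsSolvable G
  ih : ∀ L X Y : Subgroup G, L ≠ ⊤ → X ≤ L → Y ≤ L → Group.IsNilpotent X → Group.IsNilpotent Y →
    (Nat.card X).Coprime (Nat.card Y) → (∀ l ∈ L, ∃ x ∈ X, ∃ y ∈ Y, l = x * y) →
    Group.IsSolvable L

namespace KW

variable {A B : Subgroup G}

theorem symm (h : KW A B) : KW B A where
  nilA := h.nilB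
  nilB := h.nilA
  cop := h.cop.symm
  fact := by
    intro g
    obtain ⟨a, ha, b, hb, e⟩ := h.fact g⁻¹
    refine ⟨b⁻¹, B.inv_mem hb, a⁻¹, A.inv_mem ha, ?_⟩
    rw [← mul_inv_rev, ← e, inv_inv]
  simple := h.simple
  nonsolv := h.nonsolv
  ih := fun L X Y hL hX hY nX nY hc hf => by
    refine h.ih L Y X hL hY hX nY nX hc.symm ?_
    intro l hl
    obtain ⟨x, hx, y, hy, e⟩ := hf l⁻¹ (L.inv_mem hl)
    refine ⟨y⁻¹, Y.inv_mem hy, x⁻¹, X.inv_mem hx, ?_⟩
    rw [← mul_inv_rev, ← e, inv_inv]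

theorem conj_right [Finite G] (h : KW A B) (g : G) : KW A (MulAut.conj g • B) where
  nilA := h.nilA
  nilB := isNilpotent_conj_smul g h.nilB
  cop := by rw [card_conj_smul]; exact h.cop
  fact := by
    intro x
    obtain ⟨a₀, ha₀, b₀, hb₀, rfl⟩ := h.fact g
    have e : MulAut.conj (a₀ * b₀) • B = MulAut.conj a₀ • B := by
      rw [← conj_smul_conj_smul, Subgroup.conj_smul_eq_self_of_mem hb₀]
    obtain ⟨a, ha, b, hb, e'⟩ := h.fact (a₀⁻¹ * x * a₀)
    refine ⟨a₀ * a * a₀⁻¹, A.mul_mem (A.mul_mem ha₀ ha) (A.inv_mem ha₀), a₀ * b * a₀⁻¹, ?_, ?_⟩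
    · rw [e]; exact conj_mem_conj_smul hb
    · calc x = a₀ * (a₀⁻¹ * x * a₀) * a₀⁻¹ := by group
        _ = a₀ * (a * b) * a₀⁻¹ := by rw [e']
        _ = a₀ * a * a₀⁻¹ * (a₀ * b * a₀⁻¹) := by group
  simple := h.simple
  nonsolv := h.nonsolv
  ih := h.ih

theorem inf_eq_bot (h : KW A B) : A ⊓ B = ⊥ :=
  (Subgroup.disjoint_of_coprime_natCard h.cop).eq_bot

theorem card_mul [Finite G] (h : KW A B) : Nat.card A * Nat.card B = Nat.card G := by
  have h1 := card_mul_of_fact (L := ⊤) (H := A) (K := B) le_top le_top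
    (fun l _ => h.fact l) h.inf_eq_bot
  rwa [Subgroup.card_top] at h1

theorem index_eq [Finite G] (h : KW A B) : A.index = Nat.card B := by
  have h1 := Subgroup.card_mul_index A
  rw [← h.card_mul] at h1
  exact Nat.eq_of_mul_eq_mul_left Nat.card_pos h1

theorem cop_of_le (h : KW A B) {X Y : Subgroup G} (hX : X ≤ A) (hY : Y ≤ B) :
    (Nat.card X).Coprime (Nat.card Y) :=
  Nat.Coprime.coprime_dvd_left (Subgroup.card_dvd_of_le hX)
    (Nat.Coprime.coprime_dvd_right (Subgroup.card_dvd_of_le hY) h.cop)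

theorem eq_top_of_normal (h : KW A B) {N : Subgroup G} (hn : N.Normal) (hne : N ≠ ⊥) : N = ⊤ :=
  (h.simple N hn).resolve_left hne

theorem B_ne_top (h : KW A B) : B ≠ ⊤ := by
  intro htop
  apply h.nonsolv
  have h1 : Group.IsNilpotent (⊤ : Subgroup G) := htop ▸ h.nilB
  have h2 : Group.IsNilpotent G := Group.nilpotent_of_mulEquiv Subgroup.topEquiv
  infer_instance

theorem A_ne_top (h : KW A B) : A ≠ ⊤ := h.symm.B_ne_top

theorem A_ne_bot (h : KW A B) : A ≠ ⊥ := by
  intro hbot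
  apply h.B_ne_top
  rw [Subgroup.eq_top_iff']
  intro g
  obtain ⟨a, ha, b, hb, rfl⟩ := h.fact g
  rw [hbot, Subgroup.mem_bot] at ha
  rw [ha, one_mul]; exact hb

theorem B_ne_bot (h : KW A B) : B ≠ ⊥ := h.symm.A_ne_bot

theorem not_normal_pgroup [Finite G] (h : KW A B) {q : ℕ} (hq : q.Prime) {N : Subgroup G}
    (hN : IsPGroup q N) (hne : N ≠ ⊥) : ¬ N.Normal := by
  intro hn
  have : Fact q.Prime := ⟨hq⟩
  have htop := h.eq_top_of_normal hn hne
  apply h.nonsolv
  have h1 : IsPGroup q (⊤ : Subgroup G) := htop ▸ hN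
  have h2 : Group.IsNilpotent (⊤ : Subgroup G) := h1.isNilpotent
  have h3 : Group.IsNilpotent G := Group.nilpotent_of_mulEquiv Subgroup.topEquiv
  infer_instance

theorem not_central (h : KW A B) {y : G} (hy : y ≠ 1) : ¬ ∀ g : G, g * y = y * g := by
  intro hc
  have h1 : y ∈ Subgroup.center G := Subgroup.mem_center_iff.mpr hc
  have h2 : Subgroup.center G = ⊤ := h.eq_top_of_normal inferInstance
    (fun h0 => hy (by rw [h0] at h1; exact Subgroup.mem_bot.mp h1))
  apply h.nonsolv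
  have h3 : ∀ a b : G, a * b = b * a := by
    intro a b
    have : b ∈ Subgroup.center G := h2 ▸ Subgroup.mem_top b
    exact (Subgroup.mem_center_iff.mp this a)
  exact Group.isSolvable_of_comm h3

theorem solvable_of_fact (h : KW A B) {L : Subgroup G} (hL : L ≠ ⊤)
    (hf : ∀ l ∈ L, ∃ a ∈ L ⊓ A, ∃ b ∈ L ⊓ B, l = a * b) : Group.IsSolvable L :=
  h.ih L (L ⊓ A) (L ⊓ B) hL inf_le_left inf_le_left (isNilpotent_of_le' inf_le_right h.nilA)
    (isNilpotent_of_le' inf_le_right h.nilB) (h.cop_of_le inf_le_right inf_le_right) hf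

theorem fact_of_ge (h : KW A B) {M : Subgroup G} (hAM : A ≤ M) :
    ∀ m ∈ M, ∃ a ∈ M ⊓ A, ∃ b ∈ M ⊓ B, m = a * b := by
  intro m hm
  obtain ⟨a, ha, b, hb, rfl⟩ := h.fact m
  refine ⟨a, ⟨hAM ha, ha⟩, b, ⟨?_, hb⟩, rfl⟩
  have := M.mul_mem (M.inv_mem (hAM ha)) hm
  rwa [inv_mul_cancel_left] at this

theorem solvable_of_ge (h : KW A B) {M : Subgroup G} (hAM : A ≤ M) (hM : M ≠ ⊤) :
    Group.IsSolvable M :=
  h.solvable_of_fact hM (h.fact_of_ge hAM)

theorem sy_card [Finite G] (h : KW A B) {p : ℕ} [hp : Fact p.Prime] (hpA : p ∣ Nat.card A) :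
    Nat.card (sy p A) = p ^ (Nat.card G).factorization p := by
  rw [card_sy, ← h.card_mul, Nat.factorization_mul Nat.card_pos.ne' Nat.card_pos.ne']
  have h1 : ¬ p ∣ Nat.card B := fun hpB =>
    hp.out.one_lt.ne' (Nat.eq_one_of_dvd_coprimes h.cop hpA hpB)
  simp [Nat.factorization_eq_zero_of_not_dvd h1]

theorem isSimpleGroup (h : KW A B) : IsSimpleGroup G := by
  have : Nontrivial G := by
    by_contra hnt
    rw [not_nontrivial_iff_subsingleton] at hnt
    exact h.nonsolv inferInstance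
  exact ⟨h.simple⟩

/-- Step 2: `B` is not a prime power group. -/
theorem exists_prime_ne [Finite G] (h : KW A B) (q : ℕ) :
    ∃ t : ℕ, t.Prime ∧ t ≠ q ∧ t ∣ Nat.card B := by
  by_contra hno
  push Not at hno
  have hq : ∀ t : ℕ, t.Prime → t ∣ Nat.card B → t = q := fun t ht htB => by
    by_contra hne
    exact hno t ht hne htB
  have : Nontrivial A := (Subgroup.nontrivial_iff_ne_bot A).mpr h.A_ne_bot
  have : Group.IsNilpotent A := h.nilA
  have hcen := Group.IsNilpotent.center_ne_bot (G := A)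
  obtain ⟨⟨u, huc⟩, hu1⟩ := (Subgroup.ne_bot_iff_exists_ne_one).mp hcen
  have hu1' : (u : G) ≠ 1 := by
    intro h0
    apply hu1
    exact Subtype.ext (Subtype.ext h0)
  have hAC : A ≤ Subgroup.centralizer ({(u : G)} : Set G) := by
    intro a ha
    rw [Subgroup.mem_centralizer_iff]
    intro w hw
    rw [Set.mem_singleton_iff] at hw
    subst hw
    have h1 := Subgroup.mem_center_iff.mp huc ⟨a, ha⟩
    exact (congrArg Subtype.val h1).symm
  have hidx : (Subgroup.centralizer ({(u : G)} : Set G)).index ∣ Nat.card B := by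
    rw [← h.index_eq]; exact Subgroup.index_dvd_of_le hAC
  have hpow : ∃ p k : ℕ, p.Prime ∧
      (Subgroup.centralizer ({(u : G)} : Set G)).index = p ^ k := by
    by_cases h1 : (Subgroup.centralizer ({(u : G)} : Set G)).index = 1
    · exact ⟨2, 0, Nat.prime_two, by rw [h1, pow_zero]⟩
    · obtain ⟨d, hd, hdn⟩ := Nat.exists_prime_and_dvd h1
      have hdq : d = q := hq d hd (hdn.trans hidx)
      subst hdq
      refine ⟨d, _, hd, Nat.eq_prime_pow_of_unique_prime_dvd (Subgroup.index_ne_zero_of_finite) ?_⟩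
      intro e he hen
      exact hq e he (hen.trans hidx)
  obtain ⟨p, k, hp, hpk⟩ := hpow
  have := h.isSimpleGroup
  have hprime := H4.prime_card_of_prime_pow_class p k hp (u : G) hu1' hpk
  apply h.nonsolv
  have : Fact (Nat.card G).Prime := ⟨hprime⟩
  have hPG : IsPGroup (Nat.card G) G := IsPGroup.of_card (n := 1) (pow_one _).symm
  have : Group.IsNilpotent G := hPG.isNilpotent
  infer_instance

/-- F2 (Kegel). -/
theorem sup_eq_top_of_permL [Finite G] (h : KW A B) {X Y : Subgroup G} (hX : X ≠ ⊥) (hY : Y ≠ ⊥)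
    (hAX : A ≤ Subgroup.normalizer (X : Set G)) (hBY : B ≤ Subgroup.normalizer (Y : Set G))
    (hp : PermL X Y) : X ⊔ Y = ⊤ := by
  by_contra hne
  obtain ⟨N, hNn, hNtop, hN⟩ := Cfsg.Agent.S0566.result X Y hX hY (by
    intro x
    obtain ⟨a, ha, b, hb, rfl⟩ := h.fact x
    have e1 : MulAut.conj a • X = X := conj_smul_eq_of_mem_normalizer (hAX ha)
    have e2 : MulAut.conj (a * b) • Y = MulAut.conj a • Y := by
      rw [← conj_smul_conj_smul, conj_smul_eq_of_mem_normalizer (hBY hb)]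
    refine ⟨MulAut.conj a • (X ⊔ Y), fun htop => hne (eq_top_of_conj_smul_eq_top htop), ?_⟩
    rw [e2, Subgroup.smul_sup, (hp.conj a).coe_sup, e1])
  have hNbot : N = ⊥ := (h.simple N hNn).resolve_right hNtop
  rcases hN with h1 | h1
  · exact hX (le_bot_iff.mp (hNbot ▸ h1))
  · exact hY (le_bot_iff.mp (hNbot ▸ h1))

/-- F3. -/
theorem sy_sup_sy [Finite G] (h : KW A B) {p q : ℕ} (hp : p.Prime) (hq : q.Prime)
    (hpA : p ∣ Nat.card A) (hqB : q ∣ Nat.card B) : sy p A ⊔ sy q B = ⊤ := by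
  have : Fact p.Prime := ⟨hp⟩
  have : Fact q.Prime := ⟨hq⟩
  have hX : sy p A ≠ ⊥ := sy_ne_bot hp hpA
  have hY : sy q B ≠ ⊥ := sy_ne_bot hq hqB
  have hAX : A ≤ Subgroup.normalizer (sy p A : Set G) := le_normalizer_sy p h.nilA
  have hBY : B ≤ Subgroup.normalizer (sy q B : Set G) := le_normalizer_sy q h.nilB
  by_cases hL : Subgroup.normalizer ((sy p A ⊔ sy q B : Subgroup G) : Set G) = ⊤
  · exact h.eq_top_of_normal (Subgroup.normalizer_eq_top_iff.mp hL)
      (ne_bot_of_le_ne_bot hX le_sup_left)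
  · apply h.sup_eq_top_of_permL hX hY hAX hBY
    have hfactL := Cfsg.Agent.S0562.result A B (sy p A) (sy q B) h.fact (sy_le p A)
      ((Subgroup.normal_subgroupOf_iff_le_normalizer (sy_le p A)).mpr hAX) (sy_le q B)
      ((Subgroup.normal_subgroupOf_iff_le_normalizer (sy_le q B)).mpr hBY)
    have hsolvL := h.solvable_of_fact hL hfactL
    have hXL : sy p A ≤ Subgroup.normalizer ((sy p A ⊔ sy q B : Subgroup G) : Set G) :=
      le_sup_left.trans Subgroup.le_normalizer
    have hYL : sy q B ≤ Subgroup.normalizer ((sy p A ⊔ sy q B : Subgroup G) : Set G) :=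
      le_sup_right.trans Subgroup.le_normalizer
    exact permL_of_hall_in_subgroup _ _ _ (sy p A) (sy q B) hsolvL hfactL inf_le_left inf_le_left
      hXL hYL (inf_le_right.trans hAX) (inf_le_right.trans hBY)
      (coprime_relIndex_of_sylow_card hXL (h.sy_card hpA))
      (coprime_relIndex_of_sylow_card hYL (h.symm.sy_card hqB))

/-- F4. -/
theorem false_of_normalizes [Finite G] (h : KW A B) {r q : ℕ} (hr : r.Prime) (hq : q.Prime)
    (hrA : r ∣ Nat.card A) (hqB : q ∣ Nat.card B) {W : Subgroup G} (hW : IsPGroup q W)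
    (hWne : W ≠ ⊥) (hn : sy r A ≤ Subgroup.normalizer (W : Set G)) : False := by
  have : Fact r.Prime := ⟨hr⟩
  have : Fact q.Prime := ⟨hq⟩
  obtain ⟨g, hg⟩ := H13.exists_conj_le_of_card q (sy q B) W (h.symm.sy_card hqB) hW
  obtain ⟨a, ha, b, hb, e⟩ := h.fact g⁻¹
  have hW' : W ≤ MulAut.conj a • sy q B := by
    have h1 : MulAut.conj g⁻¹ • MulAut.conj g • W ≤ MulAut.conj g⁻¹ • sy q B :=
      Subgroup.pointwise_smul_le_pointwise_smul_iff.mpr hg
    rw [conj_inv_smul_conj_smul, e, ← conj_smul_conj_smul,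
      conj_smul_eq_of_mem_normalizer (le_normalizer_sy q h.nilB hb)] at h1
    exact h1
  obtain ⟨t, ht, htq, htB⟩ := h.exists_prime_ne q
  have : Fact t.Prime := ⟨ht⟩
  have hc : MulAut.conj a • sy t B ≤ Subgroup.centralizer (W : Set G) := by
    intro z hz
    rw [mem_conj_smul_iff] at hz
    rw [Subgroup.mem_centralizer_iff]
    intro w hw
    have hw' := hW' hw
    rw [mem_conj_smul_iff] at hw'
    exact commute_of_conj_commute (sy_commute htq h.nilB hz hw').symm
  have htop : sy r A ⊔ MulAut.conj a • sy t B = ⊤ := by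
    have h1 := h.sy_sup_sy hr ht hrA htB
    have h2 : MulAut.conj a • (sy r A ⊔ sy t B) = ⊤ := by rw [h1]; exact conj_smul_top a
    rwa [Subgroup.smul_sup, conj_smul_eq_of_mem_normalizer (le_normalizer_sy r h.nilA ha)] at h2
  have hWn : W.Normal := by
    rw [← Subgroup.normalizer_eq_top_iff, eq_top_iff, ← htop]
    exact sup_le hn (hc.trans (Subgroup.centralizer_le_normalizer _))
  exact h.not_normal_pgroup hq hW hWne hWn

/-- A subgroup normalized by `A` inside a proper subgroup containing `B` is trivial. -/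
theorem eq_bot_of_le_of_normalizes (h : KW A B) {M A₁ : Subgroup G} (hM : M ≠ ⊤) (hB : B ≤ M)
    (hA₁ : A ≤ Subgroup.normalizer (A₁ : Set G)) (hA₁M : A₁ ≤ M) : A₁ = ⊥ := by
  have hle : A₁ ≤ M.normalCore := by
    intro x hx g
    obtain ⟨b, hb, a, ha, rfl⟩ := h.symm.fact g
    have h1 : a * x * a⁻¹ ∈ A₁ := ((Subgroup.mem_normalizer_iff.mp (hA₁ ha)) x).mp hx
    have h2 : b * (a * x * a⁻¹) * b⁻¹ ∈ M := M.mul_mem (M.mul_mem (hB hb) (hA₁M h1)) (M.inv_mem (hB hb))
    have h3 : b * a * x * (b * a)⁻¹ = b * (a * x * a⁻¹) * b⁻¹ := by group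
    rw [h3]; exact h2
  rcases h.simple _ (Subgroup.normalCore_normal M) with h1 | h1
  · rw [h1] at hle; exact le_bot_iff.mp hle
  · exact absurd (top_le_iff.mp (h1 ▸ M.normalCore_le)) hM

/-- F5. -/
theorem sup_sy_eq_top [Finite G] (h : KW A B) {A₀ : Subgroup G} (hA₀ : A₀ ≤ A)
    (hn : A ≤ Subgroup.normalizer (A₀ : Set G)) (hne : A₀ ≠ ⊥) {q : ℕ} (hq : q.Prime)
    (hqB : q ∣ Nat.card B) : A₀ ⊔ sy q B = ⊤ := by
  have : Fact q.Prime := ⟨hq⟩
  have hBY : B ≤ Subgroup.normalizer (sy q B : Set G) := le_normalizer_sy q h.nilB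
  by_cases hL : Subgroup.normalizer ((A₀ ⊔ sy q B : Subgroup G) : Set G) = ⊤
  · exact h.eq_top_of_normal (Subgroup.normalizer_eq_top_iff.mp hL)
      (ne_bot_of_le_ne_bot hne le_sup_left)
  exfalso
  set L := Subgroup.normalizer ((A₀ ⊔ sy q B : Subgroup G) : Set G) with hLdef
  have hfactL : ∀ l ∈ L, ∃ a ∈ L ⊓ A, ∃ b ∈ L ⊓ B, l = a * b :=
    Cfsg.Agent.S0562.result A B A₀ (sy q B) h.fact hA₀
      ((Subgroup.normal_subgroupOf_iff_le_normalizer hA₀).mpr hn) (sy_le q B)
      ((Subgroup.normal_subgroupOf_iff_le_normalizer (sy_le q B)).mpr hBY)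
  have hsolvL : Group.IsSolvable L := h.solvable_of_fact hL hfactL
  obtain ⟨p, hp, x, hxA₀, hxo⟩ := exists_prime_orderOf_mem hne
  have : Fact p.Prime := ⟨hp⟩
  have hpA : p ∣ Nat.card A := by rw [← hxo]; exact H13.orderOf_dvd_card_of_mem (hA₀ hxA₀)
  have hA₀L : A₀ ≤ L := le_sup_left.trans Subgroup.le_normalizer
  have hYL : sy q B ≤ L := le_sup_right.trans Subgroup.le_normalizer
  have hxp : x ^ p ^ 1 = 1 := by rw [pow_one, ← hxo]; exact pow_orderOf_eq_one x
  have hx1 : x ≠ 1 := by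
    intro h1
    rw [h1, orderOf_one] at hxo
    exact hp.ne_one hxo.symm
  have hLAnil : Group.IsNilpotent (L ⊓ A : Subgroup G) := isNilpotent_of_le' inf_le_right h.nilA
  have hS'L : sy p (L ⊓ A) ≤ L := (sy_le _ _).trans inf_le_left
  have hxS' : x ∈ sy p (L ⊓ A) := mem_sy_of_orderOf hp hLAnil ⟨hA₀L hxA₀, hA₀ hxA₀⟩ hxp
  have hS'ne : sy p (L ⊓ A) ≠ ⊥ := fun h0 => hx1 (by rw [h0] at hxS'; exact Subgroup.mem_bot.mp hxS')
  have hdisj : (L ⊓ A) ⊓ (L ⊓ B) = ⊥ := by
    rw [eq_bot_iff, ← h.inf_eq_bot]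
    exact inf_le_inf inf_le_right inf_le_right
  have hcardL : Nat.card (L ⊓ A : Subgroup G) * Nat.card (L ⊓ B : Subgroup G) = Nat.card L :=
    card_mul_of_fact inf_le_left inf_le_left hfactL hdisj
  have hpLB : ¬ p ∣ Nat.card (L ⊓ B : Subgroup G) := fun hd =>
    hp.one_lt.ne' (Nat.eq_one_of_dvd_coprimes h.cop hpA (hd.trans (Subgroup.card_dvd_of_le inf_le_right)))
  have hS'card : Nat.card (sy p (L ⊓ A)) = p ^ (Nat.card L).factorization p := by
    rw [card_sy, ← hcardL, Nat.factorization_mul Nat.card_pos.ne' Nat.card_pos.ne',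
      Finsupp.coe_add, Pi.add_apply, Nat.factorization_eq_zero_of_not_dvd hpLB, add_zero]
  have hperm : PermL (sy p (L ⊓ A)) (sy q B) :=
    permL_of_hall_in_subgroup L (L ⊓ A) (L ⊓ B) _ _ hsolvL hfactL inf_le_left inf_le_left
      hS'L hYL (le_normalizer_sy p hLAnil) (inf_le_right.trans hBY)
      (coprime_relIndex_of_card hS'L hS'card)
      (coprime_relIndex_of_sylow_card hYL (h.symm.sy_card hqB))
  have hT'solv : Group.IsSolvable (sy p (L ⊓ A) ⊔ sy q B : Subgroup G) :=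
    H1.isSolvable_of_le (sup_le hS'L hYL)
  have hT'ne : sy p (L ⊓ A) ⊔ sy q B ≠ ⊥ := ne_bot_of_le_ne_bot hS'ne le_sup_left
  obtain ⟨l, N, hl, hNT, hTN, hNne, hNp⟩ := exists_normal_pgroup_of_solvable hT'solv hT'ne
  have : Fact l.Prime := ⟨hl⟩
  have hdisj' : sy p (L ⊓ A) ⊓ sy q B = ⊥ := by
    rw [eq_bot_iff, ← h.inf_eq_bot]
    exact inf_le_inf ((sy_le _ _).trans inf_le_right) (sy_le q B)
  have hcT := card_sup_of_permL hperm hdisj'
  have hlT : l ∣ Nat.card (sy p (L ⊓ A)) * Nat.card (sy q B) := by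
    rw [← hcT]
    exact (prime_dvd_card_of_isPGroup_ne_bot hNp hNne).trans (Subgroup.card_dvd_of_le hNT)
  rw [card_sy, card_sy] at hlT
  rcases hl.dvd_mul.mp hlT with h1 | h1
  · have hlp : l = p := eq_of_prime_dvd_prime_pow hl hp h1
    subst hlp
    exact h.symm.false_of_normalizes hq hl hqB hpA hNp hNne (le_sup_right.trans hTN)
  · have hlq : l = q := eq_of_prime_dvd_prime_pow hl hq h1
    subst hlq
    have hNY : N ≤ sy l B :=
      pgroup_le_of_normalizes (h.symm.sy_card hqB) hNp (le_sup_right.trans hTN)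
    have hBN : B ≤ Subgroup.normalizer (N : Set G) :=
      le_normalizer_of_le_sy h.nilB hNY (le_sup_right.trans hTN)
    have hM : Subgroup.normalizer (N : Set G) ≠ ⊤ := fun htop =>
      h.not_normal_pgroup hl hNp hNne (Subgroup.normalizer_eq_top_iff.mp htop)
    have hA₁M : A₀ ⊓ sy p A ≤ Subgroup.normalizer (N : Set G) := by
      refine le_trans ?_ (le_sup_left.trans hTN)
      refine le_trans ?_ (inf_sy_le p h.nilA L)
      exact inf_le_inf_right _ hA₀L
    have hA₁n : A ≤ Subgroup.normalizer ((A₀ ⊓ sy p A : Subgroup G) : Set G) :=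
      H1.le_normalizer_inf A A₀ (sy p A) hn (le_normalizer_sy p h.nilA)
    have h0 := h.eq_bot_of_le_of_normalizes hM hBN hA₁n hA₁M
    have hx : x ∈ A₀ ⊓ sy p A := ⟨hxA₀, mem_sy_of_orderOf hp h.nilA (hA₀ hxA₀) hxp⟩
    rw [h0] at hx
    exact hx1 (Subgroup.mem_bot.mp hx)

/-- F6. -/
theorem centralizer_le [Finite G] (h : KW A B) {z : G} (hz : z ∈ A)
    (hc : ∀ a ∈ A, a * z = z * a) (hz1 : z ≠ 1) : Subgroup.centralizer ({z} : Set G) ≤ A := by
  by_contra hnot
  obtain ⟨c, hc1, hc2⟩ := SetLike.not_le_iff_exists.mp hnot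
  obtain ⟨a, ha, b, hb, rfl⟩ := h.fact c
  have haC : a ∈ Subgroup.centralizer ({z} : Set G) := by
    rw [Subgroup.mem_centralizer_iff]
    intro w hw
    rw [Set.mem_singleton_iff] at hw
    subst hw
    exact (hc a ha).symm
  have hbC : b ∈ Subgroup.centralizer ({z} : Set G) := by
    have := Subgroup.mul_mem _ (Subgroup.inv_mem _ haC) hc1
    rwa [inv_mul_cancel_left] at this
  have hb1 : b ≠ 1 := by
    rintro rfl
    apply hc2
    rw [mul_one]; exact ha
  have hCB : Subgroup.centralizer ({z} : Set G) ⊓ B ≠ ⊥ := by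
    intro h0
    have : b ∈ Subgroup.centralizer ({z} : Set G) ⊓ B := ⟨hbC, hb⟩
    rw [h0] at this
    exact hb1 (Subgroup.mem_bot.mp this)
  obtain ⟨t, ht, y, hyCB, hyo⟩ := exists_prime_orderOf_mem hCB
  have : Fact t.Prime := ⟨ht⟩
  have hyT : y ∈ sy t B := mem_sy_of_orderOf ht h.nilB hyCB.2 (k := 1)
    (by rw [pow_one, ← hyo]; exact pow_orderOf_eq_one y)
  have hy1 : y ≠ 1 := by
    intro h1
    rw [h1, orderOf_one] at hyo
    exact ht.ne_one hyo.symm
  obtain ⟨q, hq, hqt, hqB⟩ := h.exists_prime_ne t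
  have : Fact q.Prime := ⟨hq⟩
  have hzn : A ≤ Subgroup.normalizer (Subgroup.zpowers z : Set G) := by
    refine le_trans ?_ (Subgroup.centralizer_le_normalizer _)
    rw [Subgroup.le_centralizer_iff, Subgroup.zpowers_le, Subgroup.mem_centralizer_iff]
    intro a ha
    exact hc a ha
  have htop := h.sup_sy_eq_top (A₀ := Subgroup.zpowers z) (Subgroup.zpowers_le.mpr hz) hzn
    (Subgroup.zpowers_ne_bot.mpr hz1) hq hqB
  have hyc : (⊤ : Subgroup G) ≤ Subgroup.centralizer ({y} : Set G) := by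
    rw [← htop]
    apply sup_le
    · rw [Subgroup.zpowers_le, Subgroup.mem_centralizer_iff]
      intro w hw
      rw [Set.mem_singleton_iff] at hw
      rw [hw]
      have h1 : y ∈ Subgroup.centralizer ({z} : Set G) := hyCB.1
      rw [Subgroup.mem_centralizer_iff] at h1
      exact (h1 z rfl).symm
    · intro w hw
      rw [Subgroup.mem_centralizer_iff]
      intro v hv
      rw [Set.mem_singleton_iff] at hv
      rw [hv]
      exact sy_commute (Ne.symm hqt) h.nilB hyT hw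
  apply h.not_central hy1
  intro g
  have h1 := hyc (Subgroup.mem_top g)
  rw [Subgroup.mem_centralizer_iff] at h1
  exact (h1 y rfl).symm

/-- F7. -/
theorem le_normalizer_of_ge [Finite G] (h : KW A B) {M : Subgroup G} (hAM : A ≤ M)
    (hM : M ≠ ⊤) : M ≤ Subgroup.normalizer (A : Set G) := by
  have hsolv : Group.IsSolvable M := h.solvable_of_ge hAM hM
  have hMne : M ≠ ⊥ := ne_bot_of_le_ne_bot h.A_ne_bot hAM
  obtain ⟨l, N, hl, hNM, hMN, hNne, hNp⟩ := exists_normal_pgroup_of_solvable hsolv hMne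
  have : Fact l.Prime := ⟨hl⟩
  have hlN : l ∣ Nat.card N := prime_dvd_card_of_isPGroup_ne_bot hNp hNne
  have hlB : ¬ l ∣ Nat.card B := by
    intro hlB
    obtain ⟨r, hr, -, hrA⟩ := h.symm.exists_prime_ne 0
    exact h.false_of_normalizes hr hl hrA hlB hNp hNne ((sy_le r A).trans (hAM.trans hMN))
  have hlA : l ∣ Nat.card A := by
    have h1 : l ∣ Nat.card A * Nat.card B := by
      rw [h.card_mul]; exact hlN.trans (Subgroup.card_subgroup_dvd_card N)
    exact (hl.dvd_mul.mp h1).resolve_right hlB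
  have hSN : sy l A ≤ Subgroup.normalizer (N : Set G) := (sy_le l A).trans (hAM.trans hMN)
  have hNS : N ≤ sy l A := pgroup_le_of_normalizes (h.sy_card hlA) hNp hSN
  obtain ⟨z, hzN, hz1, hzc⟩ :=
    exists_ne_one_commute_of_isPGroup (isPGroup_sy l A) hNp hNne hSN
  have hzA : ∀ a ∈ A, a * z = z * a := central_of_sy h.nilA (hNS hzN) hzc
  have hCz : Subgroup.centralizer ({z} : Set G) ≤ A :=
    h.centralizer_le (sy_le l A (hNS hzN)) hzA hz1
  have hDA : M ⊓ Subgroup.centralizer (N : Set G) ≤ A := by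
    intro d hd
    apply hCz
    rw [Subgroup.mem_centralizer_iff]
    intro w hw
    rw [Set.mem_singleton_iff] at hw
    rw [hw]
    have h1 : d ∈ Subgroup.centralizer (N : Set G) := hd.2
    rw [Subgroup.mem_centralizer_iff] at h1
    exact h1 z hzN
  have hMD : M ≤ Subgroup.normalizer ((M ⊓ Subgroup.centralizer (N : Set G) : Subgroup G) : Set G) :=
    H1.le_normalizer_inf M M _ Subgroup.le_normalizer
      (hMN.trans (normalizer_le_normalizer_centralizer N))
  have hMr : ∀ r : ℕ, r.Prime → r ≠ l → M ≤ Subgroup.normalizer (sy r A : Set G) := by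
    intro r hr hrl m hm
    have : Fact r.Prime := ⟨hr⟩
    have hSD : sy r A ≤ M ⊓ Subgroup.centralizer (N : Set G) := by
      refine le_inf ((sy_le r A).trans hAM) ?_
      intro s hs
      rw [Subgroup.mem_centralizer_iff]
      intro n hn
      exact (sy_commute hrl h.nilA hs (hNS hn)).symm
    rw [← conj_smul_eq_iff_mem_normalizer]
    apply conj_smul_eq_of_ge
    apply le_sy r h.nilA
    · calc MulAut.conj m • sy r A
          ≤ MulAut.conj m • (M ⊓ Subgroup.centralizer (N : Set G)) :=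
            Subgroup.pointwise_smul_le_pointwise_smul_iff.mpr hSD
        _ = M ⊓ Subgroup.centralizer (N : Set G) := conj_smul_eq_of_mem_normalizer (hMD hm)
        _ ≤ A := hDA
    · exact isPGroup_conj_smul (isPGroup_sy r A) m
  obtain ⟨r, hr, hrl, hrA⟩ := h.symm.exists_prime_ne l
  have : Fact r.Prime := ⟨hr⟩
  obtain ⟨z', hz'S, hz'1, hz'c⟩ := exists_ne_one_commute_of_isPGroup (isPGroup_sy r A)
    (isPGroup_sy r A) (sy_ne_bot hr hrA) Subgroup.le_normalizer
  intro m hm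
  have hmr := hMr r hr hrl hm
  have hz''S : m * z' * m⁻¹ ∈ sy r A := ((Subgroup.mem_normalizer_iff.mp hmr) z').mp hz'S
  have hz''c : ∀ y ∈ sy r A, y * (m * z' * m⁻¹) = (m * z' * m⁻¹) * y := by
    intro y hy
    have hy' : m⁻¹ * y * m ∈ sy r A := ((Subgroup.mem_normalizer_iff''.mp hmr) y).mp hy
    have h1 := hz'c _ hy'
    calc y * (m * z' * m⁻¹) = m * ((m⁻¹ * y * m) * z') * m⁻¹ := by group
      _ = m * (z' * (m⁻¹ * y * m)) * m⁻¹ := by rw [h1]
      _ = m * z' * m⁻¹ * y := by group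
  have hz''A := central_of_sy h.nilA hz''S hz''c
  have hz''1 : m * z' * m⁻¹ ≠ 1 := by
    intro h1
    apply hz'1
    have h2 : z' = m⁻¹ * (m * z' * m⁻¹) * m := by group
    rw [h2, h1]; group
  have hC'' := h.centralizer_le (sy_le r A hz''S) hz''A hz''1
  rw [← conj_smul_eq_iff_mem_normalizer]
  apply conj_smul_eq_of_ge
  intro x hx
  rw [mem_conj_smul_iff] at hx
  apply hC''
  rw [Subgroup.mem_centralizer_iff]
  intro w hw
  rw [Set.mem_singleton_iff] at hw
  rw [hw]
  have h1 := central_of_sy h.nilA hz'S hz'c _ hx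
  calc m * z' * m⁻¹ * x = m * (z' * (m⁻¹ * x * m)) * m⁻¹ := by group
    _ = m * ((m⁻¹ * x * m) * z') * m⁻¹ := by rw [h1]
    _ = x * (m * z' * m⁻¹) := by group

/-- F8. -/
theorem normalizer_sy_le [Finite G] (h : KW A B) {p : ℕ} (hp : p.Prime) (hpA : p ∣ Nat.card A) :
    Subgroup.normalizer (sy p A : Set G) ≤ Subgroup.normalizer (A : Set G) := by
  have : Fact p.Prime := ⟨hp⟩
  apply h.le_normalizer_of_ge (le_normalizer_sy p h.nilA)
  intro htop
  exact h.not_normal_pgroup hp (isPGroup_sy p A) (sy_ne_bot hp hpA)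
    (Subgroup.normalizer_eq_top_iff.mp htop)

end KW

end Cfsg.Agent.H12
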