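import Mathlib
import Cfsg.Agent.H12.KW1

/-!
# Kegel–Wielandt, coprime case: the minimal counterexample (helper12), part 2
-/

set_option autoImplicit false
open Pointwise

namespace Cfsg.Agent.H12

universe u

variable {G : Type u} [Group G]

namespace KW

variable {A B : Subgroup G}

theorem sy_le_centralizer [Finite G] (h : KW A B) {p r : ℕ} (hp : p.Prime) (hr : r.Prime)
    (hrp : r ≠ p) {x : G} (hxA : x ∈ A) (hxo : orderOf x = p) :
    sy r A ≤ Subgroup.centralizer ({x} : Set G) := by
  have : Fact p.Prime := ⟨hp⟩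
  have : Fact r.Prime := ⟨hr⟩
  have hxS : x ∈ sy p A := mem_sy_of_orderOf hp h.nilA hxA (k := 1)
    (by rw [pow_one, ← hxo]; exact pow_orderOf_eq_one x)
  intro s hs
  rw [Subgroup.mem_centralizer_iff]
  intro w hw
  rw [Set.mem_singleton_iff] at hw
  rw [hw]
  exact sy_commute (Ne.symm hrp) h.nilA hxS hs

/-- Q. -/
theorem mem_normalizer_of_mem_conj [Finite G] (h : KW A B) {x : G} {p : ℕ} (hp : p.Prime)
    (hxA : x ∈ A) (hxo : orderOf x = p)
    (hC : Subgroup.centralizer ({x} : Set G) ≤ Subgroup.normalizer (A : Set G)) {g : G}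
    (hxg : x ∈ MulAut.conj g • A) : g ∈ Subgroup.normalizer (A : Set G) := by
  obtain ⟨r, hr, hrp, hrA⟩ := h.symm.exists_prime_ne p
  have : Fact p.Prime := ⟨hp⟩
  have : Fact r.Prime := ⟨hr⟩
  have hSC : sy r A ≤ Subgroup.centralizer ({x} : Set G) := h.sy_le_centralizer hp hr hrp hxA hxo
  have hgSC : MulAut.conj g • sy r A ≤ Subgroup.centralizer ({x} : Set G) := by
    intro s hs
    rw [mem_conj_smul_iff] at hs hxg
    have hx' : g⁻¹ * x * g ∈ sy p A := by
      apply mem_sy_of_orderOf hp h.nilA hxg (k := 1)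
      have h1 : (g⁻¹ * x * g) ^ p = g⁻¹ * x ^ p * g := by
        have h2 := conj_pow (a := g⁻¹) (b := x) (i := p)
        rw [inv_inv] at h2
        exact h2
      rw [pow_one, h1, ← hxo, pow_orderOf_eq_one]; group
    have h1 := sy_commute (Ne.symm hrp) h.nilA hx' hs
    rw [Subgroup.mem_centralizer_iff]
    intro w hw
    rw [Set.mem_singleton_iff] at hw
    rw [hw]
    exact commute_of_conj_commute h1
  have hc1 := card_eq_of_le_of_sylow_card hr hSC (h.sy_card hrA)
  have hc2 := card_eq_of_le_of_sylow_card hr hgSC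
    (by rw [card_conj_smul]; exact h.sy_card hrA)
  obtain ⟨c, hcC, hc⟩ := H1.sylow_conj_internal r (Subgroup.centralizer ({x} : Set G))
    (MulAut.conj g • sy r A) (sy r A) hgSC hSC hc2 hc1
  rw [conj_smul_conj_smul] at hc
  have h1 : c * g ∈ Subgroup.normalizer (A : Set G) :=
    h.normalizer_sy_le hr hrA (conj_smul_eq_iff_mem_normalizer.mp hc)
  have h2 : c ∈ Subgroup.normalizer (A : Set G) := hC hcC
  have h3 : g = c⁻¹ * (c * g) := by group
  rw [h3]
  exact Subgroup.mul_mem _ (Subgroup.inv_mem _ h2) h1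

/-- F10. -/
theorem centralizer_le_of_normalizes [Finite G] (h : KW A B) {x : G} {p : ℕ} (hp : p.Prime)
    (hxA : x ∈ A) (hxo : orderOf x = p) (hxB : x ∈ Subgroup.normalizer (B : Set G)) :
    Subgroup.centralizer ({x} : Set G) ≤ Subgroup.normalizer (A : Set G) := by
  have hx1 : x ≠ 1 := by
    intro h1
    rw [h1, orderOf_one] at hxo
    exact hp.ne_one hxo.symm
  have hfactC : ∀ c ∈ Subgroup.centralizer ({x} : Set G),
      ∃ a ∈ Subgroup.centralizer ({x} : Set G) ⊓ A,
        ∃ b ∈ Subgroup.centralizer ({x} : Set G) ⊓ B, c = a * b := by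
    intro c hc
    obtain ⟨a, ha, b, hb, rfl⟩ := h.fact c
    have hcx : x * (a * b) = (a * b) * x := (Subgroup.mem_centralizer_iff.mp hc) x rfl
    have hu : b * x * b⁻¹ = a⁻¹ * x * a := by
      calc b * x * b⁻¹ = a⁻¹ * ((a * b) * x) * b⁻¹ := by group
        _ = a⁻¹ * (x * (a * b)) * b⁻¹ := by rw [hcx]
        _ = a⁻¹ * x * a := by group
    have huB : b * x * b⁻¹ * x⁻¹ ∈ B := by
      have h1 : x * b⁻¹ * x⁻¹ ∈ B := ((Subgroup.mem_normalizer_iff.mp hxB) b⁻¹).mp (B.inv_mem hb)
      have h2 := B.mul_mem hb h1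
      have h3 : b * (x * b⁻¹ * x⁻¹) = b * x * b⁻¹ * x⁻¹ := by group
      rwa [h3] at h2
    have huA : b * x * b⁻¹ * x⁻¹ ∈ A := by
      rw [hu]
      exact A.mul_mem (A.mul_mem (A.mul_mem (A.inv_mem ha) hxA) ha) (A.inv_mem hxA)
    have hu1 : b * x * b⁻¹ * x⁻¹ = 1 := by
      have h1 : b * x * b⁻¹ * x⁻¹ ∈ A ⊓ B := ⟨huA, huB⟩
      rw [h.inf_eq_bot] at h1
      exact Subgroup.mem_bot.mp h1
    have hbC : b ∈ Subgroup.centralizer ({x} : Set G) := by
      rw [Subgroup.mem_centralizer_iff]
      intro w hw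
      rw [Set.mem_singleton_iff] at hw
      rw [hw]
      calc x * b = (b * x * b⁻¹ * x⁻¹)⁻¹ * (b * x) := by group
        _ = b * x := by rw [hu1]; group
    have haC : a ∈ Subgroup.centralizer ({x} : Set G) := by
      have h1 := Subgroup.mul_mem _ hc (Subgroup.inv_mem _ hbC)
      rwa [mul_inv_cancel_right] at h1
    exact ⟨a, ⟨haC, ha⟩, b, ⟨hbC, hb⟩, rfl⟩
  have hCtop : Subgroup.centralizer ({x} : Set G) ≠ ⊤ := by
    intro htop
    apply h.not_central hx1
    intro g
    have h1 : g ∈ Subgroup.centralizer ({x} : Set G) := htop ▸ Subgroup.mem_top g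
    exact ((Subgroup.mem_centralizer_iff.mp h1) x rfl).symm
  have hsolv := h.solvable_of_fact hCtop hfactC
  obtain ⟨r, hr, hrp, hrA⟩ := h.symm.exists_prime_ne p
  have : Fact p.Prime := ⟨hp⟩
  have : Fact r.Prime := ⟨hr⟩
  have hSC : sy r A ≤ Subgroup.centralizer ({x} : Set G) := h.sy_le_centralizer hp hr hrp hxA hxo
  by_cases hCB : Subgroup.centralizer ({x} : Set G) ⊓ B = ⊥
  · intro c hc
    obtain ⟨a, ha, b, hb, rfl⟩ := hfactC c hc
    rw [hCB, Subgroup.mem_bot] at hb
    rw [hb, mul_one]
    exact Subgroup.le_normalizer ha.2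
  have hdisj : (Subgroup.centralizer ({x} : Set G) ⊓ A) ⊓ (Subgroup.centralizer ({x} : Set G) ⊓ B)
      = ⊥ := by
    rw [eq_bot_iff, ← h.inf_eq_bot]
    exact inf_le_inf inf_le_right inf_le_right
  have hcardC := card_mul_of_fact inf_le_left inf_le_left hfactC hdisj
  have hhall : (Nat.card (Subgroup.centralizer ({x} : Set G) ⊓ B : Subgroup G)).Coprime
      ((Subgroup.centralizer ({x} : Set G) ⊓ B).relIndex (Subgroup.centralizer ({x} : Set G))) := by
    have h1 := card_mul_relIndex
      (inf_le_left : Subgroup.centralizer ({x} : Set G) ⊓ B ≤ Subgroup.centralizer ({x} : Set G))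
    rw [← hcardC, mul_comm] at h1
    rw [Nat.eq_of_mul_eq_mul_right Nat.card_pos h1]
    exact (h.cop_of_le inf_le_right inf_le_right).symm
  have hperm : PermL (sy r A) (Subgroup.centralizer ({x} : Set G) ⊓ B) :=
    permL_of_hall_in_subgroup (Subgroup.centralizer ({x} : Set G)) _ _ _ _ hsolv hfactC
      inf_le_left inf_le_left hSC inf_le_left (inf_le_right.trans (le_normalizer_sy r h.nilA))
      Subgroup.le_normalizer (coprime_relIndex_of_sylow_card hSC (h.sy_card hrA)) hhall
  have hT'C : sy r A ⊔ (Subgroup.centralizer ({x} : Set G) ⊓ B) ≤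
      Subgroup.centralizer ({x} : Set G) := sup_le hSC inf_le_left
  have hT'solv : Group.IsSolvable
      (sy r A ⊔ (Subgroup.centralizer ({x} : Set G) ⊓ B) : Subgroup G) :=
    H1.isSolvable_of_le hT'C
  have hT'ne : sy r A ⊔ (Subgroup.centralizer ({x} : Set G) ⊓ B) ≠ ⊥ :=
    ne_bot_of_le_ne_bot hCB le_sup_right
  obtain ⟨l, N, hl, hNT, hTN, hNne, hNp⟩ := exists_normal_pgroup_of_solvable hT'solv hT'ne
  have : Fact l.Prime := ⟨hl⟩
  have hdisj' : sy r A ⊓ (Subgroup.centralizer ({x} : Set G) ⊓ B) = ⊥ := by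
    rw [eq_bot_iff, ← h.inf_eq_bot]
    exact inf_le_inf (sy_le r A) inf_le_right
  have hcT := card_sup_of_permL hperm hdisj'
  have hlT : l ∣ Nat.card (sy r A) * Nat.card (Subgroup.centralizer ({x} : Set G) ⊓ B : Subgroup G) := by
    rw [← hcT]
    exact (prime_dvd_card_of_isPGroup_ne_bot hNp hNne).trans (Subgroup.card_dvd_of_le hNT)
  rcases hl.dvd_mul.mp hlT with h1 | h1
  · rw [card_sy] at h1
    have hlr : l = r := eq_of_prime_dvd_prime_pow hl hr h1
    subst hlr
    have hNS : N ≤ sy l A :=
      pgroup_le_of_normalizes (h.sy_card hrA) hNp (le_sup_left.trans hTN)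
    have hAN : A ≤ Subgroup.normalizer (N : Set G) :=
      le_normalizer_of_le_sy h.nilA hNS (le_sup_left.trans hTN)
    have hM : Subgroup.normalizer (N : Set G) ≠ ⊤ := fun htop =>
      h.not_normal_pgroup hl hNp hNne (Subgroup.normalizer_eq_top_iff.mp htop)
    have hMA := h.le_normalizer_of_ge hAN hM
    intro c hc
    obtain ⟨a, ha, b, hb, rfl⟩ := hfactC c hc
    exact Subgroup.mul_mem _ (Subgroup.le_normalizer ha.2) (hMA (hTN (le_sup_right (a := sy l A) hb)))
  · exact absurd (h.false_of_normalizes hr hl hrA (h1.trans (Subgroup.card_dvd_of_le inf_le_right))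
      hNp hNne (le_sup_left.trans hTN)) id

/-- TI step, by induction on `|S_p| - |S_p ∩ C(x)|`. -/
theorem ti_aux [Finite G] (h : KW A B) {p : ℕ} (hp : p.Prime) : ∀ n : ℕ, ∀ x ∈ A, orderOf x = p →
    Nat.card (sy p A) - Nat.card (sy p A ⊓ Subgroup.centralizer ({x} : Set G) : Subgroup G) = n →
    Subgroup.centralizer ({x} : Set G) ≤ Subgroup.normalizer (A : Set G) := by
  have : Fact p.Prime := ⟨hp⟩
  intro n
  induction n using Nat.strong_induction_on with
  | _ n IH =>
    intro x hxA hxo hn
    have hxp : x ^ p ^ 1 = 1 := by rw [pow_one, ← hxo]; exact pow_orderOf_eq_one x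
    have hxS : x ∈ sy p A := mem_sy_of_orderOf hp h.nilA hxA hxp
    have hx1 : x ≠ 1 := by
      intro h1
      rw [h1, orderOf_one] at hxo
      exact hp.ne_one hxo.symm
    have hpA : p ∣ Nat.card A := by rw [← hxo]; exact H13.orderOf_dvd_card_of_mem hxA
    have hxC : x ∈ Subgroup.centralizer ({x} : Set G) := by
      rw [Subgroup.mem_centralizer_iff]
      intro w hw
      rw [Set.mem_singleton_iff] at hw
      rw [hw]
    set C := Subgroup.centralizer ({x} : Set G) with hC
    by_cases hcase : C ⊓ Subgroup.normalizer (A : Set G) ≤ A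
    · by_cases hSC : sy p A ≤ C
      · have hcen : ∀ a ∈ A, a * x = x * a := central_of_sy h.nilA hxS (fun y hy => by
          have h1 := hSC hy
          rw [hC, Subgroup.mem_centralizer_iff] at h1
          exact (h1 x rfl).symm)
        exact (h.centralizer_le hxA hcen hx1).trans Subgroup.le_normalizer
      · have hPxlt : sy p A ⊓ C < sy p A :=
          lt_of_le_of_ne inf_le_left (fun e => hSC (inf_eq_left.mp e))
        have hxPx : x ∈ sy p A ⊓ C := ⟨hxS, hxC⟩
        have hPxne : sy p A ⊓ C ≠ ⊥ := fun h0 =>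
          hx1 (by rw [h0] at hxPx; exact Subgroup.mem_bot.mp hxPx)
        have hSp : IsPGroup p (sy p A) := isPGroup_sy p A
        have hRp : IsPGroup p (sy p A ⊓
            Subgroup.normalizer ((sy p A ⊓ C : Subgroup G) : Set G) : Subgroup G) :=
          hSp.to_le inf_le_left
        obtain ⟨v₀, hv₀P, hv₀1, hv₀c⟩ :=
          exists_ne_one_commute_of_isPGroup hRp (hSp.to_le inf_le_left) hPxne inf_le_right
        have hpv₀ : p ∣ orderOf v₀ := by
          obtain ⟨k, hk⟩ := (IsPGroup.iff_orderOf.mp hSp) ⟨v₀, hv₀P.1⟩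
          rw [Subgroup.orderOf_mk] at hk
          rcases Nat.eq_zero_or_pos k with h0 | h0
          · rw [h0, pow_zero, orderOf_eq_one_iff] at hk; exact absurd hk hv₀1
          · rw [hk]; exact dvd_pow_self p h0.ne'
        obtain ⟨v, hvz, hvo⟩ := exists_mem_zpowers_orderOf_eq hpv₀
        have hvP : v ∈ sy p A ⊓ C := (Subgroup.zpowers_le.mpr hv₀P) hvz
        have hvc : ∀ y ∈ sy p A ⊓ Subgroup.normalizer ((sy p A ⊓ C : Subgroup G) : Set G),
            v * y = y * v := by
          intro y hy
          have h1 : Subgroup.zpowers v₀ ≤ Subgroup.centralizer ({y} : Set G) := by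
            rw [Subgroup.zpowers_le, Subgroup.mem_centralizer_iff]
            intro w hw
            rw [Set.mem_singleton_iff] at hw
            rw [hw]
            exact hv₀c y hy
          have h2 := h1 hvz
          rw [Subgroup.mem_centralizer_iff] at h2
          exact (h2 y rfl).symm
        have hvA : v ∈ A := sy_le p A hvP.1
        have hlt : Nat.card (sy p A ⊓ C : Subgroup G) <
            Nat.card (sy p A ⊓ Subgroup.centralizer ({v} : Set G) : Subgroup G) := by
          obtain ⟨w, hwS, hwN, hwP⟩ :=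
            exists_mem_normalizer_not_mem_of_lt (M := sy p A) hSp.isNilpotent hPxlt
          have hPR : sy p A ⊓ C <
              sy p A ⊓ Subgroup.normalizer ((sy p A ⊓ C : Subgroup G) : Set G) :=
            lt_of_le_of_ne (le_inf inf_le_left Subgroup.le_normalizer)
              (fun e => hwP (e ▸ ⟨hwS, hwN⟩))
          have hRle : sy p A ⊓ Subgroup.normalizer ((sy p A ⊓ C : Subgroup G) : Set G) ≤
              sy p A ⊓ Subgroup.centralizer ({v} : Set G) := by
            refine le_inf inf_le_left ?_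
            intro y hy
            rw [Subgroup.mem_centralizer_iff]
            intro w hw
            rw [Set.mem_singleton_iff] at hw
            rw [hw]
            exact hvc y hy
          exact lt_of_lt_of_le (H1.card_lt_card_of_lt hPR) (Subgroup.card_le_of_le hRle)
        have hle : Nat.card (sy p A ⊓ Subgroup.centralizer ({v} : Set G) : Subgroup G) ≤
            Nat.card (sy p A) := Subgroup.card_le_of_le inf_le_left
        have hCv : Subgroup.centralizer ({v} : Set G) ≤ Subgroup.normalizer (A : Set G) :=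
          IH _ (by omega) v hvA hvo rfl
        have hCN : C ⊓ Subgroup.normalizer ((sy p A ⊓ C : Subgroup G) : Set G) ≤ A := by
          intro m hm
          apply hcase
          refine ⟨hm.1, ?_⟩
          have h1 : m * v * m⁻¹ ∈ sy p A ⊓ C := ((Subgroup.mem_normalizer_iff.mp hm.2) v).mp hvP
          have h2 : v ∈ MulAut.conj m⁻¹ • A := by
            rw [mem_conj_smul_iff, inv_inv]
            exact sy_le p A h1.1
          have h3 := h.mem_normalizer_of_mem_conj hp hvA hvo hCv h2
          have h4 := Subgroup.inv_mem _ h3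
          rwa [inv_inv] at h4
        obtain ⟨r, hr, hrp, hrA⟩ := h.symm.exists_prime_ne p
        have : Fact r.Prime := ⟨hr⟩
        have hSrC : sy r A ≤ C := h.sy_le_centralizer hp hr hrp hxA hxo
        have hHnil : Group.IsNilpotent (C ⊓ A : Subgroup G) :=
          isNilpotent_of_le' inf_le_right h.nilA
        have hpH : p ∣ Nat.card (C ⊓ A : Subgroup G) := by
          rw [← hxo]; exact H13.orderOf_dvd_card_of_mem ⟨hxC, hxA⟩
        have hdvd_sy : ∀ s : ℕ, s.Prime → s ≠ p → s ∣ Nat.card A →
            s ∣ Nat.card (C ⊓ A : Subgroup G) := by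
          intro s hs hsp hsA
          have : Fact s.Prime := ⟨hs⟩
          have h1 : sy s A ≤ C ⊓ A := le_inf (h.sy_le_centralizer hp hs hsp hxA hxo) (sy_le s A)
          refine dvd_trans ?_ (Subgroup.card_dvd_of_le h1)
          exact prime_dvd_card_of_isPGroup_ne_bot (isPGroup_sy s A) (sy_ne_bot hs hsA)
        have hnormH : ∀ s : ℕ, s.Prime → s ∣ Nat.card (C ⊓ A : Subgroup G) →
            C ⊓ Subgroup.normalizer (sy s (C ⊓ A) : Set G) ≤ C ⊓ A := by
          intro s hs hsd
          have : Fact s.Prime := ⟨hs⟩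
          have hsA : s ∣ Nat.card A := hsd.trans (Subgroup.card_dvd_of_le inf_le_right)
          have e : sy s (C ⊓ A) = C ⊓ sy s A :=
            le_antisymm (sy_inf_le s h.nilA C) (inf_sy_le s h.nilA C)
          rw [e]
          by_cases hsp : s = p
          · subst hsp
            rw [inf_comm C (sy s A)]
            exact fun m hm => ⟨hm.1, hCN hm⟩
          · rw [inf_eq_right.mpr (h.sy_le_centralizer hp hs hsp hxA hxo)]
            intro m hm
            exact ⟨hm.1, hcase ⟨hm.1, h.normalizer_sy_le hs hsA hm.2⟩⟩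
        obtain ⟨K, hKC, hCK, hKH, hcard, hcop⟩ := rel_normal_complement C (C ⊓ A) inf_le_left hHnil
          ⟨p, r, hp, hr, Ne.symm hrp, hpH, hdvd_sy r hr hrp hrA⟩ hnormH
        have hK : K = ⊥ := by
          by_contra hKne
          have hK1 : Nat.card K ≠ 1 := fun h0 => hKne (Subgroup.card_eq_one.mp h0)
          obtain ⟨q, hq, hqK⟩ := Nat.exists_prime_and_dvd hK1
          have : Fact q.Prime := ⟨hq⟩
          have hqH : ¬ q ∣ Nat.card (C ⊓ A : Subgroup G) := fun hd =>
            hq.one_lt.ne' (Nat.eq_one_of_dvd_coprimes hcop hqK hd)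
          have hqB : q ∣ Nat.card B := by
            have h1 : q ∣ Nat.card A * Nat.card B := by
              rw [h.card_mul]; exact hqK.trans (Subgroup.card_subgroup_dvd_card K)
            rcases hq.dvd_mul.mp h1 with hqA | hqB
            · exfalso
              apply hqH
              by_cases hqp : q = p
              · rw [hqp]; exact hpH
              · exact hdvd_sy q hq hqp hqA
            · exact hqB
          have hcop' : (Nat.card (sy r A)).Coprime (Nat.card K) :=
            Nat.Coprime.coprime_dvd_left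
              (Subgroup.card_dvd_of_le (le_inf hSrC (sy_le r A))) hcop.symm
          have hsolv : Group.IsSolvable (sy r A) := by
            have : Group.IsNilpotent (sy r A) := (isPGroup_sy r A).isNilpotent
            infer_instance
          obtain ⟨P, hP⟩ := H1.coprime_exists_invariant_sylow (sy r A) K (hSrC.trans hCK) hcop'
            (Or.inl hsolv) q
          have hWne : (P : Subgroup K).map K.subtype ≠ ⊥ := by
            intro h0
            have h1 := H1.sylow_map_card q K P
            rw [h0, Subgroup.card_bot] at h1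
            have h2 : 0 < (Nat.card K).factorization q :=
              hq.factorization_pos_of_dvd Nat.card_pos.ne' hqK
            have h3 : 1 < q ^ (Nat.card K).factorization q := Nat.one_lt_pow h2.ne' hq.one_lt
            omega
          exact h.false_of_normalizes hr hq hrA hqB (P.isPGroup'.map _) hWne hP
        rw [hK, Subgroup.card_bot, one_mul] at hcard
        have h1 : C ⊓ A = C := Subgroup.eq_of_le_of_card_ge inf_le_left hcard.ge
        exact (inf_eq_left.mp h1).trans Subgroup.le_normalizer
    · obtain ⟨d, hd, hdA⟩ := SetLike.not_le_iff_exists.mp hcase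
      obtain ⟨q, hq, hqi, y, hyz, hyo⟩ := exists_prime_orderOf_of_not_mem hd.2 hdA
      rw [h.index_eq] at hqi
      have : Fact q.Prime := ⟨hq⟩
      have hyCN : y ∈ C ⊓ Subgroup.normalizer (A : Set G) := (Subgroup.zpowers_le.mpr hd) hyz
      have hyp : IsPGroup q (Subgroup.zpowers y) :=
        IsPGroup.of_card (n := 1) (by rw [Nat.card_zpowers, hyo, pow_one])
      obtain ⟨g, hg⟩ := H13.exists_conj_le_of_card q (sy q B) (Subgroup.zpowers y)
        (h.symm.sy_card hqi) hyp
      have hyB' : y ∈ MulAut.conj g⁻¹ • B := by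
        rw [mem_conj_smul_iff, inv_inv]
        exact sy_le q B (hg (conj_mem_conj_smul (Subgroup.mem_zpowers y)))
      have h' : KW A (MulAut.conj g⁻¹ • B) := h.conj_right g⁻¹
      have h1 := h'.symm.centralizer_le_of_normalizes hq hyB' hyo hyCN.2
      have hxy : x ∈ Subgroup.centralizer ({y} : Set G) := by
        rw [Subgroup.mem_centralizer_iff]
        intro w hw
        rw [Set.mem_singleton_iff] at hw
        rw [hw]
        have h2 : y ∈ C := hyCN.1
        rw [hC, Subgroup.mem_centralizer_iff] at h2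
        exact (h2 x rfl).symm
      exact h'.centralizer_le_of_normalizes hp hxA hxo (h1 hxy)

theorem centralizer_le_normalizer [Finite G] (h : KW A B) {x : G} {p : ℕ} (hp : p.Prime)
    (hxA : x ∈ A) (hxo : orderOf x = p) :
    Subgroup.centralizer ({x} : Set G) ≤ Subgroup.normalizer (A : Set G) :=
  h.ti_aux hp _ x hxA hxo rfl

theorem card_le [Finite G] (h : KW A B) : Nat.card A ≤ Nat.card B := by
  have hN : ∃ g, g ∉ Subgroup.normalizer (A : Set G) := by
    by_contra hall
    push Not at hall
    have h1 : A.Normal := Subgroup.normalizer_eq_top_iff.mp ((Subgroup.eq_top_iff' _).mpr hall)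
    rcases h.simple A h1 with h2 | h2
    · exact h.A_ne_bot h2
    · exact h.A_ne_top h2
  obtain ⟨g, hg⟩ := hN
  have hdisj : A ⊓ MulAut.conj g • A = ⊥ := by
    by_contra hne
    obtain ⟨p, hp, x, hx, hxo⟩ := exists_prime_orderOf_mem hne
    exact hg (h.mem_normalizer_of_mem_conj hp hx.1 hxo
      (h.centralizer_le_normalizer hp hx.1 hxo) hx.2)
  have hinj := Subgroup.mul_injective_of_disjoint (disjoint_iff.mpr hdisj)
  have hle := Nat.card_le_card_of_injective _ hinj
  rw [Nat.card_prod, card_conj_smul, ← h.card_mul] at hle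
  exact Nat.le_of_mul_le_mul_left hle Nat.card_pos

theorem false [Finite G] (h : KW A B) : False := by
  have heq : Nat.card A = Nat.card B := le_antisymm h.card_le h.symm.card_le
  have hc := h.cop
  rw [heq, Nat.coprime_self] at hc
  exact h.B_ne_bot (Subgroup.card_eq_one.mp hc)

end KW

end Cfsg.Agent.H12
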