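import Mathlib
import Cfsg.Agent.H12.KW2

/-!
# Kegel–Wielandt, coprime case: the theorem (helper12)
-/

set_option autoImplicit false
open Pointwise

namespace Cfsg.Agent.H12

universe u

theorem kw_sub_aux {n : ℕ}
    (IH : ∀ m < n, ∀ (G : Type u) [Group G] [Finite G] (A B : Subgroup G), Nat.card G = m →
      Group.IsNilpotent A → Group.IsNilpotent B → (Nat.card A).Coprime (Nat.card B) →
      (∀ g : G, ∃ a ∈ A, ∃ b ∈ B, g = a * b) → Group.IsSolvable G)
    {G : Type u} [Group G] [Finite G] (hn : Nat.card G = n) (L : Subgroup G) (hL : L ≠ ⊤)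
    (X Y : Subgroup G) (hX : X ≤ L) (hY : Y ≤ L) (nX : Group.IsNilpotent X)
    (nY : Group.IsNilpotent Y) (hc : (Nat.card X).Coprime (Nat.card Y))
    (hf : ∀ l ∈ L, ∃ x ∈ X, ∃ y ∈ Y, l = x * y) : Group.IsSolvable L := by
  have hlt : Nat.card L < n := by
    rw [← hn, ← Subgroup.card_top (G := G)]
    exact H1.card_lt_card_of_lt (lt_top_iff_ne_top.mpr hL)
  refine IH (Nat.card L) hlt L (X.subgroupOf L) (Y.subgroupOf L) rfl (isNilpotent_subgroupOf' nX)
    (isNilpotent_subgroupOf' nY)
    (by rw [H1.card_subgroupOf_of_le hX, H1.card_subgroupOf_of_le hY]; exact hc) ?_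
  rintro ⟨l, hl⟩
  obtain ⟨x, hx, y, hy, e⟩ := hf l hl
  exact ⟨⟨x, hX hx⟩, Subgroup.mem_subgroupOf.mpr hx, ⟨y, hY hy⟩, Subgroup.mem_subgroupOf.mpr hy,
    Subtype.ext e⟩

theorem kw_coprime_aux : ∀ n : ℕ, ∀ (G : Type u) [Group G] [Finite G] (A B : Subgroup G),
    Nat.card G = n → Group.IsNilpotent A → Group.IsNilpotent B →
    (Nat.card A).Coprime (Nat.card B) →
    (∀ g : G, ∃ a ∈ A, ∃ b ∈ B, g = a * b) → Group.IsSolvable G := by
  intro n
  induction n using Nat.strong_induction_on with
  | _ n IH =>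
    intro G _ _ A B hn hA hB hcop hAB
    by_contra hns
    apply KW.false (A := A) (B := B)
    refine ⟨hA, hB, hcop, hAB, ?_, hns, ?_⟩
    · intro N hN
      by_contra hne
      push Not at hne
      obtain ⟨hNbot, hNtop⟩ := hne
      apply hns
      have hQ : Group.IsSolvable (G ⧸ N) := by
        refine IH (Nat.card (G ⧸ N)) (by rw [← hn]; exact card_quotient_lt_of_ne_bot N hNbot)
          (G ⧸ N) (A.map (QuotientGroup.mk' N)) (B.map (QuotientGroup.mk' N)) rfl
          (isNilpotent_map' _ hA) (isNilpotent_map' _ hB) ?_ ?_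
        · exact Nat.Coprime.coprime_dvd_left (Subgroup.card_map_dvd _ _)
            (Nat.Coprime.coprime_dvd_right (Subgroup.card_map_dvd _ _) hcop)
        · intro g
          obtain ⟨g, rfl⟩ := QuotientGroup.mk'_surjective N g
          obtain ⟨a, ha, b, hb, rfl⟩ := hAB g
          exact ⟨_, Subgroup.mem_map_of_mem _ ha, _, Subgroup.mem_map_of_mem _ hb, map_mul _ _ _⟩
      have hNs : Group.IsSolvable N := by
        have hfactN : ∀ x ∈ N, ∃ a ∈ N ⊓ A, ∃ b ∈ N ⊓ B, x = a * b := by
          intro x hx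
          obtain ⟨a, ha, b, hb, rfl⟩ := hAB x
          have haN : a ∈ N := by
            have h1 : (QuotientGroup.mk' N a) * (QuotientGroup.mk' N b) = 1 := by
              rw [← map_mul]; exact (QuotientGroup.eq_one_iff _).mpr hx
            have h2 : orderOf (QuotientGroup.mk' N a) ∣ Nat.card A :=
              (orderOf_map_dvd _ a).trans (H13.orderOf_dvd_card_of_mem ha)
            have h3 : orderOf (QuotientGroup.mk' N a) ∣ Nat.card B := by
              have h4 : QuotientGroup.mk' N a = (QuotientGroup.mk' N b)⁻¹ :=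
                eq_inv_of_mul_eq_one_left h1
              rw [h4, orderOf_inv]
              exact (orderOf_map_dvd _ b).trans (H13.orderOf_dvd_card_of_mem hb)
            have h4 : orderOf (QuotientGroup.mk' N a) = 1 := Nat.eq_one_of_dvd_coprimes hcop h2 h3
            rw [orderOf_eq_one_iff] at h4
            exact (QuotientGroup.eq_one_iff _).mp h4
          have hbN : b ∈ N := by
            have h1 := N.mul_mem (N.inv_mem haN) hx
            rwa [inv_mul_cancel_left] at h1
          exact ⟨a, ⟨haN, ha⟩, b, ⟨hbN, hb⟩, rfl⟩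
        exact kw_sub_aux IH hn N hNtop (N ⊓ A) (N ⊓ B) inf_le_left inf_le_left
          (isNilpotent_of_le' inf_le_right hA) (isNilpotent_of_le' inf_le_right hB)
          (Nat.Coprime.coprime_dvd_left (Subgroup.card_dvd_of_le inf_le_right)
            (Nat.Coprime.coprime_dvd_right (Subgroup.card_dvd_of_le inf_le_right) hcop)) hfactN
      exact Group.isSolvable_of_ker_le_range N.subtype (QuotientGroup.mk' N) (by simp)
    · intro L X Y hL hX hY nX nY hc hf
      exact kw_sub_aux IH hn L hL X Y hX hY nX nY hc hf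

/-- **Wielandt**: a finite group that is the product of two nilpotent subgroups of coprime
orders is solvable. -/
theorem kw_coprime_solvable {G : Type u} [Group G] [Finite G] (A B : Subgroup G)
    (hA : Group.IsNilpotent A) (hB : Group.IsNilpotent B)
    (hcop : (Nat.card A).Coprime (Nat.card B)) (hAB : ∀ g : G, ∃ a ∈ A, ∃ b ∈ B, g = a * b) :
    Group.IsSolvable G :=
  kw_coprime_aux _ G A B rfl hA hB hcop hAB

end Cfsg.Agent.H12
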