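import Mathlib
import Cfsg.Agent.H12.KW3
import Cfsg.Agent.S0560

/-!
# Kegel–Wielandt: the general theorem (helper12)
-/

set_option autoImplicit false
open Pointwise

namespace Cfsg.Agent.H12

universe u

variable {G : Type u} [Group G]

/-- A group factorized by two `p`-subgroups is a `p`-group. -/
theorem isPGroup_of_fact [Finite G] {p : ℕ} [Fact p.Prime] (H K : Subgroup G)
    (hH : IsPGroup p H) (hK : IsPGroup p K) (hf : ∀ g : G, ∃ h ∈ H, ∃ k ∈ K, g = h * k) :
    IsPGroup p G := by
  obtain ⟨P, hP⟩ := hH.exists_le_sylow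
  obtain ⟨g, hg⟩ := H13.exists_conj_le_of_card p (P : Subgroup G) K P.card_eq_multiplicity hK
  obtain ⟨h, hh, k, hk, rfl⟩ := hf g
  have h1 : MulAut.conj h • K ≤ P := by
    rwa [← conj_smul_conj_smul, Subgroup.conj_smul_eq_self_of_mem hk] at hg
  have hKle : K ≤ MulAut.conj h⁻¹ • (P : Subgroup G) := by
    have h2 : MulAut.conj h⁻¹ • MulAut.conj h • K ≤ MulAut.conj h⁻¹ • (P : Subgroup G) :=
      Subgroup.pointwise_smul_le_pointwise_smul_iff.mpr h1
    rwa [conj_inv_smul_conj_smul] at h2
  have hHle : H ≤ MulAut.conj h⁻¹ • (P : Subgroup G) := by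
    have h2 : MulAut.conj h⁻¹ • H ≤ MulAut.conj h⁻¹ • (P : Subgroup G) :=
      Subgroup.pointwise_smul_le_pointwise_smul_iff.mpr hP
    rwa [Subgroup.conj_smul_eq_self_of_mem (H.inv_mem hh)] at h2
  have htop : MulAut.conj h⁻¹ • (P : Subgroup G) = ⊤ := by
    rw [Subgroup.eq_top_iff']
    intro x
    obtain ⟨a, ha, b, hb, rfl⟩ := hf x
    exact Subgroup.mul_mem _ (hHle ha) (hKle hb)
  have hPG : IsPGroup p (MulAut.conj h⁻¹ • (P : Subgroup G) : Subgroup G) :=
    isPGroup_conj_smul P.isPGroup' _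
  rw [htop] at hPG
  exact hPG.of_equiv Subgroup.topEquiv

theorem isPGroup_sup_of_permL [Finite G] {p : ℕ} [Fact p.Prime] {H K : Subgroup G}
    (hp : PermL H K) (hH : IsPGroup p H) (hK : IsPGroup p K) :
    IsPGroup p (H ⊔ K : Subgroup G) := by
  apply isPGroup_of_fact (G := (H ⊔ K : Subgroup G)) (H.subgroupOf (H ⊔ K))
    (K.subgroupOf (H ⊔ K)) hH.comap_subtype hK.comap_subtype
  rintro ⟨g, hg⟩
  obtain ⟨h, hh, k, hk, rfl⟩ := hp.exists_mul_of_mem_sup hg
  exact ⟨⟨h, (le_sup_left : H ≤ H ⊔ K) hh⟩, Subgroup.mem_subgroupOf.mpr hh,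
    ⟨k, (le_sup_right : K ≤ H ⊔ K) hk⟩, Subgroup.mem_subgroupOf.mpr hk, rfl⟩

/-- Kegel's lemma, `p`-group version. -/
theorem kegel_pgroup [Finite G] {p : ℕ} [Fact p.Prime] (X Y : Subgroup G)
    (h : ∀ g : G, PermL X (MulAut.conj g • Y) ∧
      IsPGroup p (X ⊔ MulAut.conj g • Y : Subgroup G)) :
    ∃ X' : Subgroup G, X ≤ X' ∧ IsPGroup p X' ∧
      ∀ g : G, MulAut.conj g • Y ≤ Subgroup.normalizer (X' : Set G) := by
  classical
  let KP : Subgroup G → Prop := fun X' =>
    ∀ g : G, PermL X' (MulAut.conj g • Y) ∧ IsPGroup p (X' ⊔ MulAut.conj g • Y : Subgroup G)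
  have hKP : KP X := h
  obtain ⟨X', hXX', hmax⟩ :=
    Set.Finite.exists_le_maximal (Set.toFinite {X' : Subgroup G | KP X'}) hKP
  have hKP' : KP X' := hmax.prop
  refine ⟨X', hXX', (hKP' 1).2.to_le le_sup_left, ?_⟩
  intro x b hb
  set X'' : Subgroup G :=
    ⨆ c : (MulAut.conj x • Y : Subgroup G), MulAut.conj (c : G) • X' with hX''
  have hle : X' ≤ X'' := by
    have := le_iSup (fun c : (MulAut.conj x • Y : Subgroup G) => MulAut.conj (c : G) • X') 1
    simpa using this
  have hX''M : X'' ≤ X' ⊔ MulAut.conj x • Y := by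
    apply iSup_le
    intro c
    have hc : (c : G) ∈ X' ⊔ MulAut.conj x • Y := (le_sup_right : _ ≤ X' ⊔ MulAut.conj x • Y) c.2
    calc MulAut.conj (c : G) • X' ≤ MulAut.conj (c : G) • (X' ⊔ MulAut.conj x • Y) :=
          Subgroup.pointwise_smul_le_pointwise_smul_iff.mpr le_sup_left
      _ = X' ⊔ MulAut.conj x • Y := Subgroup.conj_smul_eq_self_of_mem hc
  have hKP'' : KP X'' := by
    intro y
    have hperm : PermL X'' (MulAut.conj y • Y) := by
      apply permL_iSup
      intro c
      have := ((hKP' ((c : G)⁻¹ * y)).1).conj (c : G)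
      rwa [conj_smul_conj_smul, mul_inv_cancel_left] at this
    exact ⟨hperm, isPGroup_sup_of_permL hperm ((hKP' x).2.to_le hX''M)
      ((hKP' y).2.to_le le_sup_right)⟩
  have hX''le : X'' ≤ X' := hmax.le_of_ge hKP'' hle
  have : MulAut.conj b • X' ≤ X' :=
    (le_iSup (fun c : (MulAut.conj x • Y : Subgroup G) => MulAut.conj (c : G) • X') ⟨b, hb⟩).trans
      hX''le
  exact conj_smul_eq_iff_mem_normalizer.mp (conj_smul_eq_of_ge this)

theorem sylow_map_eq_sy [Finite G] {p : ℕ} [Fact p.Prime] {A : Subgroup G}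
    (hA : Group.IsNilpotent A) (P : Sylow p A) : (P : Subgroup A).map A.subtype = sy p A := by
  apply Subgroup.eq_of_le_of_card_ge
  · exact le_sy p hA (Subgroup.map_subtype_le _) (P.isPGroup'.map _)
  · rw [card_sy, H1.sylow_map_card]

theorem kw_general_aux : ∀ n : ℕ, ∀ (G : Type u) [Group G] [Finite G] (A B : Subgroup G),
    Nat.card G = n → Group.IsNilpotent A → Group.IsNilpotent B →
    (∀ g : G, ∃ a ∈ A, ∃ b ∈ B, g = a * b) → Group.IsSolvable G := by
  intro n
  induction n using Nat.strong_induction_on with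
  | _ n IH =>
    intro G _ _ A B hn hA hB hAB
    have hquot : ∀ (N : Subgroup G) [N.Normal], N ≠ ⊥ → Group.IsSolvable (G ⧸ N) := by
      intro N hN hNbot
      refine IH (Nat.card (G ⧸ N)) (by rw [← hn]; exact card_quotient_lt_of_ne_bot N hNbot)
        (G ⧸ N) (A.map (QuotientGroup.mk' N)) (B.map (QuotientGroup.mk' N)) rfl
        (isNilpotent_map' _ hA) (isNilpotent_map' _ hB) ?_
      intro g
      obtain ⟨g, rfl⟩ := QuotientGroup.mk'_surjective N g
      obtain ⟨a, ha, b, hb, rfl⟩ := hAB g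
      exact ⟨_, Subgroup.mem_map_of_mem _ ha, _, Subgroup.mem_map_of_mem _ hb, map_mul _ _ _⟩
    have hprin : ∀ (N : Subgroup G) [N.Normal], N ≠ ⊥ → Group.IsSolvable N →
        Group.IsSolvable G := by
      intro N hN hNbot hNs
      have := hquot N hNbot
      exact Group.isSolvable_of_ker_le_range N.subtype (QuotientGroup.mk' N) (by simp)
    by_cases hcop : (Nat.card A).Coprime (Nat.card B)
    · exact kw_coprime_solvable A B hA hB hcop hAB
    obtain ⟨p, hp, hpA, hpB⟩ := Nat.Prime.not_coprime_iff_dvd.mp hcop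
    have : Fact p.Prime := ⟨hp⟩
    have hXY : PermL (sy p A) (sy p B) ∧ IsPGroup p (sy p A ⊔ sy p B : Subgroup G) := by
      obtain ⟨P, Q, R, hR⟩ := Cfsg.Agent.S0560.result A B hAB p
      rw [sylow_map_eq_sy hA P, sylow_map_eq_sy hB Q] at hR
      refine ⟨permL_of_coe_eq_mul hR, ?_⟩
      rw [← eq_sup_of_coe_eq_mul hR]
      exact R.isPGroup'
    have hall : ∀ g : G, PermL (sy p A) (MulAut.conj g • sy p B) ∧
        IsPGroup p (sy p A ⊔ MulAut.conj g • sy p B : Subgroup G) := by
      intro g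
      obtain ⟨a, ha, b, hb, rfl⟩ := hAB g
      have e1 : MulAut.conj a • sy p A = sy p A :=
        conj_smul_eq_of_mem_normalizer (le_normalizer_sy p hA ha)
      have e2 : MulAut.conj (a * b) • sy p B = MulAut.conj a • sy p B := by
        rw [← conj_smul_conj_smul, conj_smul_eq_of_mem_normalizer (le_normalizer_sy p hB hb)]
      rw [e2]
      constructor
      · have h1 := hXY.1.conj a
        rwa [e1] at h1
      · have h1 := isPGroup_conj_smul hXY.2 a
        rwa [Subgroup.smul_sup, e1] at h1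
    obtain ⟨X', hXX', hX'p, hX'n⟩ := kegel_pgroup (sy p A) (sy p B) hall
    have hYhn : (Subgroup.normalClosure ((sy p B : Subgroup G) : Set G)).Normal :=
      Subgroup.normalClosure_normal
    have hYhne : Subgroup.normalClosure ((sy p B : Subgroup G) : Set G) ≠ ⊥ :=
      ne_bot_of_le_ne_bot (sy_ne_bot hp hpB) Subgroup.le_normalClosure
    have hYhX' : Subgroup.normalClosure ((sy p B : Subgroup G) : Set G) ≤
        Subgroup.normalizer (X' : Set G) := by
      rw [Subgroup.normalClosure, Subgroup.closure_le]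
      intro c hc
      obtain ⟨b, hb, hconj⟩ := Group.mem_conjugatesOfSet_iff.mp hc
      obtain ⟨g, rfl⟩ := isConj_iff.mp hconj
      exact hX'n g ⟨b, hb, rfl⟩
    set Yh := Subgroup.normalClosure ((sy p B : Subgroup G) : Set G) with hYh
    by_cases hD : X' ⊓ Yh = ⊥
    · have hcent : X' ≤ Subgroup.centralizer (Yh : Set G) := by
        intro x hx
        rw [Subgroup.mem_centralizer_iff]
        intro y hy
        have h1 : y * x * y⁻¹ * x⁻¹ ∈ X' ⊓ Yh := by
          refine ⟨X'.mul_mem (((Subgroup.mem_normalizer_iff.mp (hYhX' hy)) x).mp hx)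
            (X'.inv_mem hx), ?_⟩
          have h2 : x * y⁻¹ * x⁻¹ ∈ Yh := hYhn.conj_mem _ (Yh.inv_mem hy) x
          have h3 := Yh.mul_mem hy h2
          have h4 : y * (x * y⁻¹ * x⁻¹) = y * x * y⁻¹ * x⁻¹ := by group
          rwa [h4] at h3
        rw [hD, Subgroup.mem_bot] at h1
        calc y * x = (y * x * y⁻¹ * x⁻¹) * (x * y) := by group
          _ = x * y := by rw [h1, one_mul]
      have hCn : (Subgroup.centralizer (Yh : Set G)).Normal := Subgroup.normal_centralizer
      have hCne : Subgroup.centralizer (Yh : Set G) ≠ ⊥ :=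
        ne_bot_of_le_ne_bot (sy_ne_bot hp hpA) (hXX'.trans hcent)
      by_cases hZ : Subgroup.centralizer (Yh : Set G) ⊓ Yh = ⊥
      · have hQs := hquot Yh hYhne
        have hCs : Group.IsSolvable (Subgroup.centralizer (Yh : Set G)) := by
          apply Group.isSolvable_of_isSolvable_injective
            (f := (QuotientGroup.mk' Yh).comp (Subgroup.centralizer (Yh : Set G)).subtype)
          rw [injective_iff_map_eq_one]
          intro c hc
          have h1 : (c : G) ∈ Yh := (QuotientGroup.eq_one_iff _).mp hc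
          have h2 : (c : G) ∈ Subgroup.centralizer (Yh : Set G) ⊓ Yh := ⟨c.2, h1⟩
          rw [hZ, Subgroup.mem_bot] at h2
          exact Subtype.ext h2
        exact hprin _ hCne hCs
      · have hZn : (Subgroup.centralizer (Yh : Set G) ⊓ Yh).Normal := inferInstance
        have hZs : Group.IsSolvable (Subgroup.centralizer (Yh : Set G) ⊓ Yh : Subgroup G) := by
          apply Group.isSolvable_of_comm
          rintro ⟨a, ha⟩ ⟨b, hb⟩
          apply Subtype.ext
          have h1 := (Subgroup.mem_centralizer_iff.mp ha.1) b hb.2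
          exact h1.symm
        exact hprin _ hZ hZs
    · have hDn : Yh ≤ Subgroup.normalizer ((X' ⊓ Yh : Subgroup G) : Set G) :=
        H1.le_normalizer_inf Yh X' Yh hYhX' Subgroup.le_normalizer
      have hle : Subgroup.normalClosure ((X' ⊓ Yh : Subgroup G) : Set G) ≤ sy p Yh := by
        rw [Subgroup.normalClosure, Subgroup.closure_le]
        intro c hc
        obtain ⟨d, hd, hconj⟩ := Group.mem_conjugatesOfSet_iff.mp hc
        obtain ⟨g, rfl⟩ := isConj_iff.mp hconj
        have hgY : MulAut.conj g • Yh = Yh := Subgroup.Normal.conj_smul_eq_self g Yh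
        have hU : MulAut.conj g • (X' ⊓ Yh) ≤ Yh := by
          calc MulAut.conj g • (X' ⊓ Yh) ≤ MulAut.conj g • Yh :=
                Subgroup.pointwise_smul_le_pointwise_smul_iff.mpr inf_le_right
            _ = Yh := hgY
        have hn' : Yh ≤ Subgroup.normalizer ((MulAut.conj g • (X' ⊓ Yh) : Subgroup G) : Set G) := by
          have h1 := H1.conj_smul_le_normalizer g Yh (X' ⊓ Yh) hDn
          rwa [hgY] at h1
        have h1 : MulAut.conj g • (X' ⊓ Yh) ≤ sy p Yh :=
          H1.normal_pgroup_le_sylow_map p Yh (MulAut.conj g • (X' ⊓ Yh)) hU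
            (isPGroup_conj_smul (hX'p.to_le inf_le_left) g) hn' (default : Sylow p Yh)
        exact h1 ⟨d, hd, rfl⟩
      have hNp : IsPGroup p (Subgroup.normalClosure ((X' ⊓ Yh : Subgroup G) : Set G)) :=
        (isPGroup_sy p Yh).to_le hle
      have hNs : Group.IsSolvable (Subgroup.normalClosure ((X' ⊓ Yh : Subgroup G) : Set G)) :=
        @IsNilpotent.to_isSolvable _ _ hNp.isNilpotent
      exact hprin _ (ne_bot_of_le_ne_bot hD Subgroup.le_normalClosure) hNs

/-- **Kegel–Wielandt**: a finite group that is the product of two nilpotent subgroups is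
solvable. -/
theorem kw_solvable {G : Type u} [Group G] [Finite G] (A B : Subgroup G)
    (hA : Group.IsNilpotent A) (hB : Group.IsNilpotent B)
    (hAB : ∀ g : G, ∃ a ∈ A, ∃ b ∈ B, g = a * b) : Group.IsSolvable G :=
  kw_general_aux _ G A B rfl hA hB hAB

end Cfsg.Agent.H12
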