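import Mathlib
import Cfsg.Agent.H12.KW4
import Cfsg.Agent.S0572

/-!
# Products of an abelian subgroup and a subgroup of class at most two (helper12)

If `G = AB` with `A` abelian and `B` of class `≤ 2`, then the derived length of `G` is at most
`2 (1 + Ω(|B'|))`.
-/

set_option autoImplicit false
open Pointwise

namespace Cfsg.Agent.H12

universe u

variable {G : Type u} [Group G]

/-- `B` has nilpotency class at most two (stated inside `G`). -/
def Class2 (B : Subgroup G) : Prop := ∀ z ∈ ⁅B, B⁆, ∀ b ∈ B, b * z = z * b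

theorem Class2.mono {B B₁ : Subgroup G} (h : Class2 B) (hle : B₁ ≤ B) : Class2 B₁ :=
  fun z hz b hb => h z (Subgroup.commutator_mono hle hle hz) b (hle hb)

theorem Class2.map {G' : Type*} [Group G'] (f : G →* G') {B : Subgroup G} (h : Class2 B) :
    Class2 (B.map f) := by
  intro z hz b hb
  rw [← Subgroup.map_commutator] at hz
  obtain ⟨z₀, hz₀, rfl⟩ := hz
  obtain ⟨b₀, hb₀, rfl⟩ := hb
  rw [← map_mul, ← map_mul, h z₀ hz₀ b₀ hb₀]

theorem Class2.subgroupOf {B H : Subgroup G} (h : Class2 B) : Class2 (B.subgroupOf H) := by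
  intro z hz b hb
  apply Subtype.ext
  have hz' : (z : G) ∈ ⁅B, B⁆ := by
    have h1 := Subgroup.mem_map_of_mem H.subtype hz
    rw [Subgroup.map_commutator, Subgroup.subgroupOf_map_subtype] at h1
    exact Subgroup.commutator_mono inf_le_left inf_le_left h1
  exact h z hz' b (Subgroup.mem_subgroupOf.mp hb)

theorem Class2.isNilpotent {B : Subgroup G} (h : Class2 B) : Group.IsNilpotent B := by
  apply Subgroup.isNilpotent_of_lowerCentralSeries_eq_bot (n := 2)
  rw [Subgroup.lowerCentralSeries_succ, Subgroup.lowerCentralSeries_succ,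
    Subgroup.lowerCentralSeries_zero, Subgroup.commutator_eq_bot_iff_le_centralizer]
  intro z hz
  rw [Subgroup.mem_centralizer_iff]
  intro b hb
  exact h z hz b hb

theorem class2_of_commutator_le_center {B : Subgroup G}
    (hB : commutator ↥B ≤ Subgroup.center ↥B) : Class2 B := by
  intro z hz b hb
  rw [← Subgroup.map_subtype_commutator] at hz
  obtain ⟨z', hz', rfl⟩ := hz
  have h1 := Subgroup.mem_center_iff.mp (hB hz') ⟨b, hb⟩
  exact congrArg Subtype.val h1

/-- In a finite solvable group, if an abelian subgroup `A` and the derived subgroup of a class-2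
subgroup `B` generate `G`, then `B` is abelian. -/
theorem class2_comm_aux : ∀ n : ℕ, ∀ (G : Type u) [Group G] [Finite G] [Group.IsSolvable G]
    (A B : Subgroup G), Nat.card G = n → (∀ x ∈ A, ∀ y ∈ A, x * y = y * x) → Class2 B →
    A ⊔ ⁅B, B⁆ = ⊤ → ⁅B, B⁆ = ⊥ := by
  intro n
  induction n using Nat.strong_induction_on with
  | _ n IH =>
    intro G _ _ _ A B hn hA hB htop
    by_contra hZ
    have hnt : Nontrivial G := by
      by_contra h
      rw [not_nontrivial_iff_subsingleton] at h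
      exact hZ (Subsingleton.elim _ _)
    have hstep : ∀ (N : Subgroup G) [N.Normal], N ≠ ⊥ → ⁅B, B⁆ ≤ N := by
      intro N _ hNbot
      have hlt : Nat.card (G ⧸ N) < n := by rw [← hn]; exact card_quotient_lt_of_ne_bot N hNbot
      have h1 := IH _ hlt (G ⧸ N) (A.map (QuotientGroup.mk' N)) (B.map (QuotientGroup.mk' N)) rfl
        (by
          rintro _ ⟨x, hx, rfl⟩ _ ⟨y, hy, rfl⟩
          rw [← map_mul, ← map_mul, hA x hx y hy])
        (hB.map _)
        (by
          rw [← Subgroup.map_commutator, ← Subgroup.map_sup, htop, ← MonoidHom.range_eq_map]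
          exact MonoidHom.range_eq_top.mpr (QuotientGroup.mk'_surjective N))
      rw [← Subgroup.map_commutator, Subgroup.map_eq_bot_iff, QuotientGroup.ker_mk'] at h1
      exact h1
    obtain ⟨N, hNn, hNbot, hmin⟩ := H1.exists_minimal_normal (G := G)
    have := hNn
    obtain ⟨hNc, -⟩ := H1.minimal_normal_elementary_abelian N hNbot hmin
    have hZN : ⁅B, B⁆ ≤ N := hstep N hNbot
    have hMN : Subgroup.normalClosure ((⁅B, B⁆ : Subgroup G) : Set G) ≤ N :=
      Subgroup.normalClosure_le_normal hZN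
    have hMn : (Subgroup.normalClosure ((⁅B, B⁆ : Subgroup G) : Set G)).Normal :=
      Subgroup.normalClosure_normal
    have hZM : ⁅B, B⁆ ≤ Subgroup.normalClosure ((⁅B, B⁆ : Subgroup G) : Set G) :=
      Subgroup.le_normalClosure
    set M := Subgroup.normalClosure ((⁅B, B⁆ : Subgroup G) : Set G) with hM
    have hMc : ∀ x ∈ M, ∀ y ∈ M, x * y = y * x := fun x hx y hy =>
      setLike_mul_comm (hMN hx) (hMN hy)
    have hAM : A ⊔ M = ⊤ := top_le_iff.mp (htop ▸ sup_le_sup_left hZM A)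
    have hfac : ∀ g : G, ∃ a ∈ A, ∃ m ∈ M, a * m = g := by
      intro g
      have h1 : g ∈ A ⊔ M := hAM ▸ Subgroup.mem_top g
      exact Subgroup.mem_sup_of_normal_right.mp h1
    have hCn : (M ⊓ Subgroup.centralizer ((A ⊓ (B ⊔ M) : Subgroup G) : Set G)).Normal := by
      constructor
      intro c hc g
      obtain ⟨a, ha, m, hm, rfl⟩ := hfac g
      obtain ⟨hcM, hcC⟩ := Subgroup.mem_inf.mp hc
      have e : a * m * c * (a * m)⁻¹ = a * c * a⁻¹ := by
        have h1 := hMc m hm c hcM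
        calc a * m * c * (a * m)⁻¹ = a * (m * c) * m⁻¹ * a⁻¹ := by group
          _ = a * (c * m) * m⁻¹ * a⁻¹ := by rw [h1]
          _ = a * c * a⁻¹ := by group
      rw [e]
      refine Subgroup.mem_inf.mpr ⟨hMn.conj_mem c hcM a, ?_⟩
      rw [Subgroup.mem_centralizer_iff] at hcC ⊢
      intro x hx
      have h1 := hcC x hx
      have h2 := hA x hx.1 a ha
      have h3 := hA x hx.1 a⁻¹ (A.inv_mem ha)
      calc x * (a * c * a⁻¹) = (x * a) * c * a⁻¹ := by group
        _ = (a * x) * c * a⁻¹ := by rw [h2]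
        _ = a * (x * c) * a⁻¹ := by group
        _ = a * (c * x) * a⁻¹ := by rw [h1]
        _ = a * c * (x * a⁻¹) := by group
        _ = a * c * (a⁻¹ * x) := by rw [h3]
        _ = a * c * a⁻¹ * x := by group
    have hZC : ⁅B, B⁆ ≤ M ⊓ Subgroup.centralizer ((A ⊓ (B ⊔ M) : Subgroup G) : Set G) := by
      refine le_inf hZM ?_
      intro z hz
      rw [Subgroup.mem_centralizer_iff]
      intro x hx
      obtain ⟨b, hb, m, hm, rfl⟩ := Subgroup.mem_sup_of_normal_right.mp hx.2
      have h1 := hB z hz b hb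
      have h2 := hMc m hm z (hZM hz)
      calc b * m * z = b * (m * z) := by group
        _ = b * (z * m) := by rw [h2]
        _ = (b * z) * m := by group
        _ = z * b * m := by rw [h1]
        _ = z * (b * m) := by group
    have hMC : M ≤ M ⊓ Subgroup.centralizer ((A ⊓ (B ⊔ M) : Subgroup G) : Set G) := by
      have := hCn
      exact Subgroup.normalClosure_le_normal hZC
    apply hZ
    rw [Subgroup.commutator_eq_bot_iff_le_centralizer]
    intro b₁ hb₁
    rw [Subgroup.mem_centralizer_iff]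
    intro b₂ hb₂
    obtain ⟨a₁, ha₁, m₁, hm₁, e₁⟩ := hfac b₁
    obtain ⟨a₂, ha₂, m₂, hm₂, e₂⟩ := hfac b₂
    have ha₁' : a₁ ∈ A ⊓ (B ⊔ M) := by
      refine ⟨ha₁, ?_⟩
      have h1 : a₁ = b₁ * m₁⁻¹ := by rw [← e₁]; group
      rw [h1]
      exact Subgroup.mul_mem _ ((le_sup_left : B ≤ B ⊔ M) hb₁)
        ((le_sup_right : M ≤ B ⊔ M) (M.inv_mem hm₁))
    have ha₂' : a₂ ∈ A ⊓ (B ⊔ M) := by
      refine ⟨ha₂, ?_⟩
      have h1 : a₂ = b₂ * m₂⁻¹ := by rw [← e₂]; group
      rw [h1]
      exact Subgroup.mul_mem _ ((le_sup_left : B ≤ B ⊔ M) hb₂)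
        ((le_sup_right : M ≤ B ⊔ M) (M.inv_mem hm₂))
    have c12 : a₁ * m₂ = m₂ * a₁ :=
      (Subgroup.mem_centralizer_iff.mp (Subgroup.mem_inf.mp (hMC hm₂)).2) a₁ ha₁'
    have c21 : a₂ * m₁ = m₁ * a₂ :=
      (Subgroup.mem_centralizer_iff.mp (Subgroup.mem_inf.mp (hMC hm₁)).2) a₂ ha₂'
    have caa : a₁ * a₂ = a₂ * a₁ := hA a₁ ha₁ a₂ ha₂
    have cmm : m₁ * m₂ = m₂ * m₁ := hMc m₁ hm₁ m₂ hm₂
    rw [← e₁, ← e₂]
    calc a₂ * m₂ * (a₁ * m₁) = a₂ * (m₂ * a₁) * m₁ := by group
      _ = a₂ * (a₁ * m₂) * m₁ := by rw [c12]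
      _ = (a₂ * a₁) * (m₂ * m₁) := by group
      _ = (a₁ * a₂) * (m₁ * m₂) := by rw [caa, cmm]
      _ = a₁ * (a₂ * m₁) * m₂ := by group
      _ = a₁ * (m₁ * a₂) * m₂ := by rw [c21]
      _ = a₁ * m₁ * (a₂ * m₂) := by group

theorem commutator_inf_lt [Finite G] [Group.IsSolvable G] (A B : Subgroup G)
    (hA : ∀ x ∈ A, ∀ y ∈ A, x * y = y * x) (hB : Class2 B) (hZ : ⁅B, B⁆ ≠ ⊥) :
    ⁅B ⊓ (A ⊔ ⁅B, B⁆), B ⊓ (A ⊔ ⁅B, B⁆)⁆ < ⁅B, B⁆ := by
  refine lt_of_le_of_ne (Subgroup.commutator_mono inf_le_left inf_le_left) (fun heq => hZ ?_)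
  have h1 := class2_comm_aux _ (A ⊔ ⁅B, B⁆ : Subgroup G) (A.subgroupOf (A ⊔ ⁅B, B⁆))
    ((B ⊓ (A ⊔ ⁅B, B⁆)).subgroupOf (A ⊔ ⁅B, B⁆)) rfl
    (by
      intro x hx y hy
      exact Subtype.ext (hA x (Subgroup.mem_subgroupOf.mp hx) y (Subgroup.mem_subgroupOf.mp hy)))
    ((hB.mono inf_le_left).subgroupOf)
    (by
      apply Subgroup.map_injective (Subgroup.subtype_injective (A ⊔ ⁅B, B⁆))
      rw [Subgroup.map_sup, Subgroup.map_commutator,
        Subgroup.map_subgroupOf_eq_of_le le_sup_left,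
        Subgroup.map_subgroupOf_eq_of_le inf_le_right, heq, ← MonoidHom.range_eq_map,
        Subgroup.range_subtype])
  have h2 := congrArg (Subgroup.map (A ⊔ ⁅B, B⁆ : Subgroup G).subtype) h1
  rw [Subgroup.map_commutator, Subgroup.map_subgroupOf_eq_of_le inf_le_right, Subgroup.map_bot,
    heq] at h2
  exact h2

theorem primeFactors_length_lt_of_lt [Finite G] {K Z : Subgroup G} (h : K < Z) :
    (Nat.card K).primeFactorsList.length < (Nat.card Z).primeFactorsList.length := by
  obtain ⟨e, he⟩ := Subgroup.card_dvd_of_le h.le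
  have hlt := H1.card_lt_card_of_lt h
  have hK : 0 < Nat.card K := Nat.card_pos
  have he1 : e ≠ 1 := by
    rintro rfl
    rw [mul_one] at he
    omega
  have he0 : e ≠ 0 := by
    rintro rfl
    rw [mul_zero] at he
    omega
  rw [he, (Nat.perm_primeFactorsList_mul hK.ne' he0).length_eq, List.length_append]
  have h1 : e.primeFactorsList ≠ [] := fun h0 => by
    rcases (Nat.primeFactorsList_eq_nil e).mp h0 with h1 | h1
    · exact he0 h1
    · exact he1 h1
  have h2 := List.length_pos_of_ne_nil h1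
  omega

theorem derivedSeries_add_le_map {H : Subgroup G} {m : ℕ} (h : derivedSeries G m ≤ H) (k : ℕ) :
    derivedSeries G (m + k) ≤ (derivedSeries H k).map H.subtype := by
  induction k with
  | zero =>
    rw [add_zero, derivedSeries_zero, ← MonoidHom.range_eq_map, Subgroup.range_subtype]
    exact h
  | succ k ih =>
    rw [← add_assoc, derivedSeries_succ, derivedSeries_succ, Subgroup.map_commutator]
    exact Subgroup.commutator_mono ih ih

theorem ito_class2_aux : ∀ n : ℕ, ∀ (G : Type u) [Group G] [Finite G] (A B : Subgroup G),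
    (Nat.card (⁅B, B⁆ : Subgroup G)).primeFactorsList.length = n →
    (∀ x ∈ A, ∀ y ∈ A, x * y = y * x) → Class2 B →
    (∀ g : G, ∃ a ∈ A, ∃ b ∈ B, g = a * b) → derivedSeries G (2 * (1 + n)) = ⊥ := by
  intro n
  induction n using Nat.strong_induction_on with
  | _ n IH =>
    intro G _ _ A B hn hA hB hAB
    have hAc : IsMulCommutative A := ⟨⟨fun x y => Subtype.ext (hA x x.2 y y.2)⟩⟩
    by_cases hZ : ⁅B, B⁆ = ⊥
    · have hBc : IsMulCommutative B := ⟨⟨fun x y => Subtype.ext (by
        have h1 := (Subgroup.commutator_eq_bot_iff_le_centralizer.mp hZ) x.2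
        rw [Subgroup.mem_centralizer_iff] at h1
        exact (h1 y y.2).symm)⟩⟩
      have h2 := Cfsg.Agent.S0572.result A B hAB
      exact le_bot_iff.mp (h2 ▸ derivedSeries_antitone G (by omega : 2 ≤ 2 * (1 + n)))
    · have hAnil : Group.IsNilpotent A :=
        Subgroup.isNilpotent_of_lowerCentralSeries_eq_bot (n := 1) (by
          rw [Subgroup.lowerCentralSeries_succ, Subgroup.lowerCentralSeries_zero,
            Subgroup.commutator_eq_bot_iff_le_centralizer]
          intro x hx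
          rw [Subgroup.mem_centralizer_iff]
          intro y hy
          exact hA y hy x hx)
      have hsolv : Group.IsSolvable G := kw_solvable A B hAnil hB.isNilpotent hAB
      have hMn : (Subgroup.normalClosure ((⁅B, B⁆ : Subgroup G) : Set G)).Normal :=
        Subgroup.normalClosure_normal
      have hZM : ⁅B, B⁆ ≤ Subgroup.normalClosure ((⁅B, B⁆ : Subgroup G) : Set G) :=
        Subgroup.le_normalClosure
      have hMH : Subgroup.normalClosure ((⁅B, B⁆ : Subgroup G) : Set G) ≤ A ⊔ ⁅B, B⁆ := by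
        rw [Subgroup.normalClosure, Subgroup.closure_le]
        intro c hc
        obtain ⟨z, hz, hconj⟩ := Group.mem_conjugatesOfSet_iff.mp hc
        obtain ⟨g, rfl⟩ := isConj_iff.mp hconj
        obtain ⟨a, ha, b, hb, rfl⟩ := hAB g
        have h1 := hB z hz b hb
        have e : a * b * z * (a * b)⁻¹ = a * z * a⁻¹ := by
          calc a * b * z * (a * b)⁻¹ = a * (b * z) * b⁻¹ * a⁻¹ := by group
            _ = a * (z * b) * b⁻¹ * a⁻¹ := by rw [h1]
            _ = a * z * a⁻¹ := by group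
        rw [SetLike.mem_coe, e]
        have haH : a ∈ A ⊔ ⁅B, B⁆ := (le_sup_left : A ≤ A ⊔ ⁅B, B⁆) ha
        exact Subgroup.mul_mem _ (Subgroup.mul_mem _ haH ((le_sup_right : ⁅B, B⁆ ≤ A ⊔ ⁅B, B⁆) hz))
          (Subgroup.inv_mem _ haH)
      have hG2 : derivedSeries G 2 ≤ A ⊔ ⁅B, B⁆ := by
        refine le_trans ?_ hMH
        set M := Subgroup.normalClosure ((⁅B, B⁆ : Subgroup G) : Set G) with hM
        have hQ : derivedSeries (G ⧸ M) 2 = ⊥ := by
          have hAc' : IsMulCommutative (A.map (QuotientGroup.mk' M)) := ⟨⟨by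
            rintro ⟨_, x, hx, rfl⟩ ⟨_, y, hy, rfl⟩
            apply Subtype.ext
            show QuotientGroup.mk' M x * QuotientGroup.mk' M y =
              QuotientGroup.mk' M y * QuotientGroup.mk' M x
            rw [← map_mul, ← map_mul, hA x hx y hy]⟩⟩
          have hBc' : IsMulCommutative (B.map (QuotientGroup.mk' M)) := ⟨⟨by
            rintro ⟨_, x, hx, rfl⟩ ⟨_, y, hy, rfl⟩
            apply Subtype.ext
            show QuotientGroup.mk' M x * QuotientGroup.mk' M y =
              QuotientGroup.mk' M y * QuotientGroup.mk' M x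
            rw [← map_mul, ← map_mul]
            have h1 : x * y * x⁻¹ * y⁻¹ ∈ M :=
              hZM (by rw [← commutatorElement_def]; exact Subgroup.commutator_mem_commutator hx hy)
            have h2 : x * y = (x * y * x⁻¹ * y⁻¹) * (y * x) := by group
            have h3 : QuotientGroup.mk' M (x * y * x⁻¹ * y⁻¹) = 1 :=
              (QuotientGroup.eq_one_iff _).mpr h1
            rw [h2, map_mul, h3, one_mul]⟩⟩
          exact Cfsg.Agent.S0572.result (A.map (QuotientGroup.mk' M))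
            (B.map (QuotientGroup.mk' M)) (by
              intro g
              obtain ⟨g, rfl⟩ := QuotientGroup.mk'_surjective M g
              obtain ⟨a, ha, b, hb, rfl⟩ := hAB g
              exact ⟨_, Subgroup.mem_map_of_mem _ ha, _, Subgroup.mem_map_of_mem _ hb,
                map_mul _ _ _⟩)
        have h1 := map_derivedSeries_le_derivedSeries (QuotientGroup.mk' M) 2
        rw [hQ, le_bot_iff, Subgroup.map_eq_bot_iff, QuotientGroup.ker_mk'] at h1
        exact h1
      have hlt := commutator_inf_lt A B hA hB hZ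
      have hΩ := primeFactors_length_lt_of_lt hlt
      rw [hn] at hΩ
      have hcard : Nat.card (⁅(B ⊓ (A ⊔ ⁅B, B⁆)).subgroupOf (A ⊔ ⁅B, B⁆),
          (B ⊓ (A ⊔ ⁅B, B⁆)).subgroupOf (A ⊔ ⁅B, B⁆)⁆ : Subgroup (A ⊔ ⁅B, B⁆ : Subgroup G)) =
          Nat.card (⁅B ⊓ (A ⊔ ⁅B, B⁆), B ⊓ (A ⊔ ⁅B, B⁆)⁆ : Subgroup G) := by
        rw [← Subgroup.card_map_of_injective (Subgroup.subtype_injective (A ⊔ ⁅B, B⁆)),
          Subgroup.map_commutator, Subgroup.map_subgroupOf_eq_of_le inf_le_right]
      have hH0 := IH _ hΩ (A ⊔ ⁅B, B⁆ : Subgroup G) (A.subgroupOf (A ⊔ ⁅B, B⁆))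
        ((B ⊓ (A ⊔ ⁅B, B⁆)).subgroupOf (A ⊔ ⁅B, B⁆)) (by rw [hcard])
        (by
          intro x hx y hy
          exact Subtype.ext
            (hA x (Subgroup.mem_subgroupOf.mp hx) y (Subgroup.mem_subgroupOf.mp hy)))
        ((hB.mono inf_le_left).subgroupOf)
        (by
          rintro ⟨h, hh⟩
          obtain ⟨a, ha, b, hb, rfl⟩ := hAB h
          have haH : a ∈ A ⊔ ⁅B, B⁆ := (le_sup_left : A ≤ A ⊔ ⁅B, B⁆) ha
          have hbH : b ∈ A ⊔ ⁅B, B⁆ := by
            have h1 := Subgroup.mul_mem _ (Subgroup.inv_mem _ haH) hh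
            rwa [inv_mul_cancel_left] at h1
          exact ⟨⟨a, haH⟩, Subgroup.mem_subgroupOf.mpr ha, ⟨b, hbH⟩,
            Subgroup.mem_subgroupOf.mpr ⟨hb, hbH⟩, rfl⟩)
      have hH1 : derivedSeries (A ⊔ ⁅B, B⁆ : Subgroup G) (2 * n) = ⊥ :=
        le_bot_iff.mp (hH0 ▸ derivedSeries_antitone _ (by omega))
      have hfin := derivedSeries_add_le_map hG2 (2 * n)
      rw [hH1, Subgroup.map_bot, le_bot_iff] at hfin
      have e : 2 * (1 + n) = 2 + 2 * n := by ring
      rw [e]
      exact hfin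

end Cfsg.Agent.H12
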