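import Mathlib
import Cfsg.Agent.H64.JzDefs
import Cfsg.Agent.S2950
import Cfsg.Agent.H12.SpConjG
import Cfsg.Agent.H51.Local
import Cfsg.Agent.H51.Amalgam

/-!
# JZ-OUT1 (piece of S2951/S2952; helper64's project)

`T = S` and `g ∈ N_G(J(S)) ∖ L`: then `K^g` is a `J(S)`-component not inside `L`.  Otherwise
`L^(g⁻¹)` is a maximal 2-local subgroup containing `K ⊔ J(S)`, hence equal to `L` by the
uniqueness of S2950, so `g⁻¹` normalizes `O₂(L) ≠ 1` and `g ∈ N_G(O₂(L)) = L`.
-/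

set_option autoImplicit false
open Cfsg

namespace Cfsg.Agent.H12.Jz

universe u

/-- An element whose conjugation fixes `U` normalizes `U`. -/
theorem mem_normalizer_of_map_conj_eq {G : Type u} [Group G] {U : Subgroup G} {g : G}
    (h : U.map (MulAut.conj g).toMonoidHom = U) : g ∈ Subgroup.normalizer (U : Set G) := by
  rw [Subgroup.mem_normalizer_iff]
  intro x
  constructor
  · intro hx
    rw [← h]
    exact ⟨x, hx, rfl⟩
  · intro hx
    rw [← h] at hx
    obtain ⟨y, hy, hyx⟩ := hx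
    have hyx' : y = x := (MulAut.conj g).injective hyx
    rwa [← hyx']

/-- An element of the normalizer of `U` fixes `U` under conjugation. -/
theorem map_conj_eq_of_mem_normalizer {G : Type u} [Group G] {U : Subgroup G} {g : G}
    (h : g ∈ Subgroup.normalizer (U : Set G)) : U.map (MulAut.conj g).toMonoidHom = U := by
  ext x
  constructor
  · rintro ⟨y, hy, rfl⟩
    exact (Subgroup.mem_normalizer_iff.mp h y).mp hy
  · intro hx
    refine ⟨g⁻¹ * x * g, ?_, ?_⟩
    · apply (Subgroup.mem_normalizer_iff.mp h (g⁻¹ * x * g)).mpr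
      have e : g * (g⁻¹ * x * g) * g⁻¹ = x := by group
      rw [e]
      exact hx
    · simp only [MulEquiv.coe_toMonoidHom, MulAut.conj_apply]
      group

/-- Conjugates of 2-local subgroups are 2-local subgroups. -/
theorem isTwoLocal_conj {G : Type u} [Group G] {N : Subgroup G} (g : G) (h : IsTwoLocal N) :
    IsTwoLocal (N.map (MulAut.conj g).toMonoidHom) := by
  obtain ⟨Q, hQ2, hQne, rfl⟩ := h
  refine ⟨Q.map (MulAut.conj g).toMonoidHom, hQ2.map _, ?_, ?_⟩
  · intro h0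
    apply hQne
    exact (Subgroup.map_eq_bot_iff_of_injective Q (MulAut.conj g).injective).mp h0
  · exact Subgroup.map_equiv_normalizer_eq Q (MulAut.conj g)

/-- Conjugates of maximal 2-local subgroups are maximal 2-local subgroups. -/
theorem isMaximalTwoLocal_conj {G : Type u} [Group G] {L : Subgroup G} (g : G)
    (h : IsMaximalTwoLocal L) : IsMaximalTwoLocal (L.map (MulAut.conj g).toMonoidHom) := by
  obtain ⟨h2, hmax⟩ := h
  refine ⟨isTwoLocal_conj g h2, ?_⟩
  intro N hN hLN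
  have h3 : IsTwoLocal (N.map (MulAut.conj g⁻¹).toMonoidHom) := isTwoLocal_conj g⁻¹ hN
  have h4 : L ≤ N.map (MulAut.conj g⁻¹).toMonoidHom := by
    have h := Subgroup.map_mono (f := (MulAut.conj g⁻¹).toMonoidHom) hLN
    rwa [Cfsg.Agent.H12.Sp.map_conj_conj_inv] at h
  have h5 := hmax _ h3 h4
  rw [← h5]
  have h6 := Cfsg.Agent.H12.Sp.map_conj_conj_inv N g⁻¹
  rw [inv_inv] at h6
  exact h6.symm

/-- A maximal 2-local subgroup is the normalizer of its 2-core, which is nontrivial. -/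
theorem normalizer_pCoreOf_eq {G : Type u} [Group G] {L : Subgroup G}
    (hLmax : IsMaximalTwoLocal L) :
    pCoreOf 2 L ≠ ⊥ ∧ Subgroup.normalizer (pCoreOf 2 L : Set G) = L := by
  obtain ⟨hL2, hLm⟩ := hLmax
  have hPne : pCoreOf 2 L ≠ ⊥ := by
    obtain ⟨Q, hQ2, hQne, hLQ⟩ := hL2
    intro h0
    apply hQne
    have hQL : Q ≤ L := by rw [hLQ]; exact Subgroup.le_normalizer
    have hQP : Q ≤ pCoreOf 2 L := Cfsg.Agent.H51.le_pCoreOf 2 hQL (by rw [hLQ]) hQ2
    rw [h0] at hQP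
    exact le_bot_iff.mp hQP
  exact ⟨hPne, hLm _ ⟨pCoreOf 2 L, Cfsg.Agent.H51.pCoreOf_isPGroup 2 L, hPne, rfl⟩
      (Cfsg.Agent.H51.le_normalizer_pCoreOf 2 L)⟩

/-- A maximal 2-local subgroup is self-normalizing, in the form: `L^g = L` forces `g ∈ L`. -/
theorem mem_of_map_conj_eq {G : Type u} [Group G] {L : Subgroup G}
    (hLmax : IsMaximalTwoLocal L) {g : G}
    (h : L.map (MulAut.conj g).toMonoidHom = L) : g ∈ L := by
  have hP : (pCoreOf 2 L).map (MulAut.conj g).toMonoidHom = pCoreOf 2 L := by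
    rw [← Cfsg.Agent.H51.pCoreOf_map 2 L (MulAut.conj g), h]
  have hg : g ∈ Subgroup.normalizer (pCoreOf 2 L : Set G) := mem_normalizer_of_map_conj_eq hP
  rwa [(normalizer_pCoreOf_eq hLmax).2] at hg

/-- JZ-OUT1. -/
theorem out1 : Cfsg.Agent.H64.Jz.StOut1.{u} := by
  intro G _ _ S M T K L hB hTS hnot
  obtain ⟨hZN, hO, hM, hMJ, hT, -, hK, hLmax, hKJL⟩ := hB
  obtain ⟨hc2, hsolv, hZ⟩ := hZN
  obtain ⟨g, hgN, hgL⟩ := SetLike.not_le_iff_exists.mp hnot
  have hJT : thompsonSubgroupOf 2 T = thompsonSubgroupOf 2 (S : Subgroup G) := by rw [hTS]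
  have hgN' : g ∈ Subgroup.normalizer (thompsonSubgroupOf 2 T : Set G) := by
    rw [hJT]
    exact hgN
  have hJg : (thompsonSubgroupOf 2 T).map (MulAut.conj g).toMonoidHom = thompsonSubgroupOf 2 T :=
    map_conj_eq_of_mem_normalizer hgN'
  have hJg' : thompsonSubgroupOf 2 (T.map (MulAut.conj g).toMonoidHom) =
      thompsonSubgroupOf 2 T := by
    rw [← Cfsg.Agent.H14.thompsonSubgroupOf_conj 2 g T]
    exact hJg
  have hKJ : IsJComponent T K := hK.1.1
  have hKg : IsJComponent (T.map (MulAut.conj g).toMonoidHom)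
      (K.map (MulAut.conj g).toMonoidHom) :=
    Cfsg.Agent.H12.Sp.isJComponent_conj T K g hKJ
  have hKg' : IsJComponent T (K.map (MulAut.conj g).toMonoidHom) := by
    unfold IsJComponent at hKg ⊢
    rw [hJg'] at hKg
    exact hKg
  refine ⟨K.map (MulAut.conj g).toMonoidHom, hKg', ?_⟩
  intro hKgL
  obtain ⟨L0, -, -, huniq, -, -⟩ :=
    Cfsg.Agent.S2950.result hc2 hsolv hZ hO S M hM hMJ T hT K hK
  have hLL0 : L = L0 := huniq L hLmax hKJL
  have hL'max : IsMaximalTwoLocal (L.map (MulAut.conj g⁻¹).toMonoidHom) :=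
    isMaximalTwoLocal_conj g⁻¹ hLmax
  have hKL' : K ≤ L.map (MulAut.conj g⁻¹).toMonoidHom := by
    have h := Subgroup.map_mono (f := (MulAut.conj g⁻¹).toMonoidHom) hKgL
    rwa [Cfsg.Agent.H12.Sp.map_conj_conj_inv] at h
  have hJL : thompsonSubgroupOf 2 T ≤ L := le_sup_right.trans hKJL
  have hJL' : thompsonSubgroupOf 2 T ≤ L.map (MulAut.conj g⁻¹).toMonoidHom := by
    have h1 : (thompsonSubgroupOf 2 T).map (MulAut.conj g⁻¹).toMonoidHom =
        thompsonSubgroupOf 2 T := map_conj_eq_of_mem_normalizer (inv_mem hgN')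
    rw [← h1]
    exact Subgroup.map_mono hJL
  have hL'L0 : L.map (MulAut.conj g⁻¹).toMonoidHom = L0 := huniq _ hL'max (sup_le hKL' hJL')
  have hL'L : L.map (MulAut.conj g⁻¹).toMonoidHom = L := hL'L0.trans hLL0.symm
  have hginv : g⁻¹ ∈ L := mem_of_map_conj_eq hLmax hL'L
  exact hgL (by simpa using inv_mem hginv)

end Cfsg.Agent.H12.Jz

universe u in
example : Cfsg.Agent.H64.Jz.StOut1.{u} := Cfsg.Agent.H12.Jz.out1.{u}
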