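import Mathlib
import Cfsg.Agent.H59.JzKillDefs
import Cfsg.Agent.H12.JzOut1
import Cfsg.Agent.H14.Thompson
import Cfsg.Agent.H51.Local

/-!
# K-NV (sub-piece of JZ-KILL, S2951/S2952; helper59's sub-project)

For a maximal 2-local subgroup `L`, `V = Ω₁Z(O₂(L))` is a nontrivial 2-subgroup normalized by `L`,
so `N_G(V) = L`.
-/

set_option autoImplicit false
open Cfsg

namespace Cfsg.Agent.H12.Jk

universe u

/-- `Ω₁Z(P) ≤ P`. -/
theorem omegaCenterOf_le_self {G : Type u} [Group G] (P : Subgroup G) : omegaCenterOf P ≤ P := by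
  unfold omegaCenterOf omegaOne
  rw [Subgroup.closure_le]
  intro x hx
  exact hx.1.1

/-- `Ω₁Z(P) ≠ 1` for a nontrivial finite 2-group `P`. -/
theorem omegaCenterOf_ne_bot_of {G : Type u} [Group G] [Finite G] (P : Subgroup G)
    (hP : IsPGroup 2 ↥P) (hP1 : P ≠ ⊥) : omegaCenterOf P ≠ ⊥ := by
  have : Fact (Nat.Prime 2) := ⟨Nat.prime_two⟩
  have : Nontrivial ↥P := (Subgroup.nontrivial_iff_ne_bot P).mpr hP1
  have := hP.center_nontrivial
  have h2 : 2 ∣ Nat.card ↥(Subgroup.center ↥P) := by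
    obtain ⟨n, hn⟩ := (hP.to_subgroup (Subgroup.center ↥P)).exists_card_eq
    have hgt : 1 < Nat.card ↥(Subgroup.center ↥P) := Finite.one_lt_card
    rw [hn] at hgt ⊢
    cases n with
    | zero => simp at hgt
    | succ n => exact Dvd.intro_left _ (pow_succ 2 n).symm
  obtain ⟨z, hz⟩ := exists_prime_orderOf_dvd_card' 2 h2
  intro hbot
  have hzmem : ((z : ↥P) : G) ∈ omegaCenterOf P := by
    unfold omegaCenterOf omegaOne
    apply Subgroup.subset_closure
    refine ⟨⟨(z : ↥P).2, ?_⟩, ?_⟩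
    · show ((z : ↥P) : G) ∈ Subgroup.centralizer (P : Set G)
      rw [Subgroup.mem_centralizer_iff]
      intro h hh
      have h' := (Subgroup.mem_center_iff.mp z.2) ⟨h, hh⟩
      exact congrArg Subtype.val h'
    · have h' : z ^ 2 = 1 := by rw [← hz]; exact pow_orderOf_eq_one z
      have h'' := congrArg (fun t : ↥(Subgroup.center ↥P) => ((t : ↥P) : G)) h'
      simpa using h''
  rw [hbot, Subgroup.mem_bot] at hzmem
  have hz1 : z = 1 := Subtype.ext (Subtype.ext hzmem)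
  rw [hz1, orderOf_one] at hz
  omega

/-- `N_G(P) ≤ N_G(Ω₁Z(P))`. -/
theorem normalizer_le_normalizer_omegaCenterOf {G : Type u} [Group G] (P : Subgroup G) :
    Subgroup.normalizer (P : Set G) ≤ Subgroup.normalizer (omegaCenterOf P : Set G) := by
  intro l hl
  apply Cfsg.Agent.H12.Jz.mem_normalizer_of_map_conj_eq
  have h1 := Cfsg.Agent.H14.omegaOne_center_conj 2 l P
  rw [Cfsg.Agent.H12.Jz.map_conj_eq_of_mem_normalizer hl] at h1
  exact h1

/-- For a maximal 2-local subgroup `L`: `Ω₁Z(O₂(L))` is a nontrivial 2-group with normalizer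
`L`. -/
theorem normalizer_Vof_eq {G : Type u} [Group G] [Finite G] {L : Subgroup G}
    (hLmax : IsMaximalTwoLocal L) :
    omegaCenterOf (pCoreOf 2 L) ≠ ⊥ ∧ IsPGroup 2 ↥(omegaCenterOf (pCoreOf 2 L)) ∧
    Subgroup.normalizer (omegaCenterOf (pCoreOf 2 L) : Set G) = L := by
  obtain ⟨hPne, -⟩ := Cfsg.Agent.H12.Jz.normalizer_pCoreOf_eq hLmax
  have hP2 := Cfsg.Agent.H51.pCoreOf_isPGroup 2 L
  have hVne := omegaCenterOf_ne_bot_of _ hP2 hPne
  have hV2 : IsPGroup 2 ↥(omegaCenterOf (pCoreOf 2 L)) := hP2.to_le (omegaCenterOf_le_self _)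
  have hLN : L ≤ Subgroup.normalizer (omegaCenterOf (pCoreOf 2 L) : Set G) :=
    (Cfsg.Agent.H51.le_normalizer_pCoreOf 2 L).trans (normalizer_le_normalizer_omegaCenterOf _)
  exact ⟨hVne, hV2, hLmax.2 _ ⟨_, hV2, hVne, rfl⟩ hLN⟩

/-- K-NV. -/
theorem kNV : Cfsg.Agent.H59.JzK.StKNV.{u} := by
  intro G _ _ S M K L T' K' L' hR
  obtain ⟨⟨-, -, -, -, -, -, -, hLmax, -⟩, -, -, -⟩ := hR
  exact (normalizer_Vof_eq hLmax).2.2

end Cfsg.Agent.H12.Jk

universe u in
example : Cfsg.Agent.H59.JzK.StKNV.{u} := Cfsg.Agent.H12.Jk.kNV.{u}
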