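import Mathlib
import Cfsg.Agent.H59.JzKillDefs
import Cfsg.Agent.H12.JkNV
import Cfsg.Agent.H48.JkConj
import Cfsg.Agent.H32.JkExp

/-!
# K-TI and K-CENT from K-CONJ (sub-pieces of JZ-KILL, S2951/S2952; helper59's sub-project)

`L` a maximal 2-local subgroup, `V = Ω₁Z(O₂(L))`, `J` a subgroup such that every 2-local subgroup
containing `J` lies in `L`.  Hypothesis (K-CONJ): every `u ∈ V` is `L`-conjugate to an element
centralizing `J`.  Then

* `C_G(v) ≤ L` for `1 ≠ v ∈ V` (`C_G(k v k⁻¹)` is a 2-local subgroup containing `J`);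
* `V ∩ V^g ≠ 1` implies `g ∈ L`: for `u = g v g⁻¹ ∈ V`, `u' = k u k⁻¹ ∈ C(J)`, the conjugate
  `L^(kg)` contains `C_G(u') ⊇ J`, so `L^(kg) ≤ L`, hence `L^(kg) = L` and `kg ∈ N_G(L) = L`.

The hypothesis `a(T') ≠ a(S)` of `StKCent` / `StKTI` is not used.
-/

set_option autoImplicit false
open Cfsg

namespace Cfsg.Agent.H12.Jk

universe u

/-- Conjugation maps `C_G(v)` into `C_G(k v k⁻¹)`. -/
theorem conj_mem_centralizer_singleton {G : Type u} [Group G] {c v : G} (k : G)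
    (hc : c ∈ Subgroup.centralizer ({v} : Set G)) :
    k * c * k⁻¹ ∈ Subgroup.centralizer ({k * v * k⁻¹} : Set G) := by
  rw [Subgroup.mem_centralizer_iff] at hc ⊢
  intro h hh
  rw [Set.mem_singleton_iff] at hh
  rw [hh]
  have h1 : v * c = c * v := hc v (Set.mem_singleton v)
  calc k * v * k⁻¹ * (k * c * k⁻¹) = k * (v * c) * k⁻¹ := by group
    _ = k * (c * v) * k⁻¹ := by rw [h1]
    _ = k * c * k⁻¹ * (k * v * k⁻¹) := by group

/-- K-CENT, core form. -/
theorem cent_le_core {G : Type u} [Group G] [Finite G] {L J : Subgroup G}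
    (hX : ∀ X : Subgroup G, IsTwoLocal X → J ≤ X → X ≤ L)
    (hConj : ∀ u ∈ omegaCenterOf (pCoreOf 2 L), ∃ k ∈ L,
      k * u * k⁻¹ ∈ Subgroup.centralizer (J : Set G))
    {v : G} (hv : v ∈ omegaCenterOf (pCoreOf 2 L)) (hv1 : v ≠ 1) :
    Subgroup.centralizer ({v} : Set G) ≤ L := by
  obtain ⟨k, hk, hv'⟩ := hConj v hv
  have hvv : v * v = 1 := Cfsg.Agent.H32.JzK.kExp (pCoreOf 2 L) v hv
  have h1 : (k * v * k⁻¹) * (k * v * k⁻¹) = 1 := by
    calc (k * v * k⁻¹) * (k * v * k⁻¹) = k * (v * v) * k⁻¹ := by group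
      _ = 1 := by rw [hvv]; group
  have h2 : k * v * k⁻¹ ≠ 1 := by
    intro h
    apply hv1
    have e : v = k⁻¹ * (k * v * k⁻¹) * k := by group
    rw [e, h]
    group
  have h3 : IsTwoLocal (Subgroup.centralizer ({k * v * k⁻¹} : Set G)) :=
    Cfsg.Agent.H48.Jk.centralizer_twoLocal h1 h2
  have h4 : J ≤ Subgroup.centralizer ({k * v * k⁻¹} : Set G) := by
    intro j hj
    rw [Subgroup.mem_centralizer_iff]
    intro h hh
    rw [Set.mem_singleton_iff] at hh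
    rw [hh]
    exact ((Subgroup.mem_centralizer_iff.mp hv') j hj).symm
  have h5 := hX _ h3 h4
  intro c hc
  have h6 : k * c * k⁻¹ ∈ L := h5 (conj_mem_centralizer_singleton k hc)
  have h7 : c = k⁻¹ * (k * c * k⁻¹) * k := by group
  rw [h7]
  exact mul_mem (mul_mem (inv_mem hk) h6) hk

/-- K-TI, core form. -/
theorem ti_core {G : Type u} [Group G] [Finite G] {L J : Subgroup G}
    (hLmax : IsMaximalTwoLocal L)
    (hX : ∀ X : Subgroup G, IsTwoLocal X → J ≤ X → X ≤ L)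
    (hConj : ∀ u ∈ omegaCenterOf (pCoreOf 2 L), ∃ k ∈ L,
      k * u * k⁻¹ ∈ Subgroup.centralizer (J : Set G))
    (g : G)
    (hg : omegaCenterOf (pCoreOf 2 L) ⊓
      (omegaCenterOf (pCoreOf 2 L)).map (MulAut.conj g).toMonoidHom ≠ ⊥) :
    g ∈ L := by
  obtain ⟨⟨u, hu⟩, hu1'⟩ := (Subgroup.ne_bot_iff_exists_ne_one).mp hg
  have hu1 : u ≠ 1 := fun h => hu1' (Subtype.ext h)
  obtain ⟨huV, huVg⟩ := hu
  obtain ⟨v, hv, hvu⟩ := huVg
  have hvu' : g * v * g⁻¹ = u := by simpa using hvu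
  have hv1 : v ≠ 1 := by
    intro h
    apply hu1
    rw [← hvu', h]
    group
  obtain ⟨k, hk, hu'⟩ := hConj u huV
  have hcv : Subgroup.centralizer ({v} : Set G) ≤ L := cent_le_core hX hConj hv hv1
  have hJ : J ≤ L.map (MulAut.conj (k * g)).toMonoidHom := by
    intro j hj
    have h1 : j * (k * u * k⁻¹) = (k * u * k⁻¹) * j := (Subgroup.mem_centralizer_iff.mp hu') j hj
    have e1 : k * u * k⁻¹ = (k * g) * v * (k * g)⁻¹ := by
      rw [← hvu']
      group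
    rw [e1] at h1
    have h2 : (k * g)⁻¹ * j * (k * g) ∈ Subgroup.centralizer ({v} : Set G) := by
      rw [Subgroup.mem_centralizer_iff]
      intro h hh
      rw [Set.mem_singleton_iff] at hh
      rw [hh]
      calc v * ((k * g)⁻¹ * j * (k * g))
          = (k * g)⁻¹ * ((k * g) * v * (k * g)⁻¹ * j) * (k * g) := by group
        _ = (k * g)⁻¹ * (j * ((k * g) * v * (k * g)⁻¹)) * (k * g) := by rw [h1]
        _ = (k * g)⁻¹ * j * (k * g) * v := by group
    refine ⟨(k * g)⁻¹ * j * (k * g), hcv h2, ?_⟩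
    simp only [MulEquiv.coe_toMonoidHom, MulAut.conj_apply]
    group
  have hmax' := Cfsg.Agent.H12.Jz.isMaximalTwoLocal_conj (k * g) hLmax
  have hle : L.map (MulAut.conj (k * g)).toMonoidHom ≤ L := hX _ hmax'.1 hJ
  have heq : L = L.map (MulAut.conj (k * g)).toMonoidHom := hmax'.2 L hLmax.1 hle
  have hkg : k * g ∈ L := Cfsg.Agent.H12.Jz.mem_of_map_conj_eq hLmax heq.symm
  have e : g = k⁻¹ * (k * g) := by group
  rw [e]
  exact mul_mem (inv_mem hk) hkg

/-- K-CONJ (closed Prop): in the residual situation, every element of `V = Ω₁Z(O₂(L))` is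
`L`-conjugate into `C_G(J(S))`. -/
def StKConjJ : Prop := ∀ {G : Type u} [Group G] [Finite G] (S : Sylow 2 G)
    (M K L T' K' L' : Subgroup G), Cfsg.Agent.H64.Jz.RCtx S M K L T' K' L' →
  ∀ u ∈ Cfsg.Agent.H59.JzK.Vof L, ∃ k ∈ L,
    k * u * k⁻¹ ∈ Subgroup.centralizer (thompsonSubgroupOf 2 (S : Subgroup G) : Set G)

/-- K-CENT from K-CONJ. -/
theorem kCent_of (hConj : StKConjJ.{u}) : Cfsg.Agent.H59.JzK.StKCent.{u} := by
  intro G _ _ S M K L T' K' L' hR _ u hu hu1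
  have hR' := hR
  obtain ⟨⟨-, -, -, -, -, -, -, hLmax, -⟩, hX, -, -⟩ := hR'
  have hNV := (normalizer_Vof_eq hLmax).2.2
  exact (cent_le_core hX (hConj S M K L T' K' L' hR) hu hu1).trans hNV.ge

/-- K-TI from K-CONJ. -/
theorem kTI_of (hConj : StKConjJ.{u}) : Cfsg.Agent.H59.JzK.StKTI.{u} := by
  intro G _ _ S M K L T' K' L' hR _ g hg
  have hR' := hR
  obtain ⟨⟨-, -, -, -, -, -, -, hLmax, -⟩, hX, -, -⟩ := hR'
  have hNV := (normalizer_Vof_eq hLmax).2.2
  exact hNV.ge (ti_core hLmax hX (hConj S M K L T' K' L' hR) g hg)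

end Cfsg.Agent.H12.Jk

universe u in
example (hConj : Cfsg.Agent.H12.Jk.StKConjJ.{u}) : Cfsg.Agent.H59.JzK.StKTI.{u} :=
  Cfsg.Agent.H12.Jk.kTI_of.{u} hConj

universe u in
example (hConj : Cfsg.Agent.H12.Jk.StKConjJ.{u}) : Cfsg.Agent.H59.JzK.StKCent.{u} :=
  Cfsg.Agent.H12.Jk.kCent_of.{u} hConj
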