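import Mathlib
import Cfsg.Agent.H12.JkTI

/-!
# K-TI and K-CENT from the `Ω₁Z(J(S))`-form of K-CONJ (JZ-KILL, S2951/S2952)

Bridge: "every `u ∈ V` is `L`-conjugate into `Z₀ = Ω₁Z(J(S))`" implies the form `StKConjJ` used in
`Cfsg.Agent.H12.JkTI` (conjugate into `C_G(J(S))`), since `Ω₁Z(X) ≤ C_G(X)`.
-/

set_option autoImplicit false
open Cfsg

namespace Cfsg.Agent.H12.Jk

universe u

/-- `Ω₁Z(X) ≤ C_G(X)`. -/
theorem omegaCenterOf_le_centralizer {G : Type u} [Group G] (X : Subgroup G) :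
    omegaCenterOf X ≤ Subgroup.centralizer (X : Set G) := by
  unfold omegaCenterOf omegaOne
  rw [Subgroup.closure_le]
  intro x hx
  exact hx.1.2

/-- The `Ω₁Z(J(S))`-form of K-CONJ implies `StKConjJ`. -/
theorem kConjJ_of_omega
    (h : ∀ {G : Type u} [Group G] [Finite G] (S : Sylow 2 G) (M K L T' K' L' : Subgroup G),
      Cfsg.Agent.H64.Jz.RCtx S M K L T' K' L' → ∀ u ∈ Cfsg.Agent.H59.JzK.Vof L, ∃ k ∈ L,
        k * u * k⁻¹ ∈ omegaCenterOf (thompsonSubgroupOf 2 (S : Subgroup G))) :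
    StKConjJ.{u} := by
  intro G _ _ S M K L T' K' L' hR u hu
  obtain ⟨k, hk, hku⟩ := h S M K L T' K' L' hR u hu
  exact ⟨k, hk, omegaCenterOf_le_centralizer _ hku⟩

/-- K-TI from the `Ω₁Z(J(S))`-form of K-CONJ. -/
theorem kTI_of_omega
    (h : ∀ {G : Type u} [Group G] [Finite G] (S : Sylow 2 G) (M K L T' K' L' : Subgroup G),
      Cfsg.Agent.H64.Jz.RCtx S M K L T' K' L' → ∀ u ∈ Cfsg.Agent.H59.JzK.Vof L, ∃ k ∈ L,
        k * u * k⁻¹ ∈ omegaCenterOf (thompsonSubgroupOf 2 (S : Subgroup G))) :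
    Cfsg.Agent.H59.JzK.StKTI.{u} := kTI_of (kConjJ_of_omega h)

/-- K-CENT from the `Ω₁Z(J(S))`-form of K-CONJ. -/
theorem kCent_of_omega
    (h : ∀ {G : Type u} [Group G] [Finite G] (S : Sylow 2 G) (M K L T' K' L' : Subgroup G),
      Cfsg.Agent.H64.Jz.RCtx S M K L T' K' L' → ∀ u ∈ Cfsg.Agent.H59.JzK.Vof L, ∃ k ∈ L,
        k * u * k⁻¹ ∈ omegaCenterOf (thompsonSubgroupOf 2 (S : Subgroup G))) :
    Cfsg.Agent.H59.JzK.StKCent.{u} := kCent_of (kConjJ_of_omega h)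

end Cfsg.Agent.H12.Jk
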