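import Cfsg.Agent.H94.JxPFacts
import Cfsg.Agent.H97.JyPFacts

/-!
# S2953 (kill sub-project JX): the P-side input of the KB glue (helper12)

`Cfsg.Agent.H12.Jx.pSide : StPSide` with `StPSide` the Prop of helper52's post 11203, stated
inline: for a configuration `Base S M T K L` and `D = O₂(K ⊔ T)`:
* `D` has index 2 in `T` (elementwise: the product of two elements of `T ∖ D` lies in `D`),
* every element of `T ∖ D` inverts `K` modulo `D`,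
* `K` has an element `k` with `k ^ 3 = 1` outside `M`.

Proof: helper94's `pfacts` (`D ≤ T`, `|T : D| = 2`, `D` contains the core of `T` in `K ⊔ T`),
normality of `K` in `K ⊔ T` (S2952), and helper97's abstract `pfacts` for `O = O₂(K)`.
-/

set_option autoImplicit false
open Cfsg

universe u

namespace Cfsg.Agent.H12.Jx

/-- helper52's P-side interface (post 11203), stated inline. -/
def StPSide : Prop :=
  ∀ {G : Type u} [Group G] [Finite G] (S : Sylow 2 G) (M T K L : Subgroup G),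
    Cfsg.Agent.H64.Jz.Base S M T K L →
    (∀ a ∈ T, ∀ b ∈ T, a ∉ pCoreOf 2 (K ⊔ T) → b ∉ pCoreOf 2 (K ⊔ T) →
        a * b ∈ pCoreOf 2 (K ⊔ T)) ∧
    (∀ x ∈ T, x ∉ pCoreOf 2 (K ⊔ T) → ∀ g ∈ K, x * g * x⁻¹ * g ∈ pCoreOf 2 (K ⊔ T)) ∧
    ∃ k ∈ K, k ^ 3 = 1 ∧ k ∉ M

/-- The P-side facts, explicit form. -/
theorem pSide_explicit {G : Type u} [Group G] [Finite G] (S : Sylow 2 G) (M T K L : Subgroup G)
    (hB : Cfsg.Agent.H64.Jz.Base S M T K L) :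
    (∀ a ∈ T, ∀ b ∈ T, a ∉ pCoreOf 2 (K ⊔ T) → b ∉ pCoreOf 2 (K ⊔ T) →
        a * b ∈ pCoreOf 2 (K ⊔ T)) ∧
    (∀ x ∈ T, x ∉ pCoreOf 2 (K ⊔ T) → ∀ g ∈ K, x * g * x⁻¹ * g ∈ pCoreOf 2 (K ⊔ T)) ∧
    ∃ k ∈ K, k ^ 3 = 1 ∧ k ∉ M := by
  obtain ⟨hDT, -, hPD, -, h2, -, hcore⟩ := Cfsg.Agent.H94.Jx.pfacts S M T K L hB
  obtain ⟨hZN, hO, hM, hMJ, hT, hTS, hK, hLmax, hKJL⟩ := hB
  obtain ⟨hchar, hsolv, hZ⟩ := hZN
  have hKn : (K.subgroupOf (K ⊔ T)).Normal :=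
    Cfsg.Agent.S2952.result hchar hsolv hZ hO S M hM hMJ T hT K hK
  have hKP : K ≤ K ⊔ T := le_sup_left
  have hTP : T ≤ K ⊔ T := le_sup_right
  have hPK : K ⊔ T ≤ Subgroup.normalizer (K : Set G) :=
    (Subgroup.normal_subgroupOf_iff_le_normalizer hKP).mp hKn
  have hT2 : IsPGroup 2 ↥T := S.isPGroup'.to_le hTS
  obtain ⟨hgen, -, hrel3, -, -, -⟩ := hK.1.1
  have hOK : pCoreOf 2 K ≤ K := Cfsg.Agent.H31.X.H54.pCoreOf_le K
  have hOD : pCoreOf 2 K ≤ pCoreOf 2 (K ⊔ T) :=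
    Cfsg.Agent.H31.X.H54.pCoreOf_le_pCoreOf hKP hPK
  have hOT : pCoreOf 2 K ≤ T := hOD.trans hDT
  have hOnK : K ≤ Subgroup.normalizer (pCoreOf 2 K : Set G) :=
    Cfsg.Agent.H31.X.H54.le_normalizer_pCoreOf K
  have hOnT : T ≤ Subgroup.normalizer (pCoreOf 2 K : Set G) :=
    (hTP.trans hPK).trans (Cfsg.Agent.H31.X.H54.normalizer_le_normalizer_pCoreOf K)
  obtain ⟨D', k, hD'T, hOD', hKD', hTD', -, hinv, -, hcube, -, -, -, -, -⟩ :=
    Cfsg.Agent.H97.Jy.pfacts K T (pCoreOf 2 K) hT2 (hTP.trans hPK) hOK hOT hrel3 hOnK hOnT hgen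
  have hD'D : D' ≤ pCoreOf 2 (K ⊔ T) := by
    intro x hx
    refine hcore x (hTP (hD'T hx)) (fun y hy => ?_)
    have hyN : y ∈ Subgroup.normalizer (D' : Set G) := (sup_le hKD' hTD') hy
    have hyN' : y⁻¹ ∈ Subgroup.normalizer (D' : Set G) := Subgroup.inv_mem _ hyN
    have h := (Subgroup.mem_normalizer_iff.mp hyN' x).mp hx
    exact hD'T (by simpa using h)
  refine ⟨?_, ?_, ?_⟩
  · intro a ha b hb haD hbD
    have h2' : ((pCoreOf 2 (K ⊔ T)).subgroupOf T).index = 2 := h2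
    have h := (Subgroup.mul_mem_iff_of_index_two h2' (a := (⟨a, ha⟩ : ↥T))
      (b := (⟨b, hb⟩ : ↥T))).mpr
      ⟨fun h => absurd (Subgroup.mem_subgroupOf.mp h) haD,
       fun h => absurd (Subgroup.mem_subgroupOf.mp h) hbD⟩
    exact Subgroup.mem_subgroupOf.mp h
  · intro x hx hxD g hg
    exact hOD (hinv x hx (fun h => hxD (hD'D h)) g hg)
  · by_contra hcon
    have hcon' : ∀ g ∈ K, g ^ 3 = 1 → g ∈ M := fun g hg h3 => by
      by_contra hgM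
      exact hcon ⟨g, hg, h3, hgM⟩
    apply hK.2.1
    conv_lhs => rw [← hgen]
    rw [Subgroup.closure_le]
    rintro g ⟨hgK, hgo⟩
    have h3 : g ^ 3 = 1 :=
      Cfsg.Agent.H97.Jy.eq_one_of_odd_of_two (hT2.to_le hOT) (hcube g hgK)
        (hgo.of_dvd_nat (orderOf_pow_dvd 3))
    exact hcon' g hgK h3

/-- **StPSide** (helper52's P-side input of the KB glue), hypothesis-free. -/
theorem pSide : StPSide.{u} := fun S M T K L hB => pSide_explicit S M T K L hB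

example : (∀ {G : Type u} [Group G] [Finite G] (S : Sylow 2 G) (M T K L : Subgroup G),
    Cfsg.Agent.H64.Jz.Base S M T K L →
    (∀ a ∈ T, ∀ b ∈ T, a ∉ pCoreOf 2 (K ⊔ T) → b ∉ pCoreOf 2 (K ⊔ T) →
        a * b ∈ pCoreOf 2 (K ⊔ T)) ∧
    (∀ x ∈ T, x ∉ pCoreOf 2 (K ⊔ T) → ∀ g ∈ K, x * g * x⁻¹ * g ∈ pCoreOf 2 (K ⊔ T)) ∧
    ∃ k ∈ K, k ^ 3 = 1 ∧ k ∉ M) := pSide.{u}

end Cfsg.Agent.H12.Jx
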