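import Mathlib
import Cfsg.Agent.H58.UqDefs
import Cfsg.Agent.H12.SpConjG

/-!
# UQ-K0CONJ (piece of S2950; helper58's project)

`𝒦₀` is compatible with conjugation: `K ∈ 𝒦₀(T) ⟹ K^g ∈ 𝒦₀(T^g)`.
-/

set_option autoImplicit false
open Cfsg

namespace Cfsg.Agent.H12.Uq

universe u

/-- UQ-K0CONJ. -/
theorem k0conj : Cfsg.Agent.H58.Uq.StK0Conj.{u} := by
  intro G _ _ T K g hK
  obtain ⟨hJ, hS⟩ := hK
  refine ⟨Cfsg.Agent.H12.Sp.isJComponent_conj T K g hJ, ?_⟩
  intro S hJS hSyl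
  have hinj : Function.Injective (MulAut.conj g).toMonoidHom := (MulAut.conj g).injective
  have hJmap : (thompsonSubgroupOf 2 T).map (MulAut.conj g).toMonoidHom =
      thompsonSubgroupOf 2 (T.map (MulAut.conj g).toMonoidHom) :=
    Cfsg.Agent.H14.thompsonSubgroupOf_conj 2 g T
  have hback : ∀ X : Subgroup G,
      (X.map (MulAut.conj g).toMonoidHom).map (MulAut.conj g⁻¹).toMonoidHom = X :=
    fun X => Cfsg.Agent.H12.Sp.map_conj_conj_inv X g
  have hfwd : ∀ X : Subgroup G,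
      (X.map (MulAut.conj g⁻¹).toMonoidHom).map (MulAut.conj g).toMonoidHom = X := by
    intro X
    have h := Cfsg.Agent.H12.Sp.map_conj_conj_inv X g⁻¹
    rwa [inv_inv] at h
  have hN : Subgroup.normalizer ((wOf (K.map (MulAut.conj g).toMonoidHom) : Subgroup G) : Set G) =
      (Subgroup.normalizer ((wOf K : Subgroup G) : Set G)).map (MulAut.conj g).toMonoidHom := by
    rw [Cfsg.Agent.H12.Sp.wOf_conj_map, ← Subgroup.map_equiv_normalizer_eq]
  rw [hN] at hSyl
  obtain ⟨hS1, hS2, hS3⟩ := hSyl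
  have hSyl' : IsSylowTwoIn (S.map (MulAut.conj g⁻¹).toMonoidHom)
      (Subgroup.normalizer ((wOf K : Subgroup G) : Set G)) := by
    refine ⟨?_, hS2.map _, ?_⟩
    · have h := Subgroup.map_mono (f := (MulAut.conj g⁻¹).toMonoidHom) hS1
      rwa [hback] at h
    · have e := Subgroup.relIndex_map_map_of_injective (S.map (MulAut.conj g⁻¹).toMonoidHom)
        (Subgroup.normalizer ((wOf K : Subgroup G) : Set G)) hinj
      rw [hfwd] at e
      rw [← e]
      exact hS3
  have hJS' : thompsonSubgroupOf 2 T ≤ S.map (MulAut.conj g⁻¹).toMonoidHom := by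
    have h := Subgroup.map_mono (f := (MulAut.conj g⁻¹).toMonoidHom) hJS
    rwa [← hJmap, hback] at h
  have h7 := hS _ hJS' hSyl'
  rw [← Cfsg.Agent.H14.thompsonSubgroupOf_conj 2 g⁻¹ S] at h7
  rw [← hJmap, ← h7, hfwd]

end Cfsg.Agent.H12.Uq

universe u in
example : Cfsg.Agent.H58.Uq.StK0Conj.{u} := Cfsg.Agent.H12.Uq.k0conj.{u}
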