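import Mathlib
import Cfsg.Agent.H64.JzDefs
import Cfsg.Agent.H64.JyDefs
import Cfsg.Agent.H52.JwDefs
import Cfsg.Agent.H12.JzOut1
import Cfsg.Agent.H12.UqK0Conj
import Cfsg.Agent.H14.Thompson
import Cfsg.Agent.H51.Amalgam

/-!
# JY-CONJ (piece of S2953; helper64's project)

`Base S M T K L`, `g ∈ M ∩ N_G(T)`, `g ∉ L`: then `K^g`, `L^g` give a second configuration
`Base S M T (K^g) (L^g)` with `L^g ≠ L` (`N_G(L) = L`).
-/

set_option autoImplicit false
open Cfsg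

namespace Cfsg.Agent.H12.Jy

open Cfsg.Agent.H64.Jz

universe u

/-- JY-CONJ, with the explicit witnesses `K^g`, `L^g`. -/
theorem conj_base {G : Type u} [Group G] [Finite G] (S : Sylow 2 G) (M T K L : Subgroup G)
    (hB : Base S M T K L) (g : G) (hgM : g ∈ M)
    (hgT : g ∈ Subgroup.normalizer (T : Set G)) (hgL : g ∉ L) :
    Base S M T (K.map (MulAut.conj g).toMonoidHom) (L.map (MulAut.conj g).toMonoidHom) ∧
      L.map (MulAut.conj g).toMonoidHom ≠ L := by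
  obtain ⟨hZN, hO, hM, hMJ, hT, hTS, hK, hLmax, hKL⟩ := id hB
  obtain ⟨hK0, hKM, hKO⟩ := hK
  have hTg : T.map (MulAut.conj g).toMonoidHom = T :=
    Cfsg.Agent.H12.Jz.map_conj_eq_of_mem_normalizer hgT
  have hJg : (thompsonSubgroupOf 2 T).map (MulAut.conj g).toMonoidHom =
      thompsonSubgroupOf 2 T := by
    rw [Cfsg.Agent.H14.thompsonSubgroupOf_conj 2 g T, hTg]
  refine ⟨⟨hZN, hO, hM, hMJ, hT, hTS, ⟨?_, ?_, ?_⟩,
    Cfsg.Agent.H12.Jz.isMaximalTwoLocal_conj g hLmax, ?_⟩, ?_⟩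
  · have h := Cfsg.Agent.H12.Uq.k0conj T K g hK0
    rwa [hTg] at h
  · intro h
    apply hKM
    intro k hk
    have h1 : g * k * g⁻¹ ∈ M := h ⟨k, hk, rfl⟩
    have e : k = g⁻¹ * (g * k * g⁻¹) * g := by group
    rw [e]
    exact mul_mem (mul_mem (inv_mem hgM) h1) hgM
  · have e : K.map (MulAut.conj g).toMonoidHom ⊔ T =
        (K ⊔ T).map (MulAut.conj g).toMonoidHom := by
      rw [Subgroup.map_sup, hTg]
    rw [e, Cfsg.Agent.H51.pCoreOf_map 2 (K ⊔ T) (MulAut.conj g)]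
    intro h0
    exact hKO ((Subgroup.map_eq_bot_iff_of_injective _ (MulAut.conj g).injective).mp h0)
  · have e : K.map (MulAut.conj g).toMonoidHom ⊔ thompsonSubgroupOf 2 T =
        (K ⊔ thompsonSubgroupOf 2 T).map (MulAut.conj g).toMonoidHom := by
      rw [Subgroup.map_sup, hJg]
    rw [e]
    exact Subgroup.map_mono hKL
  · intro h
    exact hgL (Cfsg.Agent.H12.Jz.mem_of_map_conj_eq hLmax h)

/-- JY-CONJ. -/
theorem conj : Cfsg.Agent.H64.Jy.StConj.{u} := by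
  intro G _ _ S M T K L hB g hgM hgT hgL
  exact ⟨_, _, conj_base S M T K L hB g hgM hgT hgL⟩

/-- W-CONJ (helper52's shape). -/
theorem conjX : Cfsg.Agent.H52.Jw.StConjX.{u} := by
  intro G _ _ S M T K L hB g hgM hgT hgL
  exact ⟨_, _, conj_base S M T K L hB g hgM hgT hgL⟩

end Cfsg.Agent.H12.Jy

universe u in
example : Cfsg.Agent.H64.Jy.StConj.{u} := Cfsg.Agent.H12.Jy.conj.{u}

universe u in
example : Cfsg.Agent.H52.Jw.StConjX.{u} := Cfsg.Agent.H12.Jy.conjX.{u}
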