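import Mathlib
import Cfsg.Agent.H64.JzDefs
import Cfsg.Agent.H64.JyDefs
import Cfsg.Agent.S2948
import Cfsg.Agent.S2949
import Cfsg.Agent.S2950
import Cfsg.Agent.H14.Thompson
import Cfsg.Agent.H46.JzNSE
import Cfsg.Agent.H91.JzMaxS

/-!
# JY-SETUP2 (piece of S2953; helper64's project)

`T = S` and `N_G(J(S)) ≤ L`: then `L` is a legal base and there is a configuration
`(T', K', L')` for the base `L` (`T' ≤ S` maximal straddling for `L`, `K'` an outside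
`J(T')`-component, `L'` a maximal 2-local subgroup over `K' J(T')`).
-/

set_option autoImplicit false
open Cfsg

namespace Cfsg.Agent.H12.Jy

open Cfsg.Agent.H64.Jz

universe u

/-- JY-SETUP2, core. -/
theorem setup2_core {G : Type u} [Group G] [Finite G] (S : Sylow 2 G) (M K L : Subgroup G)
    (hB : Base S M (S : Subgroup G) K L)
    (hNJL : Subgroup.normalizer (thompsonSubgroupOf 2 (S : Subgroup G) : Set G) ≤ L) :
    ∃ T' K' L' : Subgroup G, Base S L T' K' L' := by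
  obtain ⟨hZN, hO, hM, hMJ, hS, -, hK, hLmax, hKL⟩ := id hB
  obtain ⟨hK0, hKM, hKO⟩ := hK
  have hJS : thompsonSubgroupOf 2 (S : Subgroup G) ≤ (S : Subgroup G) :=
    Cfsg.Agent.H14.thompsonSubgroupOf_le 2 _
  obtain ⟨L₀, -, -, hU, -, hSyl₀⟩ := Cfsg.Agent.S2950.result hZN.1 hZN.2.1 hZN.2.2 hO S M hM
    hMJ (S : Subgroup G) hS K ⟨hK0, hKM, hKO⟩
  have hLL₀ : L = L₀ := hU L hLmax hKL
  have hSyl : IsSylowTwoIn (S : Subgroup G) L := by rw [hLL₀]; exact hSyl₀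
  have hSL : (S : Subgroup G) ≤ L := hSyl.1
  have hLM : ¬ L ≤ M := fun h => hKM ((le_sup_left.trans hKL).trans h)
  have hLov : L ∈ jOvergroups (S : Subgroup G) :=
    (Cfsg.Agent.S2948.result hZN.1 hZN.2.1 hZN.2.2 hO S M hM hMJ (S : Subgroup G) hS L hLmax.1 hLM
      (S : Subgroup G) hSyl hJS).2.2.1
  have hne : (straddlingTwoSubgroups L).Nonempty :=
    Cfsg.Agent.H46.Jz.nse hZN hO S L hLmax.1 hNJL hLov
  obtain ⟨T', hT', hT'S⟩ := Cfsg.Agent.H91.Jz.maxS S L hSL hne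
  obtain ⟨K', hK'⟩ := Cfsg.Agent.S2949.result hZN.1 hZN.2.1 hZN.2.2 hO S L hLmax.1 hNJL T' hT'
  obtain ⟨L', hL'max, hK'L', -, -, -⟩ := Cfsg.Agent.S2950.result hZN.1 hZN.2.1 hZN.2.2 hO S L
    hLmax.1 hNJL T' hT' K' hK'
  exact ⟨T', K', L', hZN, hO, hLmax.1, hNJL, hT', hT'S, hK', hL'max, hK'L'⟩

/-- JY-SETUP2. -/
theorem setup2 : Cfsg.Agent.H64.Jy.StSetup2.{u} := by
  intro G _ _ S M K L hB hNJL
  exact setup2_core S M K L hB hNJL

end Cfsg.Agent.H12.Jy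

universe u in
example : Cfsg.Agent.H64.Jy.StSetup2.{u} := Cfsg.Agent.H12.Jy.setup2.{u}
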