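import Mathlib
import Cfsg.Agent.H12.KW4

/-!
# Products of two nilpotent subgroups: a proper normal subgroup containing a factor (helper12)
-/

set_option autoImplicit false
open Pointwise

namespace Cfsg.Agent.H12

universe u

theorem isPGroup_of_unique_prime {G : Type u} [Group G] [Finite G] {p : ℕ} (hp : p.Prime)
    (A : Subgroup G) (h : ∀ q : ℕ, q.Prime → q ∣ Nat.card A → q = p) : IsPGroup p A := by
  have : Fact p.Prime := ⟨hp⟩
  exact IsPGroup.of_card (Nat.eq_prime_pow_of_unique_prime_dvd Nat.card_pos.ne' (fun {d} hd hdd => h d hd hdd))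

theorem kw_normal_aux : ∀ n : ℕ, ∀ (G : Type u) [Group G] [Finite G] (A B : Subgroup G),
    Nat.card G = n → Group.IsNilpotent A → Group.IsNilpotent B →
    (∀ g : G, ∃ a ∈ A, ∃ b ∈ B, g = a * b) → (A ≠ ⊤ ∨ B ≠ ⊤) →
    ∃ N : Subgroup G, N.Normal ∧ N ≠ ⊤ ∧ (A ≤ N ∨ B ≤ N) := by
  intro n
  induction n using Nat.strong_induction_on with
  | _ n IH =>
    intro G _ _ A B hn hA hB hAB hproper
    have hsolv : Group.IsSolvable G := kw_solvable A B hA hB hAB
    have hnt : Nontrivial G := by
      by_contra h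
      rw [not_nontrivial_iff_subsingleton] at h
      rcases hproper with h1 | h1 <;> exact h1 (Subsingleton.elim _ _)
    have hBA : ∀ g : G, ∃ b ∈ B, ∃ a ∈ A, g = b * a := by
      intro g
      obtain ⟨a, ha, b, hb, e⟩ := hAB g⁻¹
      refine ⟨b⁻¹, B.inv_mem hb, a⁻¹, A.inv_mem ha, ?_⟩
      rw [← mul_inv_rev, ← e, inv_inv]
    have hred : ∀ (N : Subgroup G) [N.Normal], N ≠ ⊥ → (A ⊔ N ≠ ⊤ ∨ B ⊔ N ≠ ⊤) →
        ∃ M : Subgroup G, M.Normal ∧ M ≠ ⊤ ∧ (A ≤ M ∨ B ≤ M) := by
      intro N hN hNbot hne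
      have hlt : Nat.card (G ⧸ N) < n := by rw [← hn]; exact card_quotient_lt_of_ne_bot N hNbot
      have hmap : ∀ X : Subgroup G, X ⊔ N ≠ ⊤ → X.map (QuotientGroup.mk' N) ≠ ⊤ := by
        intro X hX htop
        apply hX
        have h1 := congrArg (Subgroup.comap (QuotientGroup.mk' N)) htop
        rwa [Subgroup.comap_map_eq, QuotientGroup.ker_mk', Subgroup.comap_top] at h1
      obtain ⟨M, hMn, hMtop, hM⟩ := IH _ hlt (G ⧸ N) (A.map (QuotientGroup.mk' N))
        (B.map (QuotientGroup.mk' N)) rfl (isNilpotent_map' _ hA) (isNilpotent_map' _ hB)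
        (by
          intro g
          obtain ⟨g, rfl⟩ := QuotientGroup.mk'_surjective N g
          obtain ⟨a, ha, b, hb, rfl⟩ := hAB g
          exact ⟨_, Subgroup.mem_map_of_mem _ ha, _, Subgroup.mem_map_of_mem _ hb, map_mul _ _ _⟩)
        (by
          rcases hne with h1 | h1
          · exact Or.inl (hmap A h1)
          · exact Or.inr (hmap B h1))
      refine ⟨M.comap (QuotientGroup.mk' N), hMn.comap _, ?_, ?_⟩
      · intro htop
        apply hMtop
        rw [Subgroup.eq_top_iff']
        intro x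
        obtain ⟨g, rfl⟩ := QuotientGroup.mk'_surjective N x
        have h1 : g ∈ M.comap (QuotientGroup.mk' N) := htop ▸ Subgroup.mem_top g
        exact h1
      · rcases hM with h1 | h1
        · exact Or.inl (Subgroup.map_le_iff_le_comap.mp h1)
        · exact Or.inr (Subgroup.map_le_iff_le_comap.mp h1)
    obtain ⟨p, N, hp, hNn, hNbot, hNp⟩ := H1.exists_normal_pgroup (G := G)
    have : Fact p.Prime := ⟨hp⟩
    by_cases hANB : A ⊔ N ≠ ⊤ ∨ B ⊔ N ≠ ⊤
    · exact hred N hNbot hANB
    push Not at hANB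
    obtain ⟨hAN, hBN⟩ := hANB
    by_cases hq : ∃ q : ℕ, q.Prime ∧ q ≠ p ∧ (q ∣ Nat.card A ∨ q ∣ Nat.card B)
    · obtain ⟨q, hq, hqp, hqd⟩ := hq
      have : Fact q.Prime := ⟨hq⟩
      have key : ∀ X : Subgroup G, X ⊔ N = ⊤ →
          Nat.card (sy q X) = q ^ (Nat.card G).factorization q := by
        intro X hXN
        rw [card_sy]
        congr 1
        apply le_antisymm
        · exact (Nat.factorization_le_iff_dvd Nat.card_pos.ne' Nat.card_pos.ne').mpr
            (Subgroup.card_subgroup_dvd_card X) q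
        · have h1 : Nat.card G = Nat.card N * N.relIndex X := by
            rw [← Subgroup.relIndex_sup_right, hXN, Subgroup.relIndex_top_right,
              Subgroup.card_mul_index]
          have h2 : N.relIndex X ∣ Nat.card X := Subgroup.relIndex_dvd_card N X
          have h3 : (Nat.card N).factorization q = 0 := by
            obtain ⟨k, hk⟩ := IsPGroup.iff_card.mp hNp
            rw [hk]
            exact Nat.factorization_eq_zero_of_not_dvd (fun hd =>
              hqp ((Nat.prime_dvd_prime_iff_eq hq hp).mp (hq.dvd_of_dvd_pow hd)))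
          have hpos : N.relIndex X ≠ 0 := (Nat.pos_of_dvd_of_pos h2 Nat.card_pos).ne'
          rw [h1, Nat.factorization_mul Nat.card_pos.ne' hpos, Finsupp.coe_add, Pi.add_apply, h3,
            zero_add]
          exact (Nat.factorization_le_iff_dvd hpos Nat.card_pos.ne').mpr h2 q
      obtain ⟨g, hg⟩ := H13.exists_conj_of_card q (sy q B) (sy q A) (key B hBN) (key A hAN)
      obtain ⟨b, hb, a, ha, rfl⟩ := hBA g
      have e : sy q A = sy q B := by
        rw [← conj_smul_conj_smul, conj_smul_eq_of_mem_normalizer (le_normalizer_sy q hA ha)] at hg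
        have h1 : MulAut.conj b⁻¹ • MulAut.conj b • sy q A = MulAut.conj b⁻¹ • sy q B := by
          rw [hg]
        rw [conj_inv_smul_conj_smul,
          conj_smul_eq_of_mem_normalizer (le_normalizer_sy q hB (B.inv_mem hb))] at h1
        exact h1
      have hQn : (sy q A).Normal := by
        rw [← Subgroup.normalizer_eq_top_iff, Subgroup.eq_top_iff']
        intro x
        obtain ⟨a, ha, b, hb, rfl⟩ := hAB x
        exact Subgroup.mul_mem _ (le_normalizer_sy q hA ha) (e ▸ le_normalizer_sy q hB hb)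
      have hQne : sy q A ≠ ⊥ := by
        rcases hqd with h1 | h1
        · exact sy_ne_bot hq h1
        · rw [e]; exact sy_ne_bot hq h1
      apply hred (sy q A) hQne
      rcases hproper with h1 | h1
      · left; rwa [sup_eq_left.mpr (sy_le q A)]
      · right; rw [e, sup_eq_left.mpr (sy_le q B)]; exact h1
    · push Not at hq
      have hAp : IsPGroup p A := isPGroup_of_unique_prime hp A (fun q hq' hqd => by
        by_contra hne
        exact (hq q hq' hne).1 hqd)
      have hBp : IsPGroup p B := isPGroup_of_unique_prime hp B (fun q hq' hqd => by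
        by_contra hne
        exact (hq q hq' hne).2 hqd)
      have hGp : IsPGroup p G := isPGroup_of_fact A B hAp hBp hAB
      have hGnil : Group.IsNilpotent G := hGp.isNilpotent
      have key2 : ∀ H : Subgroup G, H ≠ ⊤ → ∃ M : Subgroup G, M.Normal ∧ M ≠ ⊤ ∧ H ≤ M := by
        intro H hH
        rcases eq_top_or_exists_le_coatom H with h1 | ⟨M, hM, hle⟩
        · exact absurd h1 hH
        · have h2 : ∀ H : Subgroup G, IsCoatom H → H.Normal :=
            (Group.isNilpotent_of_finite_tfae.out 0 2 rfl rfl).mp hGnil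
          exact ⟨M, h2 M hM, hM.1, hle⟩
      rcases hproper with h1 | h1
      · obtain ⟨M, hMn, hMt, hle⟩ := key2 A h1
        exact ⟨M, hMn, hMt, Or.inl hle⟩
      · obtain ⟨M, hMn, hMt, hle⟩ := key2 B h1
        exact ⟨M, hMn, hMt, Or.inr hle⟩

theorem kw_normal {G : Type u} [Group G] [Finite G] (A B : Subgroup G)
    (hA : Group.IsNilpotent A) (hB : Group.IsNilpotent B)
    (hAB : ∀ g : G, ∃ a ∈ A, ∃ b ∈ B, g = a * b) (hproper : A ≠ ⊤ ∨ B ≠ ⊤) :
    ∃ N : Subgroup G, N.Normal ∧ N ≠ ⊤ ∧ (A ≤ N ∨ B ≤ N) :=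
  kw_normal_aux _ G A B rfl hA hB hAB hproper

end Cfsg.Agent.H12
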