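import Mathlib
import Cfsg.Agent.H12.Schmidt

/-!
# Minimal non-abelian groups (helper12)
-/

set_option autoImplicit false
open Pointwise
open scoped commutatorElement

namespace Cfsg.Agent.H12

universe u

/-- A nilpotent finite non-abelian group all of whose proper subgroups are abelian is a
`p`-group. -/
theorem isPGroup_of_nilpotent_min_nonabelian {G : Type u} [Group G] [Finite G]
    [Group.IsNilpotent G] (hna : ¬ IsMulCommutative G)
    (h : ∀ H : Subgroup G, H ≠ ⊤ → IsMulCommutative H) : ∃ p : ℕ, p.Prime ∧ IsPGroup p G := by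
  by_contra hcon
  push Not at hcon
  apply hna
  obtain ⟨e⟩ := ((Group.isNilpotent_of_finite_tfae (G := G)).out 0 4 rfl rfl).mp inferInstance
  have hcommPi : ∀ a b : (∀ p : (Nat.card G).primeFactors, ∀ P : Sylow p G,
      (↑P : Subgroup G)), a * b = b * a := by
    intro a b
    funext p P
    have hp : (p : ℕ).Prime := Nat.prime_of_mem_primeFactors p.2
    have hPtop : (P : Subgroup G) ≠ ⊤ := by
      intro hP
      apply hcon p hp
      have := P.isPGroup'
      rw [hP] at this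
      exact this.of_equiv Subgroup.topEquiv
    exact (h P hPtop).is_comm.comm (a p P) (b p P)
  refine ⟨⟨fun a b => ?_⟩⟩
  have h1 := hcommPi (e.symm a) (e.symm b)
  have h2 := congrArg e h1
  simpa using h2

/-- In a non-abelian finite group `G = P Q` all of whose proper subgroups are abelian, with `P`
a cyclic Sylow `p`-subgroup and `Q ≠ G` a normal Sylow `q`-subgroup, `Q` is elementary abelian. -/
theorem elementary_of_min_nonabelian {G : Type u} [Group G] [Finite G]
    (hna : ¬ IsMulCommutative G) (h : ∀ H : Subgroup G, H ≠ ⊤ → IsMulCommutative H)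
    (p q : ℕ) [Fact p.Prime] [Fact q.Prime] (hpq : p ≠ q) (P : Sylow p G) (Q : Sylow q G)
    (hPc : IsCyclic P) (hQn : (Q : Subgroup G).Normal) (hQtop : (Q : Subgroup G) ≠ ⊤)
    (hPQ : (P : Subgroup G) ⊔ Q = ⊤) :
    IsMulCommutative (Q : Subgroup G) ∧ ∀ a ∈ (Q : Subgroup G), a ^ q = 1 := by
  have hdisj : Disjoint (P : Subgroup G) (Q : Subgroup G) :=
    IsPGroup.disjoint_of_ne p q hpq _ _ P.isPGroup' Q.isPGroup'
  have hcenter : Subgroup.center G ≠ ⊤ := by
    intro hc
    apply hna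
    refine ⟨⟨fun a b => ?_⟩⟩
    have : a ∈ Subgroup.center G := hc ▸ Subgroup.mem_top a
    exact (Subgroup.mem_center_iff.mp this b).symm
  obtain ⟨g, hg⟩ := IsCyclic.exists_generator (α := (P : Subgroup G))
  obtain ⟨x, hxP⟩ := g
  have hPx : (P : Subgroup G) ≤ Subgroup.zpowers x := by
    intro z hz
    obtain ⟨k, hk⟩ := Subgroup.mem_zpowers_iff.mp (hg ⟨z, hz⟩)
    exact Subgroup.mem_zpowers_iff.mpr ⟨k, by simpa using congrArg Subtype.val hk⟩
  have hQc := h Q hQtop
  have hQcomm : ∀ a ∈ (Q : Subgroup G), ∀ b ∈ (Q : Subgroup G), a * b = b * a := by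
    intro a ha b hb
    have := hQc.is_comm.comm ⟨a, ha⟩ ⟨b, hb⟩
    exact congrArg Subtype.val this
  refine ⟨hQc, ?_⟩
  -- Dedekind-type argument
  have hded : ∀ T : Subgroup G, T.Normal → T ≤ Q → (P : Subgroup G) ⊔ T = ⊤ →
      (Q : Subgroup G) ≤ T := by
    intro T hTn hTQ hPT y hy
    have hy' : y ∈ (P : Subgroup G) ⊔ T := hPT ▸ Subgroup.mem_top y
    obtain ⟨a, ha, t, ht, rfl⟩ := Subgroup.mem_sup_of_normal_right.mp hy'
    have haQ : a ∈ (Q : Subgroup G) := by
      have := (Q : Subgroup G).mul_mem hy ((Q : Subgroup G).inv_mem (hTQ ht))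
      simpa using this
    have ha1 : a = 1 := by
      have := hdisj.le_bot ⟨ha, haQ⟩
      simpa using this
    rw [ha1, one_mul]; exact ht
  -- normality criterion
  have hnormal : ∀ T : Subgroup G, T ≤ Q →
      (P : Subgroup G) ≤ Subgroup.normalizer (T : Set G) → T.Normal := by
    intro T hTQ hPT
    rw [← Subgroup.normalizer_eq_top_iff, eq_top_iff, ← hPQ]
    refine sup_le hPT ?_
    intro y hy
    rw [← conj_smul_eq_iff_mem_normalizer]
    apply conj_smul_eq_of_ge
    rintro _ ⟨t, ht, rfl⟩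
    show y * t * y⁻¹ ∈ T
    rw [hQcomm y hy t (hTQ ht), mul_assoc, mul_inv_cancel, mul_one]; exact ht
  -- `T := [P, Q] = Q`
  have hTQ : ⁅(P : Subgroup G), (Q : Subgroup G)⁆ ≤ Q := Subgroup.commutator_le_right _ _
  have hTn : (⁅(P : Subgroup G), (Q : Subgroup G)⁆).Normal :=
    hnormal _ hTQ (Subgroup.normalizer_commutator_ge_left _ _)
  have hQT : (Q : Subgroup G) ≤ ⁅(P : Subgroup G), (Q : Subgroup G)⁆ := by
    apply hded _ hTn hTQ
    by_contra hne
    have hab := h _ hne
    have hxy : ∀ y ∈ (Q : Subgroup G), x * y = y * x := by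
      intro y hy
      have hcT : ⁅x, y⁆ ∈ ⁅(P : Subgroup G), (Q : Subgroup G)⁆ :=
        Subgroup.commutator_mem_commutator hxP hy
      have hxc : Commute x ⁅x, y⁆ := by
        have := hab.is_comm.comm ⟨x, le_sup_left (a := (P : Subgroup G)) hxP⟩
          ⟨⁅x, y⁆, le_sup_right (a := (P : Subgroup G)) hcT⟩
        exact congrArg Subtype.val this
      have e2 : x * y * x⁻¹ = ⁅x, y⁆ * y := by rw [commutatorElement_def]; group
      have hpow : ∀ k : ℕ, x ^ k * y * (x ^ k)⁻¹ = ⁅x, y⁆ ^ k * y := by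
        intro k
        induction k with
        | zero => simp
        | succ k ih =>
          have e1 : x ^ (k + 1) * y * (x ^ (k + 1))⁻¹ = x * (x ^ k * y * (x ^ k)⁻¹) * x⁻¹ := by
            rw [pow_succ']; group
          rw [e1, ih]
          have e3 : x * (⁅x, y⁆ ^ k * y) * x⁻¹ = ⁅x, y⁆ ^ k * (x * y * x⁻¹) := by
            have := (hxc.pow_right k).eq
            calc x * (⁅x, y⁆ ^ k * y) * x⁻¹ = (x * ⁅x, y⁆ ^ k) * y * x⁻¹ := by group
              _ = (⁅x, y⁆ ^ k * x) * y * x⁻¹ := by rw [this]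
              _ = ⁅x, y⁆ ^ k * (x * y * x⁻¹) := by group
          rw [e3, e2, ← mul_assoc, ← pow_succ]
      obtain ⟨k, hk⟩ := P.isPGroup' ⟨x, hxP⟩
      have hk' : x ^ p ^ k = 1 := by simpa using congrArg Subtype.val hk
      have h1 := hpow (p ^ k)
      rw [hk'] at h1
      have hc1 : ⁅x, y⁆ ^ p ^ k = 1 := by
        have : y = ⁅x, y⁆ ^ p ^ k * y := by simpa using h1
        exact (mul_eq_right.mp this.symm)
      obtain ⟨l, hl⟩ := Q.isPGroup' ⟨⁅x, y⁆, hTQ hcT⟩
      have hl' : ⁅x, y⁆ ^ q ^ l = 1 := by simpa using congrArg Subtype.val hl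
      have hc_one : ⁅x, y⁆ = 1 := by
        have d1 := orderOf_dvd_of_pow_eq_one hc1
        have d2 := orderOf_dvd_of_pow_eq_one hl'
        have hcop : Nat.Coprime (p ^ k) (q ^ l) :=
          Nat.Coprime.pow _ _ ((Nat.coprime_primes Fact.out Fact.out).mpr hpq)
        exact orderOf_eq_one_iff.mp (Nat.eq_one_of_dvd_coprimes hcop d1 d2)
      exact commutatorElement_eq_one_iff_mul_comm.mp hc_one
    apply hcenter
    have hC1 : (P : Subgroup G) ⊔ Q ≤ Subgroup.centralizer ((Q : Subgroup G) : Set G) := by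
      refine sup_le (hPx.trans (Subgroup.zpowers_le.mpr ?_)) ?_
      · exact Subgroup.mem_centralizer_iff.mpr fun y hy => (hxy y hy).symm
      · exact fun y hy => Subgroup.mem_centralizer_iff.mpr fun z hz => hQcomm z hz y hy
    have hC2 : (P : Subgroup G) ⊔ Q ≤ Subgroup.centralizer ({x} : Set G) := by
      refine sup_le (hPx.trans (Subgroup.zpowers_le.mpr ?_)) ?_
      · exact Subgroup.mem_centralizer_iff.mpr fun y hy => by
          rw [Set.mem_singleton_iff] at hy; rw [hy]
      · exact fun y hy => Subgroup.mem_centralizer_iff.mpr fun z hz => by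
          rw [Set.mem_singleton_iff] at hz; rw [hz]; exact hxy y hy
    rw [hPQ] at hC1 hC2
    have hQZ : (Q : Subgroup G) ≤ Subgroup.center G := by
      intro y hy
      rw [Subgroup.mem_center_iff]
      intro g
      exact (Subgroup.mem_centralizer_iff.mp (hC1 (Subgroup.mem_top g)) y hy).symm
    have hxZ : x ∈ Subgroup.center G := by
      rw [Subgroup.mem_center_iff]
      intro g
      exact (Subgroup.mem_centralizer_iff.mp (hC2 (Subgroup.mem_top g)) x rfl).symm
    rw [eq_top_iff, ← hPQ]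
    exact sup_le (hPx.trans (Subgroup.zpowers_le.mpr hxZ)) hQZ
  -- `q`-th powers
  have hPtop : (P : Subgroup G) ≠ ⊤ := by
    intro hP
    apply hna
    refine ⟨⟨fun a b => ?_⟩⟩
    obtain ⟨i, rfl⟩ := Subgroup.mem_zpowers_iff.mp (hPx (hP ▸ Subgroup.mem_top a))
    obtain ⟨j, rfl⟩ := Subgroup.mem_zpowers_iff.mp (hPx (hP ▸ Subgroup.mem_top b))
    exact (Commute.zpow_zpow_self x i j).eq
  have hQbot : (Q : Subgroup G) ≠ ⊥ := by
    intro hQ; apply hPtop; rw [← hPQ, hQ, sup_bot_eq]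
  let Φ : Subgroup G :=
    { carrier := {z | ∃ y ∈ (Q : Subgroup G), y ^ q = z}
      mul_mem' := by
        rintro _ _ ⟨a, ha, rfl⟩ ⟨b, hb, rfl⟩
        exact ⟨a * b, (Q : Subgroup G).mul_mem ha hb, Commute.mul_pow (hQcomm a ha b hb) q⟩
      one_mem' := ⟨1, (Q : Subgroup G).one_mem, one_pow q⟩
      inv_mem' := by
        rintro _ ⟨a, ha, rfl⟩
        exact ⟨a⁻¹, (Q : Subgroup G).inv_mem ha, inv_pow a q⟩ }
  have hΦQ : Φ ≤ Q := by
    rintro _ ⟨y, hy, rfl⟩
    exact (Q : Subgroup G).pow_mem hy q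
  have hΦn : Φ.Normal := by
    apply hnormal Φ hΦQ
    intro a _
    rw [← conj_smul_eq_iff_mem_normalizer]
    apply conj_smul_eq_of_ge
    rintro _ ⟨_, ⟨y, hy, rfl⟩, rfl⟩
    show a * y ^ q * a⁻¹ ∈ Φ
    exact ⟨a * y * a⁻¹, hQn.conj_mem y hy a, conj_pow⟩
  have hΦne : ¬ (Q : Subgroup G) ≤ Φ := by
    intro hle
    have hsurj : Function.Surjective (fun y : (Q : Subgroup G) => y ^ q) := by
      intro z
      obtain ⟨y, hy, hyz⟩ := hle z.2
      exact ⟨⟨y, hy⟩, Subtype.ext (by simpa using hyz)⟩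
    have hinj := Finite.injective_iff_surjective.mpr hsurj
    have hcard : q ∣ Nat.card (Q : Subgroup G) := by
      obtain ⟨k, hk⟩ := IsPGroup.iff_card.mp Q.isPGroup'
      rw [hk]
      apply dvd_pow_self
      intro hk0
      rw [hk0, pow_zero] at hk
      exact hQbot (Subgroup.card_eq_one.mp hk)
    obtain ⟨z, hz⟩ := exists_prime_orderOf_dvd_card' (G := (Q : Subgroup G)) q hcard
    have h0 : z ^ q = 1 := by
      have := pow_orderOf_eq_one z
      rwa [hz] at this
    have h1 : z ^ q = (1 : (Q : Subgroup G)) ^ q := by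
      rw [one_pow, h0]
    have h2 : z = 1 := hinj h1
    rw [h2, orderOf_one] at hz
    exact (Fact.out : q.Prime).one_lt.ne hz
  have hPΦ : (P : Subgroup G) ⊔ Φ ≠ ⊤ := fun h' => hΦne (hded Φ hΦn hΦQ h')
  have hab2 := h _ hPΦ
  have hcomm_pow : ∀ a ∈ (P : Subgroup G), ∀ y ∈ (Q : Subgroup G), a * y ^ q = y ^ q * a := by
    intro a ha y hy
    have := hab2.is_comm.comm ⟨a, le_sup_left (b := Φ) ha⟩
      ⟨y ^ q, le_sup_right (a := (P : Subgroup G)) (show y ^ q ∈ Φ from ⟨y, hy, rfl⟩)⟩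
    exact congrArg Subtype.val this
  let E : Subgroup G :=
    { carrier := {z | z ∈ (Q : Subgroup G) ∧ z ^ q = 1}
      mul_mem' := by
        rintro a b ⟨ha, ha'⟩ ⟨hb, hb'⟩
        refine ⟨(Q : Subgroup G).mul_mem ha hb, ?_⟩
        rw [Commute.mul_pow (hQcomm a ha b hb) q, ha', hb', one_mul]
      one_mem' := ⟨(Q : Subgroup G).one_mem, one_pow q⟩
      inv_mem' := by
        rintro a ⟨ha, ha'⟩
        exact ⟨(Q : Subgroup G).inv_mem ha, by rw [inv_pow, ha', inv_one]⟩ }
  have hTE : ⁅(P : Subgroup G), (Q : Subgroup G)⁆ ≤ E := by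
    rw [Subgroup.commutator_le]
    intro a ha y hy
    refine ⟨hTQ (Subgroup.commutator_mem_commutator ha hy), ?_⟩
    rw [commutatorElement_def]
    have hay : a * y * a⁻¹ ∈ (Q : Subgroup G) := hQn.conj_mem y hy a
    rw [Commute.mul_pow (hQcomm _ hay _ ((Q : Subgroup G).inv_mem hy)) q, conj_pow, inv_pow,
      hcomm_pow a ha y hy]
    group
  intro z hz
  exact (hTE (hQT hz)).2

end Cfsg.Agent.H12
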