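import Cfsg.Agent.H21.ResidueTrick

/-!
# Multiplicities of four characters in the irreducible characters of a subgroup (helper12)

Piece `S0496-MULT4` of helper21's team project S0496.
-/

set_option autoImplicit false
set_option linter.unusedSectionVars false
set_option linter.style.haveILetI false

namespace Cfsg.Agent.H12.Ord720

open Cfsg

open scoped ComplexConjugate

/-- Restriction data of one character of `G` to a subgroup `S`. -/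
theorem mult_one {G : Type*} [Group G] [Finite G] (S : Subgroup G) [Fintype S]
    [Fintype (IrrCharacter S)] (f : G → ℂ)
    (hf : IsCharacter G f) (n : ℕ) (hn : f 1 = n) :
    ∃ m : IrrCharacter S → ℕ,
      (∑ ψ : IrrCharacter S, m ψ * charDegree (ψ : S → ℂ) = n) ∧
      ∀ ψ : IrrCharacter S, ∑ s : S, f (s : G) * conj ((ψ : S → ℂ) s) =
        (Nat.card S : ℂ) * (m ψ : ℂ) := by
  classical
  have hN : (Nat.card S : ℂ) ≠ 0 := by exact_mod_cast Nat.card_pos.ne'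
  have hfS := Cfsg.Agent.H4.isCharacter_restrict S hf
  obtain ⟨m, hm⟩ := Cfsg.Agent.H4.isCharacter_iff.mp hfS
  have hinner : ∀ ψ : IrrCharacter S,
      classInner (fun s : S => f s) (ψ : S → ℂ) = (m ψ : ℂ) := by
    intro ψ
    rw [hm]
    exact Cfsg.Agent.H4.classInner_finsum_irr _ ψ
  have hdg : ∀ ψ : IrrCharacter S, (ψ : S → ℂ) 1 = (charDegree (ψ : S → ℂ) : ℂ) :=
    fun ψ => (Cfsg.Agent.H81.irr_charDegree ψ).1
  refine ⟨m, ?_, ?_⟩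
  · have hval1 : (n : ℂ) = ∑ ψ : IrrCharacter S, (m ψ : ℂ) * (charDegree (ψ : S → ℂ) : ℂ) := by
      have := congrFun hm 1
      rw [Cfsg.Agent.H4.finsum_irr_apply, Cfsg.Agent.H4.finsum_irr_eq_sum] at this
      simp only [Subgroup.coe_one, hn, hdg] at this
      convert this using 2
      ext x; simp
    have hn' : n = ∑ ψ : IrrCharacter S, m ψ * charDegree (ψ : S → ℂ) := by exact_mod_cast hval1
    exact hn'.symm
  · intro ψ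
    have h := hinner ψ
    unfold classInner at h
    rw [← h]
    have : ∑ g : S, (fun s : S => f (s : G)) g * conj ((ψ : S → ℂ) g) =
        ∑ s : S, f (s : G) * conj ((ψ : S → ℂ) s) := by
      refine Finset.sum_congr ?_ fun _ _ => rfl
      ext x; simp
    rw [mul_inv_cancel_left₀ hN]

theorem mult4_aux {G : Type*} [Group G] [Finite G] (S : Subgroup G) (f1 f2 f3 f4 : G → ℂ)
    (h1 : IsCharacter G f1) (h2 : IsCharacter G f2) (h3 : IsCharacter G f3) (h4 : IsCharacter G f4)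
    (n1 n2 n3 n4 : ℕ) (hn1 : f1 1 = n1) (hn2 : f2 1 = n2) (hn3 : f3 1 = n3) (hn4 : f4 1 = n4) :
    ∃ (Ψ : Finset (IrrCharacter S)) (ψ0 : IrrCharacter S) (δ : IrrCharacter S → ℤ)
      (dg m1 m2 m3 m4 : IrrCharacter S → ℕ),
      (∀ ψ, ψ ∈ Ψ) ∧ δ ψ0 = 1 ∧ (∀ ψ, ψ ≠ ψ0 → δ ψ = 0) ∧ dg ψ0 = 1 ∧
      (∀ ψ, 0 < dg ψ) ∧ (∀ ψ, dg ψ ∣ Nat.card S) ∧
      ∑ ψ ∈ Ψ, dg ψ ^ 2 = Nat.card S ∧
      ∑ ψ ∈ Ψ, m1 ψ * dg ψ = n1 ∧ ∑ ψ ∈ Ψ, m2 ψ * dg ψ = n2 ∧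
      ∑ ψ ∈ Ψ, m3 ψ * dg ψ = n3 ∧ ∑ ψ ∈ Ψ, m4 ψ * dg ψ = n4 ∧
      ∀ (q : ℕ) (c0 c1 c2 c3 c4 : ℤ),
        (∀ g ∈ S, g ≠ 1 → ∃ w : ℂ, IsIntegral ℤ w ∧
          (c0 : ℂ) + c1 * f1 g + c2 * f2 g + c3 * f3 g + c4 * f4 g = q * w) →
        ∀ ψ, (q : ℤ) ∣ (Nat.card S : ℤ) *
            (c0 * δ ψ + c1 * m1 ψ + c2 * m2 ψ + c3 * m3 ψ + c4 * m4 ψ) -
          (c0 + c1 * n1 + c2 * n2 + c3 * n3 + c4 * n4) * dg ψ := by
  classical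
  haveI : Fintype S := Fintype.ofFinite S
  letI := Cfsg.Agent.H4.fintypeIrr S
  have hN : (Nat.card S : ℂ) ≠ 0 := by exact_mod_cast Nat.card_pos.ne'
  obtain ⟨m1, hm1, hs1⟩ := mult_one S f1 h1 n1 hn1
  obtain ⟨m2, hm2, hs2⟩ := mult_one S f2 h2 n2 hn2
  obtain ⟨m3, hm3, hs3⟩ := mult_one S f3 h3 n3 hn3
  obtain ⟨m4, hm4, hs4⟩ := mult_one S f4 h4 n4 hn4
  let ψ₀ : IrrCharacter S := ⟨fun _ => 1, Cfsg.Agent.H4.isIrrCharacter_one⟩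
  let dg : IrrCharacter S → ℕ := fun ψ => charDegree (ψ : S → ℂ)
  let δ : IrrCharacter S → ℤ := fun ψ => if ψ = ψ₀ then 1 else 0
  have hdg : ∀ ψ : IrrCharacter S, (ψ : S → ℂ) 1 = (dg ψ : ℂ) :=
    fun ψ => (Cfsg.Agent.H81.irr_charDegree ψ).1
  have hdgpos : ∀ ψ : IrrCharacter S, 0 < dg ψ := fun ψ => (Cfsg.Agent.H81.irr_charDegree ψ).2
  have hdg0 : dg ψ₀ = 1 := by
    have h1 : ((1 : ℕ) : ℂ) = (dg ψ₀ : ℂ) := by rw [← hdg ψ₀]; simp [ψ₀]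
    exact_mod_cast h1.symm
  have hsq : (Nat.card S : ℂ) = ∑ ψ : IrrCharacter S, (dg ψ : ℂ) ^ 2 := by
    rw [← Cfsg.Agent.H4.sum_irr_sq (G := S), Cfsg.Agent.H4.finsum_irr_eq_sum]
    simp only [hdg]
  have hsq' : Nat.card S = ∑ ψ : IrrCharacter S, dg ψ ^ 2 := by exact_mod_cast hsq
  -- sum of conj ψ
  have hδ : ∀ ψ : IrrCharacter S, ∑ s : S, conj ((ψ : S → ℂ) s) =
      (Nat.card S : ℂ) * ((δ ψ : ℤ) : ℂ) := by
    intro ψ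
    have h0 := Cfsg.Agent.H4.irr_inner ψ₀ ψ
    unfold classInner at h0
    have h0' : ∑ h : S, conj ((ψ : S → ℂ) h) =
        (Nat.card S : ℂ) * (if ψ₀ = ψ then (1 : ℂ) else 0) := by
      rw [← h0, mul_inv_cancel_left₀ hN]
      simp [ψ₀]
    rw [h0']
    by_cases he : ψ = ψ₀
    · simp [δ, he]
    · have he' : ¬ ψ₀ = ψ := fun h => he h.symm
      simp [δ, he, he']
  refine ⟨Finset.univ, ψ₀, δ, dg, m1, m2, m3, m4, fun ψ => Finset.mem_univ ψ, by simp [δ],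
    fun ψ hψ => by simp [δ, hψ], hdg0, hdgpos,
    fun ψ => Cfsg.Agent.H81.irr_charDegree_dvd ψ, hsq'.symm, hm1, hm2, hm3, hm4, ?_⟩
  intro q c0 c1 c2 c3 c4 hq ψ
  -- the total sum
  have hsum : ∑ s : S, ((c0 : ℂ) + c1 * f1 (s : G) + c2 * f2 (s : G) + c3 * f3 (s : G)
        + c4 * f4 (s : G)) * conj ((ψ : S → ℂ) s) =
      (Nat.card S : ℂ) * ((c0 : ℂ) * ((δ ψ : ℤ) : ℂ) + c1 * m1 ψ + c2 * m2 ψ + c3 * m3 ψ
        + c4 * m4 ψ) := by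
    simp only [add_mul, mul_assoc]
    rw [Finset.sum_add_distrib, Finset.sum_add_distrib, Finset.sum_add_distrib,
      Finset.sum_add_distrib, ← Finset.mul_sum, ← Finset.mul_sum, ← Finset.mul_sum,
      ← Finset.mul_sum, ← Finset.mul_sum, hδ ψ, hs1 ψ, hs2 ψ, hs3 ψ, hs4 ψ]
    ring
  rw [← Finset.add_sum_erase Finset.univ _ (Finset.mem_univ (1 : S))] at hsum
  have hrest : ∃ w : ℂ, IsIntegral ℤ w ∧ ∑ s ∈ Finset.univ.erase (1 : S),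
      ((c0 : ℂ) + c1 * f1 (s : G) + c2 * f2 (s : G) + c3 * f3 (s : G)
        + c4 * f4 (s : G)) * conj ((ψ : S → ℂ) s) = (q : ℂ) * w := by
    refine Finset.sum_induction _ (fun z : ℂ => ∃ w : ℂ, IsIntegral ℤ w ∧ z = (q : ℂ) * w) ?_ ?_ ?_
    · rintro z₁ z₂ ⟨w₁, hw₁, rfl⟩ ⟨w₂, hw₂, rfl⟩
      exact ⟨w₁ + w₂, hw₁.add hw₂, by ring⟩
    · exact ⟨0, isIntegral_zero, by simp⟩
    · intro h hh
      rw [Finset.mem_erase] at hh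
      obtain ⟨w, hw, hw2⟩ := hq h h.2 (fun h1 => hh.1 (Subtype.ext h1))
      have hint : IsIntegral ℤ (conj ((ψ : S → ℂ) h)) := by
        rw [← Cfsg.Agent.H81.irr_inv ψ h]
        exact Cfsg.Agent.H81.irr_isIntegral ψ h⁻¹
      exact ⟨w * conj ((ψ : S → ℂ) h), hw.mul hint, by rw [hw2]; ring⟩
  obtain ⟨w, hw, hw2⟩ := hrest
  rw [hw2] at hsum
  simp only [Subgroup.coe_one, hn1, hn2, hn3, hn4, hdg, Complex.conj_natCast] at hsum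
  -- the integer
  set z : ℤ := (Nat.card S : ℤ) *
            (c0 * δ ψ + c1 * m1 ψ + c2 * m2 ψ + c3 * m3 ψ + c4 * m4 ψ) -
          (c0 + c1 * n1 + c2 * n2 + c3 * n3 + c4 * n4) * dg ψ with hz
  have hzw : (z : ℂ) = (q : ℂ) * w := by
    rw [hz]
    push_cast
    linear_combination -hsum
  by_cases hq0 : q = 0
  · subst hq0
    have : (z : ℂ) = 0 := by rw [hzw]; simp
    have hz0 : z = 0 := by exact_mod_cast this
    rw [hz0]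
    exact dvd_zero _
  · have hq0' : (q : ℤ) ≠ 0 := by exact_mod_cast hq0
    apply Cfsg.Agent.H81.int_dvd_of_isIntegral_div hq0'
    have : (z : ℂ) / ((q : ℤ) : ℂ) = w := by
      rw [div_eq_iff (by exact_mod_cast hq0'), hzw]
      push_cast
      ring
    rw [this]
    exact hw

/-- **S0496-MULT4** (exact posted statement). -/
theorem mult4 {G : Type*} [Group G] [Finite G] (S : Subgroup G) (f1 f2 f3 f4 : G → ℂ)
    (h1 : IsCharacter G f1) (h2 : IsCharacter G f2) (h3 : IsCharacter G f3) (h4 : IsCharacter G f4)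
    (n1 n2 n3 n4 : ℕ) (hn1 : f1 1 = n1) (hn2 : f2 1 = n2) (hn3 : f3 1 = n3) (hn4 : f4 1 = n4) :
    ∃ (Ψ : Finset (IrrCharacter S)) (ψ0 : IrrCharacter S) (δ : IrrCharacter S → ℤ)
      (dg m1 m2 m3 m4 : IrrCharacter S → ℕ),
      (∀ ψ, ψ ∈ Ψ) ∧ δ ψ0 = 1 ∧ (∀ ψ, ψ ≠ ψ0 → δ ψ = 0) ∧ dg ψ0 = 1 ∧
      (∀ ψ, 0 < dg ψ) ∧ (∀ ψ, dg ψ ∣ Nat.card S) ∧
      ∑ ψ ∈ Ψ, dg ψ ^ 2 = Nat.card S ∧
      ∑ ψ ∈ Ψ, m1 ψ * dg ψ = n1 ∧ ∑ ψ ∈ Ψ, m2 ψ * dg ψ = n2 ∧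
      ∑ ψ ∈ Ψ, m3 ψ * dg ψ = n3 ∧ ∑ ψ ∈ Ψ, m4 ψ * dg ψ = n4 ∧
      ∀ (q : ℕ) (c0 c1 c2 c3 c4 : ℤ),
        (∀ g ∈ S, g ≠ 1 → ∃ w : ℂ, IsIntegral ℤ w ∧
          (c0 : ℂ) + c1 * f1 g + c2 * f2 g + c3 * f3 g + c4 * f4 g = q * w) →
        ∀ ψ, (q : ℤ) ∣ (Nat.card S : ℤ) *
            (c0 * δ ψ + c1 * m1 ψ + c2 * m2 ψ + c3 * m3 ψ + c4 * m4 ψ) -
          (c0 + c1 * n1 + c2 * n2 + c3 * n3 + c4 * n4) * dg ψ :=
  mult4_aux S f1 f2 f3 f4 h1 h2 h3 h4 n1 n2 n3 n4 hn1 hn2 hn3 hn4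

end Cfsg.Agent.H12.Ord720
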