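import Mathlib
import Cfsg.Prelude.Def_Classical

/-!
# S5989 / S5991 (team project, helper86): generic tools for the unipotent examples

`unitOfNil N hN` is the element `1 + N` of `GL` for an endomorphism `N` of `ι → F` with `N ^ 3 = 0`.
-/

set_option autoImplicit false

namespace Cfsg.Agent.H12.Nd

universe u

section Gen

variable {F : Type u} [Field F] {ι : Type} [Fintype ι] [DecidableEq ι]

theorem one_add_mul_nil (N : Module.End F (ι → F)) (hN : N ^ 3 = 0) :
    (1 + N) * (1 - N + N * N) = 1 := by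
  have h : (1 + N) * (1 - N + N * N) = 1 + N * (N * N) := by
    simp only [add_mul, mul_add, mul_sub, one_mul, mul_one]
    abel
  have h3 : N * (N * N) = N ^ 3 := by rw [pow_succ', pow_two]
  rw [h, h3, hN, add_zero]

theorem nil_mul_one_add (N : Module.End F (ι → F)) (hN : N ^ 3 = 0) :
    (1 - N + N * N) * (1 + N) = 1 := by
  have h : (1 - N + N * N) * (1 + N) = 1 + N * N * N := by
    simp only [add_mul, mul_add, sub_mul, one_mul, mul_one]
    abel
  have h3 : N * N * N = N ^ 3 := by rw [pow_succ, pow_two]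
  rw [h, h3, hN, add_zero]

/-- the unipotent element `1 + N` of `GL`, for `N ^ 3 = 0` -/
noncomputable def unitOfNil (N : Module.End F (ι → F)) (hN : N ^ 3 = 0) :
    Matrix.GeneralLinearGroup ι F :=
  ⟨LinearMap.toMatrix' (1 + N), LinearMap.toMatrix' (1 - N + N * N),
    by rw [← LinearMap.toMatrix'_mul, one_add_mul_nil N hN, LinearMap.toMatrix'_one],
    by rw [← LinearMap.toMatrix'_mul, nil_mul_one_add N hN, LinearMap.toMatrix'_one]⟩

theorem unitOfNil_val (N : Module.End F (ι → F)) (hN : N ^ 3 = 0) :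
    ((unitOfNil N hN : Matrix.GeneralLinearGroup ι F) : Matrix ι ι F) =
      LinearMap.toMatrix' (1 + N) := rfl

theorem toLin'_unitOfNil (N : Module.End F (ι → F)) (hN : N ^ 3 = 0) :
    Matrix.toLin' ((unitOfNil N hN : Matrix.GeneralLinearGroup ι F) : Matrix ι ι F) - 1 = N := by
  rw [unitOfNil_val, Matrix.toLin'_toMatrix', add_sub_cancel_left]

theorem unitOfNil_mem (N : Module.End F (ι → F)) (hN : N ^ 3 = 0) (Q : (ι → F) → F)
    (h : ∀ u, Q (u + N u) = Q u) : unitOfNil N hN ∈ Cfsg.isometryGroup F Q := by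
  intro u v
  show Q ((LinearMap.toMatrix' (1 + N)).mulVec u) = Q u
  rw [LinearMap.toMatrix'_mulVec]
  exact h u

omit [Fintype ι] [DecidableEq ι] in
theorem pow_three_of_sq (N : Module.End F (ι → F)) (hN : N * N = 0) : N ^ 3 = 0 := by
  rw [pow_succ, pow_two, hN, zero_mul]

/-- the rank of `φ ∘ ψ`, `φ` injective, `ψ` surjective -/
theorem finrank_range_comp {V W X : Type*} [AddCommGroup V] [Module F V] [AddCommGroup W]
    [Module F W] [AddCommGroup X] [Module F X] (φ : W →ₗ[F] X) (ψ : V →ₗ[F] W)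
    (hφ : Function.Injective φ) (hψ : Function.Surjective ψ) :
    Module.finrank F ↥(LinearMap.range (φ ∘ₗ ψ)) = Module.finrank F W := by
  rw [LinearMap.range_comp_of_range_eq_top φ (LinearMap.range_eq_top.mpr hψ)]
  exact LinearMap.finrank_range_of_inj hφ

end Gen

end Cfsg.Agent.H12.Nd
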