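import Mathlib
import Cfsg.Agent.H86.NdDefs
import Cfsg.Agent.H53.Ev2ExJPlus
import Cfsg.Agent.H12.NdUnipGen

/-!
# S5989 / S5991 (team project, helper86): piece ND-UEX2M — an isometry of the minus space of
Jordan type `(1, 1, 2^k)`, `k` even.

`x u = u + N u`, `N u = ((S u₂, 0), 0)` with `S` the alternating monomial matrix
`(S w) i = sg i * w (tw i)` (helper53's `tw`, `sg`).
-/

set_option autoImplicit false

namespace Cfsg.Agent.H12.Nd

open Cfsg.Agent.H45 Cfsg.Agent.H42.Spd Cfsg.Agent.H42.Ti Cfsg.Agent.H14.Ot Cfsg.Agent.H95.Oh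
  Cfsg.Agent.H86.Ev2 Cfsg.Agent.H86.Nd Module Cfsg.Agent.H53.Ev2

universe u

section

variable {F : Type u} [Field F]

/-- `w ↦ ((w, 0), 0)` -/
def phi2M (F : Type u) [Field F] (k : ℕ) : (Fin k → F) →ₗ[F] (MI k → F) where
  toFun w := Sum.elim (Sum.elim w (fun _ => 0)) (fun _ => 0)
  map_add' w w' := by
    ext ((i | i) | j) <;> simp
  map_smul' c w := by
    ext ((i | i) | j) <;> simp

/-- `u ↦ S u₂` -/
def psi2M (F : Type u) [Field F] (k : ℕ) : (MI k → F) →ₗ[F] (Fin k → F) where
  toFun u := fun i => sg F k i * u (Sum.inl (Sum.inr (tw k i)))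
  map_add' u u' := by
    ext i; simp [mul_add]
  map_smul' c u := by
    ext i; simp [mul_left_comm]

theorem phi2M_inj (k : ℕ) : Function.Injective (phi2M F k) := by
  intro w w' h
  ext i
  have := congrFun h (Sum.inl (Sum.inl i))
  exact this

theorem psi2M_surj (k : ℕ) (hk : k % 2 = 0) : Function.Surjective (psi2M F k) := by
  intro w
  refine ⟨Sum.elim (Sum.elim (fun _ => 0) (fun i => -(sg F k i * w (tw k i)))) (fun _ => 0), ?_⟩
  ext i
  show sg F k i * -(sg F k (tw k i) * w (tw k (tw k i))) = w i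
  rw [tw_tw k hk, mul_neg, ← mul_assoc, sg_mul_tw k hk i]
  simp

/-- the nilpotent part -/
def N2M (F : Type u) [Field F] (k : ℕ) : Module.End F (MI k → F) := phi2M F k ∘ₗ psi2M F k

theorem N2M_apply (k : ℕ) (u : MI k → F) :
    N2M F k u = Sum.elim (Sum.elim (fun i => sg F k i * u (Sum.inl (Sum.inr (tw k i))))
      (fun _ => 0)) (fun _ => 0) := rfl

theorem N2M_sq (k : ℕ) : N2M F k * N2M F k = 0 := by
  apply LinearMap.ext
  intro u
  show N2M F k (N2M F k u) = 0
  rw [N2M_apply (u := N2M F k u)]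
  ext ((i | i) | j)
  · show sg F k i * N2M F k u (Sum.inl (Sum.inr (tw k i))) = 0
    rw [N2M_apply]
    simp
  · rfl
  · rfl

/-- the alternating sum vanishes -/
theorem alt_sum (k : ℕ) (hk : k % 2 = 0) (b : Fin k → F) :
    ∑ i : Fin k, sg F k i * b (tw k i) * b i = 0 := by
  apply Finset.sum_involution (fun i _ => tw k i)
  · intro i _
    rw [tw_tw k hk]
    have h1 := sg_mul_tw (F := F) k hk i
    have h2 := sg_mul_self (F := F) k i
    have h3 : sg F k (tw k i) = -sg F k i := by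
      have : sg F k i * sg F k (tw k i) = sg F k i * (-sg F k i) := by rw [h1, mul_neg, h2]
      exact mul_left_cancel₀ (fun h0 => by rw [h0, zero_mul] at h2; exact zero_ne_one h2) this
    rw [h3]
    ring
  · intro i _ _ h
    have h5 := congrArg Fin.val h
    rw [tw_val k hk] at h5
    split_ifs at h5 <;> omega
  · intro i _
    exact Finset.mem_univ _
  · intro i _
    exact tw_tw k hk i

/-- (ND-UEX2M) -/
theorem uex2M : StUex2M.{u} := by
  intro F _ k a b hk hk2
  have hk' : k % 2 = 0 := Nat.even_iff.mp hk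
  refine ⟨unitOfNil (N2M F k) (pow_three_of_sq _ (N2M_sq k)), ?_, ?_, ?_⟩
  · apply unitOfNil_mem
    intro u
    unfold Cfsg.quadFormMinus
    have e1 : ∀ i : Fin k, (u + N2M F k u) (Sum.inl (Sum.inl i)) =
        u (Sum.inl (Sum.inl i)) + sg F k i * u (Sum.inl (Sum.inr (tw k i))) := fun i => rfl
    have e2 : ∀ i : Fin k, (u + N2M F k u) (Sum.inl (Sum.inr i)) = u (Sum.inl (Sum.inr i)) :=
      fun i => by
        show u _ + 0 = _
        rw [add_zero]
    have e3 : ∀ j : Fin 2, (u + N2M F k u) (Sum.inr j) = u (Sum.inr j) := fun j => by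
      show u _ + 0 = _
      rw [add_zero]
    simp only [e1, e2, e3]
    have e4 : ∑ i : Fin k, (u (Sum.inl (Sum.inl i)) + sg F k i * u (Sum.inl (Sum.inr (tw k i)))) *
          u (Sum.inl (Sum.inr i)) =
        ∑ i : Fin k, u (Sum.inl (Sum.inl i)) * u (Sum.inl (Sum.inr i)) +
          ∑ i : Fin k, sg F k i * u (Sum.inl (Sum.inr (tw k i))) * u (Sum.inl (Sum.inr i)) := by
      rw [← Finset.sum_add_distrib]
      exact Finset.sum_congr rfl (fun i _ => by ring)
    rw [e4, alt_sum k hk' (fun i => u (Sum.inl (Sum.inr i))), add_zero]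
  · rw [toLin'_unitOfNil]
    exact N2M_sq k
  · rw [toLin'_unitOfNil]
    have h := finrank_range_comp (phi2M F k) (psi2M F k) (phi2M_inj k) (psi2M_surj k hk')
    rw [show N2M F k = phi2M F k ∘ₗ psi2M F k from rfl, h, Module.finrank_fin_fun]

end

example : StUex2M.{u} =
    (∀ (F : Type u) [Field F] (k : ℕ) (a b : F), Even k → 2 ≤ k →
    ∃ x : Matrix.GeneralLinearGroup (MI k) F,
      x ∈ Cfsg.isometryGroup F (Cfsg.quadFormMinus k F a b) ∧
      (Matrix.toLin' (x : Matrix (MI k) (MI k) F) - 1) *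
        (Matrix.toLin' (x : Matrix (MI k) (MI k) F) - 1) = 0 ∧
      2 * Module.finrank F ↥(LinearMap.range
        (Matrix.toLin' (x : Matrix (MI k) (MI k) F) - 1)) + 2 = 2 * k + 2) :=
  rfl

end Cfsg.Agent.H12.Nd
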