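import Mathlib
import Cfsg.Agent.H86.NdDefs
import Cfsg.Agent.H12.NdUnipGen

/-!
# S5989 / S5991 (team project, helper86): piece ND-UEX3 — an isometry of the plus space of Jordan
type `(3, 3, 2^(d-3))`, `d` odd.

`x (p, q) = (A p, A⁻ᵀ q)` with `A = 1 + E`, `(E p) i = p (i+1)` for `i = 0` or `i` odd (one Jordan
block on the indices `0, 1, 2`, blocks of size two on `(3,4), (5,6), …`).  `N = x - 1` is
`(p, q) ↦ (E p, E' q)`, `E' = (A⁻¹ - 1)ᵀ`.
-/

set_option autoImplicit false

namespace Cfsg.Agent.H12.Nd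

open Cfsg.Agent.H45 Cfsg.Agent.H42.Spd Cfsg.Agent.H42.Ti Cfsg.Agent.H14.Ot Cfsg.Agent.H95.Oh
  Cfsg.Agent.H86.Ev2 Cfsg.Agent.H86.Nd Module

universe u

section

variable {F : Type u} [Field F] {d : ℕ}

/-- extension by zero of a vector to all natural indices -/
def ex (v : Fin d → F) (k : ℕ) : F := if h : k < d then v ⟨k, h⟩ else 0

theorem ex_lt (v : Fin d → F) {k : ℕ} (h : k < d) : ex v k = v ⟨k, h⟩ := dif_pos h

theorem ex_val (v : Fin d → F) (i : Fin d) : ex v i.val = v i := dif_pos i.isLt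

theorem ex_of (v : Fin d → F) (f : ℕ → F) (hv : ∀ i : Fin d, v i = f i.val) (k : ℕ) :
    ex v k = if k < d then f k else 0 := by
  by_cases h : k < d
  · rw [if_pos h, ex_lt v h, hv]
  · rw [if_neg h]; exact dif_neg h

/-- the first half of a vector -/
def pP (u : Fin d ⊕ Fin d → F) : ℕ → F := ex (fun i => u (Sum.inl i))

/-- the second half of a vector -/
def pQ (u : Fin d ⊕ Fin d → F) : ℕ → F := ex (fun i => u (Sum.inr i))

theorem pP_add (u u' : Fin d ⊕ Fin d → F) : pP (u + u') = fun n => pP u n + pP u' n := by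
  funext n
  unfold pP ex
  split_ifs <;> simp

theorem pQ_add (u u' : Fin d ⊕ Fin d → F) : pQ (u + u') = fun n => pQ u n + pQ u' n := by
  funext n
  unfold pQ ex
  split_ifs <;> simp

theorem pP_smul (c : F) (u : Fin d ⊕ Fin d → F) : pP (c • u) = fun n => c * pP u n := by
  funext n
  unfold pP ex
  split_ifs <;> simp

theorem pQ_smul (c : F) (u : Fin d ⊕ Fin d → F) : pQ (c • u) = fun n => c * pQ u n := by
  funext n
  unfold pQ ex
  split_ifs <;> simp

/-- `E` on coordinate functions -/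
def EPf (P : ℕ → F) (k : ℕ) : F := if k = 0 ∨ k % 2 = 1 then P (k + 1) else 0

/-- `E'` on coordinate functions -/
def EQf (Q : ℕ → F) (k : ℕ) : F :=
  if k = 1 then -Q 0 else if k = 2 then Q 0 - Q 1 else
    if k % 2 = 0 ∧ 4 ≤ k then -Q (k - 1) else 0

theorem EPf_add (P P' : ℕ → F) (k : ℕ) :
    EPf (fun n => P n + P' n) k = EPf P k + EPf P' k := by
  unfold EPf
  split_ifs <;> simp

theorem EPf_smul (c : F) (P : ℕ → F) (k : ℕ) : EPf (fun n => c * P n) k = c * EPf P k := by
  unfold EPf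
  split_ifs <;> simp

theorem EQf_add (Q Q' : ℕ → F) (k : ℕ) :
    EQf (fun n => Q n + Q' n) k = EQf Q k + EQf Q' k := by
  unfold EQf
  split_ifs <;> ring

theorem EQf_smul (c : F) (Q : ℕ → F) (k : ℕ) : EQf (fun n => c * Q n) k = c * EQf Q k := by
  unfold EQf
  split_ifs <;> ring

/-- the telescoping function -/
def Hf (P Q : ℕ → F) (k : ℕ) : F :=
  if k = 0 then 0 else if k = 1 then P 1 * Q 0 else if k = 2 then P 2 * Q 1 - P 2 * Q 0 else
    if k % 2 = 1 then 0 else P k * Q (k - 1)

theorem tele_key (P Q : ℕ → F) (k : ℕ) :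
    (P k + EPf P k) * (Q k + EQf Q k) = P k * Q k + (Hf P Q (k + 1) - Hf P Q k) := by
  rcases k with _ | _ | _ | k
  · simp [EPf, EQf, Hf]; ring
  · simp [EPf, EQf, Hf]; ring
  · simp [EPf, EQf, Hf]; ring
  · rcases Nat.mod_two_eq_zero_or_one k with h | h
    · have h1 : (k + 3) % 2 = 1 := by omega
      have h2 : (k + 3 + 1) % 2 = 0 := by omega
      unfold EPf EQf Hf
      rw [if_pos (Or.inr h1), if_neg (by omega), if_neg (by omega), if_neg (by omega),
        if_neg (by omega), if_neg (by omega), if_neg (by omega), if_neg (by omega),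
        if_neg (by omega), if_neg (by omega), if_neg (by omega), if_pos h1]
      simp only [Nat.add_sub_cancel]
      ring
    · have h1 : (k + 3) % 2 = 0 := by omega
      have h2 : (k + 3 + 1) % 2 = 1 := by omega
      unfold EPf EQf Hf
      rw [if_neg (by omega), if_neg (by omega), if_neg (by omega), if_pos ⟨h1, by omega⟩,
        if_neg (by omega), if_neg (by omega), if_neg (by omega), if_pos h2,
        if_neg (by omega), if_neg (by omega), if_neg (by omega), if_neg (by omega)]
      ring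

theorem tele (P Q : ℕ → F) (n : ℕ) (hn : n % 2 = 1) (hn3 : 3 ≤ n) :
    ∑ k ∈ Finset.range n, (P k + EPf P k) * (Q k + EQf Q k) =
      ∑ k ∈ Finset.range n, P k * Q k := by
  rw [Finset.sum_congr rfl (fun k _ => tele_key P Q k), Finset.sum_add_distrib,
    Finset.sum_range_sub]
  have h0 : Hf P Q 0 = 0 := if_pos rfl
  have hn' : Hf P Q n = 0 := by
    unfold Hf
    rw [if_neg (by omega), if_neg (by omega), if_neg (by omega), if_pos hn]
  rw [h0, hn', sub_zero, add_zero]

/-- the coordinates of `N u` -/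
def psi3 (F : Type u) [Field F] (d : ℕ) : (Fin d ⊕ Fin d → F) →ₗ[F] (Option (Fin d) → F) where
  toFun u := fun o => match o with
    | none => EQf (pQ u) 1
    | some i => if i.val = 0 ∨ i.val % 2 = 1 then EPf (pP u) i.val else EQf (pQ u) i.val
  map_add' u u' := by
    ext (_ | i)
    · show EQf (pQ (u + u')) 1 = EQf (pQ u) 1 + EQf (pQ u') 1
      rw [pQ_add, EQf_add]
    · show (if i.val = 0 ∨ i.val % 2 = 1 then EPf (pP (u + u')) i.val else EQf (pQ (u + u')) i.val)
        = (if i.val = 0 ∨ i.val % 2 = 1 then EPf (pP u) i.val else EQf (pQ u) i.val) +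
          (if i.val = 0 ∨ i.val % 2 = 1 then EPf (pP u') i.val else EQf (pQ u') i.val)
      rw [pP_add, pQ_add, EPf_add, EQf_add]
      split_ifs <;> rfl
  map_smul' c u := by
    ext (_ | i)
    · show EQf (pQ (c • u)) 1 = c * EQf (pQ u) 1
      rw [pQ_smul, EQf_smul]
    · show (if i.val = 0 ∨ i.val % 2 = 1 then EPf (pP (c • u)) i.val else EQf (pQ (c • u)) i.val)
        = c * (if i.val = 0 ∨ i.val % 2 = 1 then EPf (pP u) i.val else EQf (pQ u) i.val)
      rw [pP_smul, pQ_smul, EPf_smul, EQf_smul]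
      split_ifs <;> rfl

/-- the embedding of the coordinates of `N u` -/
def phi3 (F : Type u) [Field F] (d : ℕ) : (Option (Fin d) → F) →ₗ[F] (Fin d ⊕ Fin d → F) where
  toFun w := fun s => match s with
    | Sum.inl i => if i.val = 0 ∨ i.val % 2 = 1 then w (some i) else 0
    | Sum.inr j => if j.val = 1 then w none else
        if j.val % 2 = 0 ∧ 2 ≤ j.val then w (some j) else 0
  map_add' w w' := by
    ext (i | j)
    · show (if i.val = 0 ∨ i.val % 2 = 1 then (w + w') (some i) else 0) =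
        (if i.val = 0 ∨ i.val % 2 = 1 then w (some i) else 0) +
          (if i.val = 0 ∨ i.val % 2 = 1 then w' (some i) else 0)
      split_ifs <;> simp
    · show (if j.val = 1 then (w + w') none else
          if j.val % 2 = 0 ∧ 2 ≤ j.val then (w + w') (some j) else 0) =
        (if j.val = 1 then w none else if j.val % 2 = 0 ∧ 2 ≤ j.val then w (some j) else 0) +
        (if j.val = 1 then w' none else if j.val % 2 = 0 ∧ 2 ≤ j.val then w' (some j) else 0)
      split_ifs <;> simp
  map_smul' c w := by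
    ext (i | j)
    · show (if i.val = 0 ∨ i.val % 2 = 1 then (c • w) (some i) else 0) =
        c * (if i.val = 0 ∨ i.val % 2 = 1 then w (some i) else 0)
      split_ifs <;> simp
    · show (if j.val = 1 then (c • w) none else
          if j.val % 2 = 0 ∧ 2 ≤ j.val then (c • w) (some j) else 0) =
        c * (if j.val = 1 then w none else if j.val % 2 = 0 ∧ 2 ≤ j.val then w (some j) else 0)
      split_ifs <;> simp

/-- the nilpotent part `N = x - 1` -/
def N3 (F : Type u) [Field F] (d : ℕ) : Module.End F (Fin d ⊕ Fin d → F) := phi3 F d ∘ₗ psi3 F d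

theorem N3_inl (u : Fin d ⊕ Fin d → F) (i : Fin d) :
    N3 F d u (Sum.inl i) = EPf (pP u) i.val := by
  show (if i.val = 0 ∨ i.val % 2 = 1 then
      (if i.val = 0 ∨ i.val % 2 = 1 then EPf (pP u) i.val else EQf (pQ u) i.val) else 0) = _
  by_cases h : i.val = 0 ∨ i.val % 2 = 1
  · rw [if_pos h, if_pos h]
  · rw [if_neg h]
    unfold EPf
    rw [if_neg h]

theorem N3_inr (u : Fin d ⊕ Fin d → F) (j : Fin d) :
    N3 F d u (Sum.inr j) = EQf (pQ u) j.val := by
  show (if j.val = 1 then EQf (pQ u) 1 else if j.val % 2 = 0 ∧ 2 ≤ j.val then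
      (if j.val = 0 ∨ j.val % 2 = 1 then EPf (pP u) j.val else EQf (pQ u) j.val) else 0) = _
  by_cases h1 : j.val = 1
  · rw [if_pos h1, h1]
  · rw [if_neg h1]
    by_cases h2 : j.val % 2 = 0 ∧ 2 ≤ j.val
    · rw [if_pos h2, if_neg (by omega)]
    · rw [if_neg h2]
      unfold EQf
      rw [if_neg h1, if_neg (by omega), if_neg (by omega)]

theorem pP_N (u : Fin d ⊕ Fin d → F) (k : ℕ) :
    pP (N3 F d u) k = if k < d then EPf (pP u) k else 0 :=
  ex_of _ _ (fun i => N3_inl u i) k

theorem pQ_N (u : Fin d ⊕ Fin d → F) (k : ℕ) :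
    pQ (N3 F d u) k = if k < d then EQf (pQ u) k else 0 :=
  ex_of _ _ (fun i => N3_inr u i) k

/-- `x = 1 + N` is an isometry -/
theorem N3_isom (hd : d % 2 = 1) (hd3 : 3 ≤ d) (u : Fin d ⊕ Fin d → F) :
    Cfsg.quadFormPlus d F (u + N3 F d u) = Cfsg.quadFormPlus d F u := by
  unfold Cfsg.quadFormPlus
  have e1 : ∀ i : Fin d, (u + N3 F d u) (Sum.inl i) * (u + N3 F d u) (Sum.inr i) =
      (fun k => (pP u k + EPf (pP u) k) * (pQ u k + EQf (pQ u) k)) i.val := by
    intro i
    show (u (Sum.inl i) + N3 F d u (Sum.inl i)) * (u (Sum.inr i) + N3 F d u (Sum.inr i)) = _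
    rw [N3_inl, N3_inr]
    show _ = (pP u i.val + EPf (pP u) i.val) * (pQ u i.val + EQf (pQ u) i.val)
    unfold pP pQ
    rw [ex_val, ex_val]
  have e2 : ∀ i : Fin d, u (Sum.inl i) * u (Sum.inr i) = (fun k => pP u k * pQ u k) i.val := by
    intro i
    show _ = pP u i.val * pQ u i.val
    unfold pP pQ
    rw [ex_val, ex_val]
  rw [Finset.sum_congr rfl (fun i _ => e1 i), Finset.sum_congr rfl (fun i _ => e2 i),
    Fin.sum_univ_eq_sum_range (fun k => (pP u k + EPf (pP u) k) * (pQ u k + EQf (pQ u) k)) d,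
    Fin.sum_univ_eq_sum_range (fun k => pP u k * pQ u k) d]
  exact tele (pP u) (pQ u) d hd hd3

theorem NN_inl (hd3 : 3 ≤ d) (u : Fin d ⊕ Fin d → F) (i : Fin d) :
    N3 F d (N3 F d u) (Sum.inl i) = if i.val = 0 then pP u 2 else 0 := by
  rw [N3_inl]
  unfold EPf
  rw [pP_N]
  by_cases h0 : i.val = 0
  · rw [if_pos (Or.inl h0), if_pos h0, if_pos (by omega), h0]
    unfold EPf
    rw [if_pos (by norm_num)]
  · rw [if_neg h0]
    by_cases h1 : i.val % 2 = 1
    · rw [if_pos (Or.inr h1)]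
      have hA : EPf (pP u) (i.val + 1) = 0 := by
        unfold EPf
        rw [if_neg (by omega)]
      rw [hA]
      simp
    · rw [if_neg (by omega)]

theorem NN_inr (hd3 : 3 ≤ d) (u : Fin d ⊕ Fin d → F) (j : Fin d) :
    N3 F d (N3 F d u) (Sum.inr j) = if j.val = 2 then pQ u 0 else 0 := by
  rw [N3_inr]
  unfold EQf
  simp only [pQ_N]
  have hj := j.isLt
  have h0lt : 0 < d := by omega
  have h1lt : 1 < d := by omega
  have hE0 : EQf (pQ u) 0 = 0 := by
    unfold EQf
    rw [if_neg (by omega), if_neg (by omega), if_neg (by omega)]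
  have hE1 : EQf (pQ u) 1 = -pQ u 0 := by
    unfold EQf
    rw [if_pos rfl]
  simp only [if_pos h0lt, if_pos h1lt, hE0, hE1]
  by_cases h1 : j.val = 1
  · rw [if_pos h1, if_neg (by omega), neg_zero]
  · rw [if_neg h1]
    by_cases h2 : j.val = 2
    · rw [if_pos h2, if_pos h2]
      ring
    · rw [if_neg h2, if_neg h2]
      by_cases h3 : j.val % 2 = 0 ∧ 4 ≤ j.val
      · have hA : EQf (pQ u) (j.val - 1) = 0 := by
          unfold EQf
          rw [if_neg (by omega), if_neg (by omega), if_neg (by omega)]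
        rw [if_pos h3, hA]
        simp
      · rw [if_neg h3]

theorem N3_cube (hd3 : 3 ≤ d) : N3 F d ^ 3 = 0 := by
  apply LinearMap.ext
  intro u
  have e : (N3 F d ^ 3) u = N3 F d (N3 F d (N3 F d u)) := by
    rw [pow_succ, pow_two]
    rfl
  rw [e]
  have hP : ∀ k, pP (N3 F d (N3 F d u)) k = if k < d then (if k = 0 then pP u 2 else 0) else 0 :=
    fun k => ex_of _ (fun k => if k = 0 then pP u 2 else 0) (fun i => NN_inl hd3 u i) k
  have hQ : ∀ k, pQ (N3 F d (N3 F d u)) k = if k < d then (if k = 2 then pQ u 0 else 0) else 0 :=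
    fun k => ex_of _ (fun k => if k = 2 then pQ u 0 else 0) (fun i => NN_inr hd3 u i) k
  ext (i | j)
  · rw [N3_inl]
    unfold EPf
    rw [hP]
    simp
  · rw [N3_inr]
    unfold EQf
    simp only [hQ]
    have hj := j.isLt
    by_cases h1 : j.val = 1
    · rw [if_pos h1]
      simp
    · rw [if_neg h1]
      by_cases h2 : j.val = 2
      · rw [if_pos h2]
        simp
      · rw [if_neg h2]
        by_cases h3 : j.val % 2 = 0 ∧ 4 ≤ j.val
        · rw [if_pos h3, if_pos (by omega), if_neg (by omega)]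
          simp
        · rw [if_neg h3]
          rfl

/-- the coordinates of `N (N u)` -/
def psi2 (F : Type u) [Field F] (d : ℕ) : (Fin d ⊕ Fin d → F) →ₗ[F] (Fin 2 → F) where
  toFun u := fun t => if t = 0 then pP u 2 else pQ u 0
  map_add' u u' := by
    ext t
    show (if t = 0 then pP (u + u') 2 else pQ (u + u') 0) =
      (if t = 0 then pP u 2 else pQ u 0) + (if t = 0 then pP u' 2 else pQ u' 0)
    rw [pP_add, pQ_add]
    split_ifs <;> rfl
  map_smul' c u := by
    ext t
    show (if t = 0 then pP (c • u) 2 else pQ (c • u) 0) =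
      c * (if t = 0 then pP u 2 else pQ u 0)
    rw [pP_smul, pQ_smul]
    split_ifs <;> rfl

/-- the embedding of the coordinates of `N (N u)` -/
def phi2 (F : Type u) [Field F] (d : ℕ) : (Fin 2 → F) →ₗ[F] (Fin d ⊕ Fin d → F) where
  toFun w := fun s => match s with
    | Sum.inl i => if i.val = 0 then w 0 else 0
    | Sum.inr j => if j.val = 2 then w 1 else 0
  map_add' w w' := by
    ext (i | j)
    · show (if i.val = 0 then (w + w') 0 else 0) =
        (if i.val = 0 then w 0 else 0) + (if i.val = 0 then w' 0 else 0)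
      split_ifs <;> simp
    · show (if j.val = 2 then (w + w') 1 else 0) =
        (if j.val = 2 then w 1 else 0) + (if j.val = 2 then w' 1 else 0)
      split_ifs <;> simp
  map_smul' c w := by
    ext (i | j)
    · show (if i.val = 0 then (c • w) 0 else 0) = c * (if i.val = 0 then w 0 else 0)
      split_ifs <;> simp
    · show (if j.val = 2 then (c • w) 1 else 0) = c * (if j.val = 2 then w 1 else 0)
      split_ifs <;> simp

theorem N3_sq (hd3 : 3 ≤ d) : N3 F d * N3 F d = phi2 F d ∘ₗ psi2 F d := by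
  apply LinearMap.ext
  intro u
  ext (i | j)
  · exact NN_inl hd3 u i
  · exact NN_inr hd3 u j

theorem phi2_inj (hd3 : 3 ≤ d) : Function.Injective (phi2 F d) := by
  intro w w' h
  have h0 := congrFun h (Sum.inl ⟨0, by omega⟩)
  have h1 := congrFun h (Sum.inr ⟨2, by omega⟩)
  have e0 : ∀ w : Fin 2 → F, phi2 F d w (Sum.inl ⟨0, by omega⟩) = w 0 := fun w => by
    show (if (0 : ℕ) = 0 then w 0 else 0) = w 0
    rw [if_pos rfl]
  have e1 : ∀ w : Fin 2 → F, phi2 F d w (Sum.inr ⟨2, by omega⟩) = w 1 := fun w => by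
    show (if (2 : ℕ) = 2 then w 1 else 0) = w 1
    rw [if_pos rfl]
  rw [e0, e0] at h0
  rw [e1, e1] at h1
  ext t
  fin_cases t
  · exact h0
  · exact h1

theorem psi2_surj (hd3 : 3 ≤ d) : Function.Surjective (psi2 F d) := by
  intro w
  refine ⟨Sum.elim (fun i => if i.val = 2 then w 0 else 0) (fun j => if j.val = 0 then w 1 else 0),
    ?_⟩
  ext t
  fin_cases t
  · show pP _ 2 = w 0
    unfold pP
    rw [ex_lt _ (by omega : 2 < d)]
    show (if (2 : ℕ) = 2 then w 0 else 0) = w 0
    rw [if_pos rfl]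
  · show pQ _ 0 = w 1
    unfold pQ
    rw [ex_lt _ (by omega : 0 < d)]
    show (if (0 : ℕ) = 0 then w 1 else 0) = w 1
    rw [if_pos rfl]

theorem phi3_inj (hd3 : 3 ≤ d) : Function.Injective (phi3 F d) := by
  intro w w' h
  ext (_ | i)
  · have h1 := congrFun h (Sum.inr ⟨1, by omega⟩)
    have e1 : ∀ w : Option (Fin d) → F, phi3 F d w (Sum.inr ⟨1, by omega⟩) = w none := fun w => by
      simp [phi3]
    rwa [e1, e1] at h1
  · by_cases c : i.val = 0 ∨ i.val % 2 = 1
    · have h1 := congrFun h (Sum.inl i)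
      have e1 : ∀ w : Option (Fin d) → F, phi3 F d w (Sum.inl i) = w (some i) := fun w => by
        show (if i.val = 0 ∨ i.val % 2 = 1 then w (some i) else 0) = w (some i)
        rw [if_pos c]
      rwa [e1, e1] at h1
    · have h1 := congrFun h (Sum.inr i)
      have e1 : ∀ w : Option (Fin d) → F, phi3 F d w (Sum.inr i) = w (some i) := fun w => by
        show (if i.val = 1 then w none else
          if i.val % 2 = 0 ∧ 2 ≤ i.val then w (some i) else 0) = w (some i)
        rw [if_neg (by omega), if_pos (by omega)]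
      rwa [e1, e1] at h1

theorem psi3_surj (hd : d % 2 = 1) (hd3 : 3 ≤ d) : Function.Surjective (psi3 F d) := by
  intro w
  obtain ⟨W, hW⟩ : ∃ W : ℕ → F, W = ex (fun i => w (some i)) := ⟨_, rfl⟩
  obtain ⟨fp, hfp⟩ : ∃ fp : ℕ → F, fp = fun k =>
      if k = 1 ∨ (k % 2 = 0 ∧ 2 ≤ k) then W (k - 1) else 0 := ⟨_, rfl⟩
  obtain ⟨fq, hfq⟩ : ∃ fq : ℕ → F, fq = fun k =>
      if k = 0 then -w none else if k = 1 then -w none - W 2 else
        if k % 2 = 1 ∧ 3 ≤ k then -W (k + 1) else 0 := ⟨_, rfl⟩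
  obtain ⟨u, hu⟩ : ∃ u : Fin d ⊕ Fin d → F,
      u = Sum.elim (fun k => fp k.val) (fun k => fq k.val) := ⟨_, rfl⟩
  have hP : ∀ k, pP u k = if k < d then fp k else 0 :=
    fun k => ex_of _ fp (fun i => by rw [hu]; rfl) k
  have hQ : ∀ k, pQ u k = if k < d then fq k else 0 :=
    fun k => ex_of _ fq (fun i => by rw [hu]; rfl) k
  have hWv : ∀ i : Fin d, W i.val = w (some i) := fun i => by
    rw [hW]
    exact ex_val _ i
  refine ⟨u, ?_⟩
  ext (_ | i)
  · show EQf (pQ u) 1 = w none
    unfold EQf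
    rw [if_pos rfl, hQ, if_pos (by omega), hfq]
    show -(if (0 : ℕ) = 0 then -w none else _) = w none
    rw [if_pos rfl, neg_neg]
  · show (if i.val = 0 ∨ i.val % 2 = 1 then EPf (pP u) i.val else EQf (pQ u) i.val) = w (some i)
    have hi := i.isLt
    by_cases c : i.val = 0 ∨ i.val % 2 = 1
    · rw [if_pos c]
      unfold EPf
      rw [if_pos c, hP, if_pos (by omega), hfp]
      show (if i.val + 1 = 1 ∨ ((i.val + 1) % 2 = 0 ∧ 2 ≤ i.val + 1) then W (i.val + 1 - 1) else 0)
        = w (some i)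
      rw [if_pos (by omega), Nat.add_sub_cancel, hWv]
    · rw [if_neg c]
      unfold EQf
      rw [if_neg (by omega)]
      by_cases h2 : i.val = 2
      · rw [if_pos h2, hQ, hQ, if_pos (by omega), if_pos (by omega), hfq]
        show (if (0 : ℕ) = 0 then -w none else _) -
          (if (1 : ℕ) = 0 then -w none else if (1 : ℕ) = 1 then -w none - W 2 else _) = w (some i)
        rw [if_pos rfl, if_neg (by norm_num), if_pos rfl, ← hWv i, h2]
        ring
      · rw [if_neg h2, if_pos (by omega), hQ, if_pos (by omega), hfq]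
        show -(if i.val - 1 = 0 then -w none else if i.val - 1 = 1 then -w none - W 2 else
          if (i.val - 1) % 2 = 1 ∧ 3 ≤ i.val - 1 then -W (i.val - 1 + 1) else 0) = w (some i)
        rw [if_neg (by omega), if_neg (by omega), if_pos (by omega), neg_neg,
          Nat.sub_add_cancel (by omega), hWv]

/-- (ND-UEX3) -/
theorem uex3 : StUex3.{u} := by
  intro F _ d _ hd hd3
  have hd' : d % 2 = 1 := Nat.odd_iff.mp hd
  refine ⟨unitOfNil (N3 F d) (N3_cube hd3), ?_, ?_, ?_, ?_⟩
  · exact unitOfNil_mem _ _ _ (N3_isom hd' hd3)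
  · rw [toLin'_unitOfNil]
    exact N3_cube hd3
  · rw [toLin'_unitOfNil, N3_sq hd3,
      finrank_range_comp (phi2 F d) (psi2 F d) (phi2_inj hd3) (psi2_surj hd3),
      Module.finrank_fin_fun]
  · rw [toLin'_unitOfNil]
    have h := finrank_range_comp (phi3 F d) (psi3 F d) (phi3_inj hd3) (psi3_surj hd' hd3)
    rw [show N3 F d = phi3 F d ∘ₗ psi3 F d from rfl, h, Module.finrank_fintype_fun_eq_card,
      Fintype.card_option, Fintype.card_fin]
    ring

end

example : StUex3.{u} =
    (∀ (F : Type u) [Field F] (d : ℕ), (2 : F) ≠ 0 → Odd d → 3 ≤ d →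
    ∃ x : Matrix.GeneralLinearGroup (Fin d ⊕ Fin d) F,
      x ∈ Cfsg.isometryGroup F (Cfsg.quadFormPlus d F) ∧
      (Matrix.toLin' (x : Matrix (Fin d ⊕ Fin d) (Fin d ⊕ Fin d) F) - 1) ^ 3 = 0 ∧
      Module.finrank F ↥(LinearMap.range
        ((Matrix.toLin' (x : Matrix (Fin d ⊕ Fin d) (Fin d ⊕ Fin d) F) - 1) *
          (Matrix.toLin' (x : Matrix (Fin d ⊕ Fin d) (Fin d ⊕ Fin d) F) - 1))) = 2 ∧
      2 * Module.finrank F ↥(LinearMap.range
        (Matrix.toLin' (x : Matrix (Fin d ⊕ Fin d) (Fin d ⊕ Fin d) F) - 1)) = 2 * d + 2) :=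
  rfl

end Cfsg.Agent.H12.Nd
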