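import Cfsg.Agent.H46.OSDefs

/-!
# S2159 (team project, helper46): piece OS-FCYC — over a finite field the field automorphisms of a Chevalley group
lie in one cyclic group.
-/

set_option autoImplicit false

namespace Cfsg.Agent.H12.OS

open Cfsg Cfsg.Lie Cfsg.Agent.H46.OS
open scoped MatrixGroups

universe u

/-- Every ring automorphism of a finite field is an iterate of one of them. -/
theorem exists_gen_ringAut (F : Type u) [Field F] [Finite F] :
    ∃ σ0 : F ≃+* F, ∀ σ : F ≃+* F, ∃ k : ℕ, ∀ t : F, σ t = (fun x => σ0 x)^[k] t := by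
  have : CharP F (ringChar F) := ringChar.charP F
  have : Fact (ringChar F).Prime := ⟨CharP.char_is_prime F (ringChar F)⟩
  letI : Algebra (ZMod (ringChar F)) F := ZMod.algebra F (ringChar F)
  obtain ⟨τ0, hτ0⟩ := IsCyclic.exists_monoid_generator (α := F ≃ₐ[ZMod (ringChar F)] F)
  have hpow : ∀ (k : ℕ) (t : F), (τ0 ^ k) t = (fun x => τ0 x)^[k] t := by
    intro k
    induction k with
    | zero => intro t; simp
    | succ k ih =>
      intro t
      rw [pow_succ', AlgEquiv.mul_apply, ih, Function.iterate_succ_apply']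
  refine ⟨(τ0 : F ≃+* F), fun σ => ?_⟩
  have hσ : ∀ r : ZMod (ringChar F),
      σ (algebraMap (ZMod (ringChar F)) F r) = algebraMap (ZMod (ringChar F)) F r := by
    intro r
    exact RingHom.congr_fun (Subsingleton.elim
      ((σ : F →+* F).comp (algebraMap (ZMod (ringChar F)) F)) (algebraMap (ZMod (ringChar F)) F)) r
  obtain ⟨k, hk⟩ := hτ0 (AlgEquiv.ofRingEquiv (f := σ) hσ)
  refine ⟨k, fun t => ?_⟩
  have h1 : (AlgEquiv.ofRingEquiv (f := σ) hσ) t = σ t := rfl
  have hk' : τ0 ^ k = AlgEquiv.ofRingEquiv (f := σ) hσ := hk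
  rw [← h1, ← hk', hpow]
  rfl

/-- (OS-FCYC) -/
theorem fCyc (h : StFEx.{u}) : StFCyc.{u} := by
  intro F _ _ D hD
  obtain ⟨σ0, hσ0⟩ := exists_gen_ringAut F
  obtain ⟨φ0, hφ0⟩ := h F D hD σ0
  have hpow : ∀ (k : ℕ) (g : ↥(D.group F)) (r : ℕ) (t : F), r < D.nroots →
      ((g : GL D.Idx F) : Matrix D.Idx D.Idx F) = D.x F r t →
      (((φ0 ^ k) g : GL D.Idx F) : Matrix D.Idx D.Idx F) = D.x F r ((fun x => σ0 x)^[k] t) := by
    intro k
    induction k with
    | zero => intro g r t _ hg; simpa using hg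
    | succ k ih =>
      intro g r t hr hg
      rw [pow_succ', MulAut.mul_apply, Function.iterate_succ_apply']
      exact hφ0 _ r _ hr (ih g r t hr hg)
  refine ⟨φ0, fun f hf => ?_⟩
  obtain ⟨σ, hσ⟩ := hf
  obtain ⟨k, hk⟩ := hσ0 σ
  have hfk : f = φ0 ^ k := by
    apply MulEquiv.ext
    rintro ⟨y, hy⟩
    have key : ∀ (y : GL D.Idx F) (hy : y ∈ D.group F),
        f ⟨y, hy⟩ = (φ0 ^ k) ⟨y, hy⟩ := by
      intro y hy
      unfold ChevalleyDatum.group at hy
      induction hy using Subgroup.closure_induction with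
      | mem x hx =>
        obtain ⟨r, t, hx⟩ := hx
        have hx' : ((x : GL D.Idx F) : Matrix D.Idx D.Idx F) = D.x F r.val t := by
          rw [hx]
          unfold ChevalleyDatum.x
          rw [dif_pos r.isLt]
        apply Subtype.ext
        apply Units.ext
        have e1 := hσ ⟨x, Subgroup.subset_closure ⟨r, t, hx⟩⟩ r.val t r.isLt hx'
        have e2 := hpow k ⟨x, Subgroup.subset_closure ⟨r, t, hx⟩⟩ r.val t r.isLt hx'
        rw [← hk t] at e2
        exact e1.trans e2.symm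
      | one => exact (map_one f).trans (map_one (φ0 ^ k)).symm
      | mul x y hx hy ihx ihy =>
        have e : (⟨x * y, Subgroup.mul_mem _ hx hy⟩ : ↥(D.group F)) = ⟨x, hx⟩ * ⟨y, hy⟩ := rfl
        rw [e, map_mul, map_mul, ihx, ihy]
      | inv x hx ihx =>
        have e : (⟨x⁻¹, Subgroup.inv_mem _ hx⟩ : ↥(D.group F)) = (⟨x, hx⟩ : ↥(D.group F))⁻¹ := rfl
        rw [e, map_inv, map_inv, ihx]
    exact key y hy
  rw [hfk]
  exact Subgroup.pow_mem _ (Subgroup.mem_zpowers φ0) k

example : StFCyc.{u} =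
    (∀ (F : Type u) [Field F] [Finite F] (D : ChevalleyDatum), D ∈ Seven →
    ∃ φ0 : MulAut ↥(D.group F), ∀ f : MulAut ↥(D.group F), D.IsFieldAut f → f ∈ Subgroup.zpowers φ0) :=
  rfl

example : StFEx.{u} =
    (∀ (F : Type u) [Field F] (D : ChevalleyDatum), D ∈ Seven → ∀ σ : F ≃+* F,
    ∃ f : MulAut ↥(D.group F), ∀ (g : ↥(D.group F)) (r : ℕ) (t : F), r < D.nroots →
      ((g : GL D.Idx F) : Matrix D.Idx D.Idx F) = D.x F r t →
      ((f g : GL D.Idx F) : Matrix D.Idx D.Idx F) = D.x F r (σ t)) :=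
  rfl

end Cfsg.Agent.H12.OS
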