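import Cfsg.Agent.H78.OdDefs

/-!
# OD-DG (piece of S2608, `m = 4` half; helper78's project)

The diagonal automorphisms of `D₄(F)` form a commutative group all of whose squares are inner:
everything is read off from the scalars `c i` of `DiagAct`, which determine the automorphism.
-/

set_option autoImplicit false

namespace Cfsg.Agent.H12.Od

open Cfsg Cfsg.Lie Cfsg.Agent.H23 Cfsg.Agent.H23.Stb Cfsg.Agent.H78.StbG Cfsg.Agent.H13.D4N
  Cfsg.Agent.H78.Od

universe u

/-- An automorphism is determined by its scalars. -/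
theorem diagAct_unique (F : Type u) [Field F] {c : ℕ → F}
    {γ γ' : ↥(chevD4.group F) ≃* ↥(chevD4.group F)}
    (h : DiagAct F γ c) (h' : DiagAct F γ' c) : γ = γ' := by
  have hS : Sem chevD4 F zD4 := (packS_D4 F).hP.sem
  apply MulEquiv.toMonoidHom_injective
  apply hom_ext_fundG hS (packS_D4 F).hP.semN (packS_D4 F).hP.tab
  intro y i t hi hy
  rcases hy with hy | hy
  · rw [eq_xG hS y _ t hy]
    exact ((h.2 i hi t).1).trans ((h'.2 i hi t).1).symm
  · rw [eq_xG hS y _ t hy]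
    exact ((h.2 i hi t).2).trans ((h'.2 i hi t).2).symm

/-- The identity has scalars `1`. -/
theorem diagAct_one (F : Type u) [Field F] :
    DiagAct F (1 : MulAut ↥(chevD4.group F)) (fun _ => 1) := by
  refine ⟨fun _ _ => one_ne_zero, fun i hi t => ⟨?_, ?_⟩⟩
  · rw [MulAut.one_apply, one_mul]
  · rw [MulAut.one_apply, inv_one, one_mul]

/-- Scalars multiply. -/
theorem diagAct_mul (F : Type u) [Field F] {d d' : MulAut ↥(chevD4.group F)} {c c' : ℕ → F}
    (h : DiagAct F d c) (h' : DiagAct F d' c') : DiagAct F (d * d') (fun i => c i * c' i) := by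
  refine ⟨fun i hi => mul_ne_zero (h.1 i hi) (h'.1 i hi), fun i hi t => ⟨?_, ?_⟩⟩
  · rw [MulAut.mul_apply, (h'.2 i hi t).1, (h.2 i hi _).1, mul_assoc]
  · rw [MulAut.mul_apply, (h'.2 i hi t).2, (h.2 i hi _).2, mul_inv, mul_assoc]

/-- Scalars invert. -/
theorem diagAct_inv (F : Type u) [Field F] {d : MulAut ↥(chevD4.group F)} {c : ℕ → F}
    (h : DiagAct F d c) : DiagAct F d⁻¹ (fun i => (c i)⁻¹) := by
  refine ⟨fun i hi => inv_ne_zero (h.1 i hi), fun i hi t => ⟨?_, ?_⟩⟩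
  · apply d.injective
    rw [MulAut.apply_inv_self, (h.2 i hi _).1, mul_inv_cancel_left₀ (h.1 i hi)]
  · apply d.injective
    rw [MulAut.apply_inv_self, (h.2 i hi _).2, inv_inv, inv_mul_cancel_left₀ (h.1 i hi)]

/-- With DA2, an automorphism acting through scalars is diagonal. -/
theorem isDiagonalAut_of_diagAct (h2 : StDA2.{u}) (F : Type u) [Field F]
    (d : MulAut ↥(chevD4.group F)) (c : ℕ → F) (hd : DiagAct F d c) : chevD4.IsDiagonalAut d := by
  obtain ⟨d', hd', hd'c⟩ := h2 F c hd.1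
  rw [diagAct_unique F hd hd'c]
  exact hd'

/-- OD-DG. -/
theorem dG (h1 : StDA1.{u}) (h2 : StDA2.{u}) (h3 : StInn1.{u}) : StDG.{u} := by
  intro F _
  refine ⟨isDiagonalAut_of_diagAct h2 F 1 (fun _ => 1) (diagAct_one F), ?_, ?_, ?_, ?_⟩
  · intro d d' hd hd'
    obtain ⟨c, hc⟩ := h1 F d hd
    obtain ⟨c', hc'⟩ := h1 F d' hd'
    exact isDiagonalAut_of_diagAct h2 F _ _ (diagAct_mul F hc hc')
  · intro d hd
    obtain ⟨c, hc⟩ := h1 F d hd
    exact isDiagonalAut_of_diagAct h2 F _ _ (diagAct_inv F hc)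
  · intro d d' hd hd'
    obtain ⟨c, hc⟩ := h1 F d hd
    obtain ⟨c', hc'⟩ := h1 F d' hd'
    have e1 := diagAct_mul F hc hc'
    have e2 := diagAct_mul F hc' hc
    have e : (fun i => c' i * c i) = (fun i => c i * c' i) := by funext i; ring
    rw [e] at e2
    exact diagAct_unique F e1 e2
  · intro d hd
    obtain ⟨c, hc⟩ := h1 F d hd
    apply h3 F (d * d) _ (diagAct_mul F hc hc)
    · exact ⟨c 0 * c 2, by ring⟩
    · exact ⟨c 0 * c 3, by ring⟩

end Cfsg.Agent.H12.Od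

universe u in
example (h1 : Cfsg.Agent.H78.Od.StDA1.{u}) (h2 : Cfsg.Agent.H78.Od.StDA2.{u})
    (h3 : Cfsg.Agent.H78.Od.StInn1.{u}) : Cfsg.Agent.H78.Od.StDG.{u} :=
  Cfsg.Agent.H12.Od.dG.{u} h1 h2 h3
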