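import Cfsg.Agent.H12.OdFour
import Cfsg.Agent.H13.D4Comm

/-!
# OD-FD (piece of S2608, `m = 4` half; helper78's project)

Over a finite field of odd characteristic the field automorphisms of `D₄(F)` centralise the
diagonal ones modulo inner automorphisms: `f d f⁻¹ d⁻¹` has scalars `σ(c i) / c i`, and
`σ(a) / a` is a square for every `a ≠ 0`.
-/

set_option autoImplicit false

namespace Cfsg.Agent.H12.Od

open Cfsg Cfsg.Lie Cfsg.Agent.H23 Cfsg.Agent.H23.Stb Cfsg.Agent.H78.StbG Cfsg.Agent.H13.D4N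
  Cfsg.Agent.H78.Od

universe u

/-- `σ(a) / a` is a square in a finite field of odd characteristic. -/
theorem isSquare_sigma_div {F : Type*} [Field F] [Finite F] (h2 : (2 : F) ≠ 0) (σ : F ≃+* F)
    (a : F) : IsSquare (σ a * a⁻¹) := by
  by_cases ha : IsSquare a
  · obtain ⟨r, hr⟩ := ha
    refine ⟨σ r * r⁻¹, ?_⟩
    rw [hr, map_mul, mul_inv]
    ring
  · have hσa : ¬ IsSquare (σ a) := by
      rintro ⟨s, hs⟩
      apply ha
      refine ⟨σ.symm s, ?_⟩
      rw [← map_mul, ← hs, RingEquiv.symm_apply_apply]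
    have hai : ¬ IsSquare a⁻¹ := fun h => ha (isSquare_inv.mp h)
    exact isSquare_mul_of_not_isSquare h2 hσa hai

/-- Conjugating by a field automorphism applies `σ` to the scalars. -/
theorem diagAct_field_conj (F : Type u) [Field F] (f d : MulAut ↥(chevD4.group F)) (σ : F ≃+* F)
    (hσ : ∀ r < chevD4.nroots, ∀ t : F,
      f (xG (packS_D4 F).hP.sem r t) = xG (packS_D4 F).hP.sem r (σ t))
    {c : ℕ → F} (hd : DiagAct F d c) : DiagAct F (f * d * f⁻¹) (fun i => σ (c i)) := by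
  have hT := (packS_D4 F).hP.tab
  have hinv : ∀ r < chevD4.nroots, ∀ t : F,
      f⁻¹ (xG (packS_D4 F).hP.sem r t) = xG (packS_D4 F).hP.sem r (σ.symm t) := by
    intro r hr t
    apply f.injective
    rw [MulAut.apply_inv_self, hσ r hr, RingEquiv.apply_symm_apply]
  refine ⟨fun i hi => ?_, fun i hi t => ⟨?_, ?_⟩⟩
  · intro h
    apply hd.1 i hi
    have h' : σ (c i) = 0 := h
    have h0 : σ (c i) = σ 0 := by rw [h', map_zero]
    exact σ.injective h0
  · have hl := hT.simple_lt i hi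
    rw [MulAut.mul_apply, MulAut.mul_apply, hinv _ hl, (hd.2 i hi _).1, hσ _ hl, map_mul,
      RingEquiv.apply_symm_apply]
  · have hl := hT.neg_lt _ (hT.simple_lt i hi)
    rw [MulAut.mul_apply, MulAut.mul_apply, hinv _ hl, (hd.2 i hi _).2, hσ _ hl, map_mul,
      RingEquiv.apply_symm_apply, map_inv₀]

/-- OD-FD. -/
theorem fD (h1 : StDA1.{u}) (h3 : StInn1.{u}) : StFD.{u} := by
  intro F _ _ h20 f d hf hd
  obtain ⟨c, hc⟩ := h1 F d hd
  obtain ⟨σ, hσ⟩ := act_of_isFieldAut F f hf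
  have hA := diagAct_mul F (diagAct_field_conj F f d σ hσ hc) (diagAct_inv F hc)
  apply h3 F _ _ hA
  · exact (isSquare_sigma_div h20 σ (c 0)).mul (isSquare_sigma_div h20 σ (c 2))
  · exact (isSquare_sigma_div h20 σ (c 0)).mul (isSquare_sigma_div h20 σ (c 3))

end Cfsg.Agent.H12.Od

universe u in
example (h1 : Cfsg.Agent.H78.Od.StDA1.{u}) (h3 : Cfsg.Agent.H78.Od.StInn1.{u}) :
    Cfsg.Agent.H78.Od.StFD.{u} :=
  Cfsg.Agent.H12.Od.fD.{u} h1 h3
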