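import Cfsg.Agent.H12.OdDG

/-!
# OD-FOUR (piece of S2608, `m = 4` half; helper78's project)

Over a finite field of odd characteristic the diagonal automorphisms of `D₄(F)` fall into exactly
four classes modulo the inner ones, according to the square classes of `c₀ c₂` and `c₀ c₃`.
-/

set_option autoImplicit false

namespace Cfsg.Agent.H12.Od

open Cfsg Cfsg.Lie Cfsg.Agent.H23 Cfsg.Agent.H23.Stb Cfsg.Agent.H78.StbG Cfsg.Agent.H13.D4N
  Cfsg.Agent.H78.Od

universe u

/-- In a finite field of odd characteristic the product of two non-squares is a square. -/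
theorem isSquare_mul_of_not_isSquare {F : Type*} [Field F] [Finite F] (h2 : (2 : F) ≠ 0) {x y : F}
    (hx : ¬ IsSquare x) (hy : ¬ IsSquare y) : IsSquare (x * y) := by
  classical
  haveI := Fintype.ofFinite F
  have hc : ringChar F ≠ 2 := by
    intro h
    apply h2
    haveI := ringChar.charP F
    have h3 := CharP.cast_eq_zero F (ringChar F)
    rw [h] at h3
    exact_mod_cast h3
  have hx0 : x ≠ 0 := fun h => hx (h ▸ IsSquare.zero)
  have hy0 : y ≠ 0 := fun h => hy (h ▸ IsSquare.zero)
  rw [← quadraticChar_one_iff_isSquare (mul_ne_zero hx0 hy0), map_mul,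
    (quadraticChar_neg_one_iff_not_isSquare).mpr hx, (quadraticChar_neg_one_iff_not_isSquare).mpr hy]
  norm_num

/-- OD-FOUR. -/
theorem four (h1 : StDA1.{u}) (h2 : StDA2.{u}) (h3 : StInn1.{u}) (h4 : StInn2.{u}) :
    StFour.{u} := by
  intro F _ _ h20
  classical
  haveI := Fintype.ofFinite F
  have hc : ringChar F ≠ 2 := by
    intro h
    apply h20
    haveI := ringChar.charP F
    have h3 := CharP.cast_eq_zero F (ringChar F)
    rw [h] at h3
    exact_mod_cast h3
  obtain ⟨ν, hν⟩ := FiniteField.exists_nonsquare hc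
  have hν0 : ν ≠ 0 := fun h => hν (h ▸ IsSquare.zero)
  have hνi : ¬ IsSquare ν⁻¹ := fun h => hν (isSquare_inv.mp h)
  set ca : ℕ → F := fun i => if i = 0 then ν else 1 with hca
  set cb : ℕ → F := fun i => if i = 2 then ν else 1 with hcb
  have hca0 : ca 0 = ν := by simp [hca]
  have hca2 : ca 2 = 1 := by simp [hca]
  have hca3 : ca 3 = 1 := by simp [hca]
  have hcb0 : cb 0 = 1 := by simp [hcb]
  have hcb2 : cb 2 = ν := by simp [hcb]
  have hcb3 : cb 3 = 1 := by simp [hcb]
  have hcane : ∀ i < chevD4.rank, ca i ≠ 0 := by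
    intro i _
    simp only [hca]
    split_ifs
    · exact hν0
    · exact one_ne_zero
  have hcbne : ∀ i < chevD4.rank, cb i ≠ 0 := by
    intro i _
    simp only [hcb]
    split_ifs
    · exact hν0
    · exact one_ne_zero
  obtain ⟨a, haD, haA⟩ := h2 F ca hcane
  obtain ⟨b, hbD, hbA⟩ := h2 F cb hcbne
  refine ⟨a, b, haD, hbD, ?_, ?_, ?_, ?_⟩
  · intro hin
    have h := (h4 F a ca haA hin).1
    rw [hca0, hca2, mul_one] at h
    exact hν h
  · intro hin
    have h := (h4 F b cb hbA hin).1
    rw [hcb0, hcb2, one_mul] at h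
    exact hν h
  · intro hin
    have h := (h4 F (a * b⁻¹) _ (diagAct_mul F haA (diagAct_inv F hbA)) hin).2
    simp only [hca0, hca3, hcb0, hcb3, inv_one, mul_one] at h
    exact hν h
  · intro d hd
    obtain ⟨c, hc⟩ := h1 F d hd
    by_cases hs2 : IsSquare (c 0 * c 2)
    · by_cases hs3 : IsSquare (c 0 * c 3)
      · exact Or.inl (h3 F d c hc hs2 hs3)
      · right; right; right
        apply h3 F _ _ (diagAct_mul F hc (diagAct_inv F (diagAct_mul F haA hbA)))
        · simp only [hca0, hca2, hcb0, hcb2, mul_one, one_mul]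
          obtain ⟨r, hr⟩ := hs2
          refine ⟨r * ν⁻¹, ?_⟩
          calc c 0 * ν⁻¹ * (c 2 * ν⁻¹) = (c 0 * c 2) * (ν⁻¹ * ν⁻¹) := by ring
            _ = r * ν⁻¹ * (r * ν⁻¹) := by rw [hr]; ring
        · simp only [hca0, hca3, hcb0, hcb3, mul_one, inv_one]
          have e : c 0 * ν⁻¹ * c 3 = (c 0 * c 3) * ν⁻¹ := by ring
          rw [e]
          exact isSquare_mul_of_not_isSquare h20 hs3 hνi
    · by_cases hs3 : IsSquare (c 0 * c 3)
      · right; right; left
        apply h3 F _ _ (diagAct_mul F hc (diagAct_inv F hbA))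
        · simp only [hcb0, hcb2, mul_one, inv_one]
          have e : c 0 * (c 2 * ν⁻¹) = (c 0 * c 2) * ν⁻¹ := by ring
          rw [e]
          exact isSquare_mul_of_not_isSquare h20 hs2 hνi
        · simp only [hcb0, hcb3, mul_one, inv_one]
          exact hs3
      · right; left
        apply h3 F _ _ (diagAct_mul F hc (diagAct_inv F haA))
        · simp only [hca0, hca2, mul_one, inv_one]
          have e : c 0 * ν⁻¹ * c 2 = (c 0 * c 2) * ν⁻¹ := by ring
          rw [e]
          exact isSquare_mul_of_not_isSquare h20 hs2 hνi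
        · simp only [hca0, hca3, mul_one, inv_one]
          have e : c 0 * ν⁻¹ * c 3 = (c 0 * c 3) * ν⁻¹ := by ring
          rw [e]
          exact isSquare_mul_of_not_isSquare h20 hs3 hνi

end Cfsg.Agent.H12.Od

universe u in
example (h1 : Cfsg.Agent.H78.Od.StDA1.{u}) (h2 : Cfsg.Agent.H78.Od.StDA2.{u})
    (h3 : Cfsg.Agent.H78.Od.StInn1.{u}) (h4 : Cfsg.Agent.H78.Od.StInn2.{u}) :
    Cfsg.Agent.H78.Od.StFour.{u} :=
  Cfsg.Agent.H12.Od.four.{u} h1 h2 h3 h4
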