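import Cfsg.Agent.H12.OdDG

/-!
# OD-GN (piece of S2608, `m = 4` half; helper78's project)

Graph automorphisms of `D₄(F)` normalise the diagonal ones: `g d g⁻¹` acts through the scalars
`c ∘ s⁻¹`, where `s` is the node permutation of `g`.
-/

set_option autoImplicit false

namespace Cfsg.Agent.H12.Od

open Cfsg Cfsg.Lie Cfsg.Agent.H23 Cfsg.Agent.H23.Stb Cfsg.Agent.H78.StbG Cfsg.Agent.H13.D4N
  Cfsg.Agent.H78.Od

universe u

/-- Each of the six node tables is onto `{0, 1, 2, 3}`. -/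
theorem gn_tab_surj : ∀ L ∈ [[0, 1, 2, 3], [0, 1, 3, 2], [2, 1, 0, 3], [3, 1, 2, 0], [2, 1, 3, 0],
    [3, 1, 0, 2]], ∀ i < 4, ∃ j < 4, (L : List ℕ).getD j 0 = i := by decide

/-- Conjugating by an automorphism acting through a node table `L` permutes the scalars. -/
theorem diagAct_graph_conj (F : Type u) [Field F] (g d : MulAut ↥(chevD4.group F)) (L : List ℕ)
    (hL : ActS F (fun i => L.getD i 0) g) (j : ℕ → ℕ)
    (hj : ∀ i < chevD4.rank, j i < chevD4.rank ∧ L.getD (j i) 0 = i)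
    {c : ℕ → F} (hd : DiagAct F d c) : DiagAct F (g * d * g⁻¹) (fun i => c (j i)) := by
  have hLj : ∀ i < chevD4.rank, ∀ t : F,
      g (xG (packS_D4 F).hP.sem (chevD4.simple (j i)) t) =
        xG (packS_D4 F).hP.sem (chevD4.simple i) t ∧
      g (xG (packS_D4 F).hP.sem (chevD4.neg (chevD4.simple (j i))) t) =
        xG (packS_D4 F).hP.sem (chevD4.neg (chevD4.simple i)) t := by
    intro i hi t
    have h1 := hL (j i) (hj i hi).1 t
    simp only [(hj i hi).2] at h1
    exact h1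
  have hinv : ∀ i < chevD4.rank, ∀ t : F,
      g⁻¹ (xG (packS_D4 F).hP.sem (chevD4.simple i) t) =
        xG (packS_D4 F).hP.sem (chevD4.simple (j i)) t ∧
      g⁻¹ (xG (packS_D4 F).hP.sem (chevD4.neg (chevD4.simple i)) t) =
        xG (packS_D4 F).hP.sem (chevD4.neg (chevD4.simple (j i))) t := by
    intro i hi t
    constructor
    · apply g.injective
      rw [MulAut.apply_inv_self]
      exact ((hLj i hi t).1).symm
    · apply g.injective
      rw [MulAut.apply_inv_self]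
      exact ((hLj i hi t).2).symm
  refine ⟨fun i hi => hd.1 (j i) (hj i hi).1, fun i hi t => ⟨?_, ?_⟩⟩
  · rw [MulAut.mul_apply, MulAut.mul_apply, (hinv i hi t).1, (hd.2 (j i) (hj i hi).1 t).1]
    exact (hLj i hi _).1
  · rw [MulAut.mul_apply, MulAut.mul_apply, (hinv i hi t).2, (hd.2 (j i) (hj i hi).1 t).2]
    exact (hLj i hi _).2

/-- OD-GN. -/
theorem gN (h1 : StDA1.{u}) (h2 : StDA2.{u}) : StGN.{u} := by
  intro F _ g d hg hd
  obtain ⟨c, hc⟩ := h1 F d hd
  obtain ⟨L, hLmem, hL⟩ := actS_of_isGraphAut F g hg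
  have hsurj := gn_tab_surj L hLmem
  choose! j hj using hsurj
  exact isDiagonalAut_of_diagAct h2 F _ (fun i => c (j i))
    (diagAct_graph_conj F g d L hL j (fun i hi => hj i hi) hc)

end Cfsg.Agent.H12.Od

universe u in
example (h1 : Cfsg.Agent.H78.Od.StDA1.{u}) (h2 : Cfsg.Agent.H78.Od.StDA2.{u}) :
    Cfsg.Agent.H78.Od.StGN.{u} :=
  Cfsg.Agent.H12.Od.gN.{u} h1 h2
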