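import Mathlib
import Cfsg.Agent.H45.MDefs
import Cfsg.Agent.H4.MGen

set_option autoImplicit false
set_option linter.unusedSectionVars false

/-!
# Siegel elements from the two unipotent radicals, non-degenerate binary part
(helper12, piece P-GEN of the S2414 team project of helper45)

Same moves as `Cfsg.Agent.H4.M.gen`, but the binary part `binQ a b` is only assumed to be
non-degenerate (`a ^ 2 - 4 * b ≠ 0`), so singular vectors may have a non-zero `z`-block.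
-/

namespace Cfsg.Agent.H12.MP

open Matrix Cfsg.Agent.H49 Cfsg.Agent.H45.M Cfsg.Agent.H4.M

variable {F : Type*} [Field F] {k : ℕ}

/-- Non-degeneracy of the binary part: a non-zero `z` pairs non-trivially with some `ζ`. -/
theorem exists_pair_ne (a b : F) (hd : a ^ 2 - 4 * b ≠ 0) (z : Fin 2 → F) (hz : z ≠ 0) :
    ∃ ζ : Fin 2 → F, ζ ⬝ᵥ (gam a b *ᵥ z) ≠ 0 := by
  by_contra hcon
  have hall : ∀ ζ : Fin 2 → F, ζ ⬝ᵥ (gam a b *ᵥ z) = 0 := fun ζ =>
    by_contra fun h => hcon ⟨ζ, h⟩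
  have h0 := hall (Pi.single 0 1)
  have h1 := hall (Pi.single 1 1)
  rw [single_dotProduct, one_mul] at h0 h1
  simp only [gam, Matrix.mulVec, dotProduct, Fin.sum_univ_two, Matrix.of_apply,
    Matrix.cons_val', Matrix.cons_val_zero, Matrix.cons_val_one, Matrix.cons_val_fin_one] at h0 h1
  have e0 : (a ^ 2 - 4 * b) * z 0 = 0 := by linear_combination a * h1 - 2 * b * h0
  have e1 : (a ^ 2 - 4 * b) * z 1 = 0 := by linear_combination a * h0 - 2 * h1
  apply hz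
  funext i
  fin_cases i
  · exact (mul_eq_zero.1 e0).resolve_left hd
  · exact (mul_eq_zero.1 e1).resolve_left hd

/-- The key choice of `ζ` for a singular `z ≠ 0` of the binary part. -/
theorem exists_zeta (a b : F) (hd : a ^ 2 - 4 * b ≠ 0) (z : Fin 2 → F) (hz : z ≠ 0)
    (hQ : binQ a b z = 0) (c : F) :
    ∃ ζ : Fin 2 → F, ζ ⬝ᵥ (gam a b *ᵥ z) + binQ a b ζ * c ≠ 0 := by
  obtain ⟨ζ₀, hζ₀⟩ := exists_pair_ne a b hd z hz
  by_cases hc : c = 0
  · refine ⟨ζ₀, ?_⟩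
    rw [hc, mul_zero, add_zero]
    exact hζ₀
  · by_cases h0 : ζ₀ ⬝ᵥ (gam a b *ᵥ z) + binQ a b ζ₀ * c = 0
    · refine ⟨ζ₀ - c⁻¹ • z, ?_⟩
      have key : (ζ₀ - c⁻¹ • z) ⬝ᵥ (gam a b *ᵥ z) + binQ a b (ζ₀ - c⁻¹ • z) * c
          = (ζ₀ ⬝ᵥ (gam a b *ᵥ z) + binQ a b ζ₀ * c) - ζ₀ ⬝ᵥ (gam a b *ᵥ z)
            - c⁻¹ * binQ a b z := by
        simp only [binQ_apply, gam, Matrix.mulVec, dotProduct, Fin.sum_univ_two, Matrix.of_apply,
          Matrix.cons_val', Matrix.cons_val_zero, Matrix.cons_val_one, Matrix.cons_val_fin_one,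
          Pi.sub_apply, Pi.smul_apply, smul_eq_mul]
        field_simp
        ring
      rw [key, h0, hQ, mul_zero, sub_zero, zero_sub, neg_ne_zero]
      exact hζ₀
    · exact ⟨ζ₀, h0⟩

section steps

variable {a b : F} (K : Subgroup (OM k F a b))

/-- Step A for a non-degenerate binary part. -/
theorem stepA_h (hd : a ^ 2 - 4 * b ≠ 0)
    (hk : 2 ≤ k) (hU : Qin K) (hL : Qlow K)
    (u : (Fin k ⊕ Fin k) ⊕ Fin 2 → F) (hu : QMin k F a b u = 0) (hu0 : u ≠ 0) :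
    ∃ h ∈ K, ∃ p : Fin k → F, p ≠ 0 ∧ act h u = tri p 0 0 := by
  obtain ⟨x, y, z, rfl⟩ := tri_eta u
  by_cases hx : x = 0
  · subst hx
    by_cases hy : y = 0
    · subst hy
      have hz : z ≠ 0 := by
        rintro rfl
        exact hu0 tri_zero
      obtain ⟨ζ, hζ⟩ := exists_pair_ne a b hd z hz
      obtain ⟨p, hp⟩ : ∃ p : Fin k → F, p ≠ 0 := by
        refine ⟨Pi.single ⟨0, by omega⟩ 1, ?_⟩
        intro h
        have := congrFun h ⟨0, by omega⟩
        simp at this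
      have e1 : act (eU a b p 0 ζ) (tri 0 0 z) = tri (-(ζ ⬝ᵥ (gam a b *ᵥ z)) • p) 0 z := by
        rw [act_eU]
        apply tri_congr _ rfl
        · simp only [dotProduct_zero, zero_smul, add_zero]
        · simp only [dotProduct_zero, zero_smul, smul_zero, mul_zero, zero_add,
            sub_zero, zero_sub, neg_smul]
      have hp' : -(ζ ⬝ᵥ (gam a b *ᵥ z)) • p ≠ 0 := smul_ne_zero (neg_ne_zero.2 hζ) hp
      have hs : QMin k F a b (tri (-(ζ ⬝ᵥ (gam a b *ᵥ z)) • p) 0 z) = 0 := by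
        rw [← e1, Q_act]
        exact hu
      obtain ⟨h₂, h₂K, h₂a⟩ := stepA_x K hL _ 0 z hp' hs
      refine ⟨h₂ * eU a b p 0 ζ, K.mul_mem h₂K (eU_mem K hU _ _ _), _, hp', ?_⟩
      rw [act_mul, e1, h₂a]
    · obtain ⟨q, hq⟩ := exists_dot_one hy
      obtain ⟨p, hp, hp0⟩ := exists_perp hk hy
      have e1 : act (eU a b q p 0) (tri 0 y z) = tri p y z := by
        rw [act_eU]
        apply tri_congr _ rfl
        · simp
        · rw [hq, hp]
          simp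
      have hs : QMin k F a b (tri p y z) = 0 := by
        rw [← e1, Q_act]
        exact hu
      obtain ⟨h₂, h₂K, h₂a⟩ := stepA_x K hL p y z hp0 hs
      refine ⟨h₂ * eU a b q p 0, K.mul_mem h₂K (eU_mem K hU _ _ _), p, hp0, ?_⟩
      rw [act_mul, e1, h₂a]
  · obtain ⟨h, hK, ha⟩ := stepA_x K hL x y z hx hu
    exact ⟨h, hK, x, hx, ha⟩

/-- Step B, case `y ≠ 0` (no hypothesis on the binary part). -/
theorem stepB_y (hk : 3 ≤ k) (hU : Qin K) (hL : Qlow K)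
    (p : Fin k → F) (hp : p ≠ 0) (x y : Fin k → F) (z : Fin 2 → F) (hy : y ≠ 0)
    (hv : QMin k F a b (tri x y z) = 0) (hpv : p ⬝ᵥ y = 0) :
    ∃ h ∈ K, act h (tri p 0 0) = tri p 0 0 ∧
      ∃ p' : Fin k → F, act h (tri x y z) = tri p' 0 0 := by
  obtain ⟨q, hq⟩ := exists_dot_one hy
  -- kill z
  obtain ⟨x₁, hx₁⟩ : ∃ x₁ : Fin k → F, act (eU a b q 0 (-z)) (tri x y z) = tri x₁ y 0 := by
    have h1 := act_eU a b q 0 (-z) x y z
    simp only [hq, one_smul, add_neg_cancel] at h1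
    exact ⟨_, h1⟩
  have f1 : act (eU a b q 0 (-z)) (tri p 0 0) = tri p 0 0 := by
    rw [act_eU]
    apply tri_congr _ rfl
    · simp
    · simp
  have hs : QMin k F a b (tri x₁ y 0) = 0 := by
    rw [← hx₁, Q_act]
    exact hv
  rw [QMin_tri, map_zero, add_zero] at hs
  -- kill x₁
  have e2 : act (eU a b q (-x₁) 0) (tri x₁ y 0) = tri 0 y 0 := by
    rw [act_eU]
    apply tri_congr _ rfl
    · simp
    · rw [hq, neg_dotProduct, hs]
      simp
  have f2 : act (eU a b q (-x₁) 0) (tri p 0 0) = tri p 0 0 := by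
    rw [act_eU]
    apply tri_congr _ rfl
    · simp
    · simp
  -- move to (p₁, y, 0)
  obtain ⟨p₁, q', hp₁, hq'p, hq'a⟩ := exists_perp_pair hk hp hy hpv
  have e3 : act (eU a b q p₁ 0) (tri 0 y 0) = tri p₁ y 0 := by
    rw [act_eU]
    apply tri_congr _ rfl
    · simp
    · rw [hq, hp₁]
      simp
  have f3 : act (eU a b q p₁ 0) (tri p 0 0) = tri p 0 0 := by
    rw [act_eU]
    apply tri_congr _ rfl
    · simp
    · simp
  -- kill y
  have e4 : act (eL a b q' (-y) 0) (tri p₁ y 0) = tri p₁ 0 0 := by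
    rw [act_eL]
    apply tri_congr rfl
    · rw [hq'p, neg_dotProduct, dotProduct_comm y p₁, hp₁]
      simp
    · simp
  have f4 : act (eL a b q' (-y) 0) (tri p 0 0) = tri p 0 0 := by
    rw [act_eL]
    apply tri_congr rfl
    · rw [hq'a, neg_dotProduct, dotProduct_comm y p, hpv]
      simp
    · simp
  refine ⟨eL a b q' (-y) 0 * (eU a b q p₁ 0 * (eU a b q (-x₁) 0 * eU a b q 0 (-z))),
    K.mul_mem (eL_mem K hL _ _ _) (K.mul_mem (eU_mem K hU _ _ _)
      (K.mul_mem (eU_mem K hU _ _ _) (eU_mem K hU _ _ _))), ?_, p₁, ?_⟩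
  · rw [act_mul, act_mul, act_mul, f1, f2, f3, f4]
  · rw [act_mul, act_mul, act_mul, hx₁, e2, e3, e4]

/-- Step B for a non-degenerate binary part. -/
theorem stepB_h (hd : a ^ 2 - 4 * b ≠ 0)
    (hk : 3 ≤ k) (hU : Qin K) (hL : Qlow K)
    (p : Fin k → F) (hp : p ≠ 0) (v : (Fin k ⊕ Fin k) ⊕ Fin 2 → F)
    (hv : QMin k F a b v = 0)
    (hpv : QuadraticMap.polar (⇑(QMin k F a b)) (tri p 0 0) v = 0) :
    ∃ h ∈ K, act h (tri p 0 0) = tri p 0 0 ∧ ∃ p' : Fin k → F, act h v = tri p' 0 0 := by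
  obtain ⟨x, y, z, rfl⟩ := tri_eta v
  rw [polar_tri, zero_dotProduct, dotProduct_zero, add_zero, add_zero] at hpv
  by_cases hy : y = 0
  · subst hy
    by_cases hz : z = 0
    · subst hz
      exact ⟨1, K.one_mem, act_one _, x, act_one _⟩
    · have hv' := hv
      rw [QMin_tri, dotProduct_zero, zero_add] at hv'
      obtain ⟨p₂, hp₂, hp₂0⟩ := exists_perp (by omega : 2 ≤ k) hp
      obtain ⟨ζ, hζ⟩ := exists_zeta a b hd z hz hv' (p₂ ⬝ᵥ x)
      have f1 : act (eL a b p₂ 0 ζ) (tri p 0 0) = tri p 0 0 := by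
        rw [act_eL]
        apply tri_congr rfl
        · rw [hp₂]
          simp
        · rw [hp₂]
          simp
      have e1 : act (eL a b p₂ 0 ζ) (tri x 0 z)
          = tri x (-(ζ ⬝ᵥ (gam a b *ᵥ z) + binQ a b ζ * (p₂ ⬝ᵥ x)) • p₂)
              (z + (p₂ ⬝ᵥ x) • ζ) := by
        rw [act_eL]
        apply tri_congr rfl _ rfl
        simp only [zero_add, smul_zero, zero_dotProduct]
        rw [neg_smul, add_smul]
        abel
      have hy₁ : -(ζ ⬝ᵥ (gam a b *ᵥ z) + binQ a b ζ * (p₂ ⬝ᵥ x)) • p₂ ≠ 0 :=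
        smul_ne_zero (neg_ne_zero.2 hζ) hp₂0
      have hs : QMin k F a b (tri x (-(ζ ⬝ᵥ (gam a b *ᵥ z) + binQ a b ζ * (p₂ ⬝ᵥ x)) • p₂)
          (z + (p₂ ⬝ᵥ x) • ζ)) = 0 := by
        rw [← e1, Q_act]
        exact hv
      have hpv₁ : p ⬝ᵥ (-(ζ ⬝ᵥ (gam a b *ᵥ z) + binQ a b ζ * (p₂ ⬝ᵥ x)) • p₂) = 0 := by
        rw [dotProduct_smul, dotProduct_comm p p₂, hp₂, smul_zero]
      obtain ⟨h₂, h₂K, h₂p, p', h₂v⟩ := stepB_y K hk hU hL p hp x _ _ hy₁ hs hpv₁
      refine ⟨h₂ * eL a b p₂ 0 ζ, K.mul_mem h₂K (eL_mem K hL _ _ _), ?_, p', ?_⟩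
      · rw [act_mul, f1, h₂p]
      · rw [act_mul, e1, h₂v]
  · exact stepB_y K hk hU hL p hp x y z hy hv hpv

end steps

/-- **P-GEN.** -/
theorem gen_h (a b : F) (hd : a ^ 2 - 4 * b ≠ 0) (hk : 3 ≤ k) (K : Subgroup (OM k F a b))
    (hU : Qin K) (hL : Qlow K) : ∀ g ∈ siegelSet (QMin k F a b), g ∈ K := by
  rintro g ⟨u, v, hu, hv, huv, c, rfl⟩
  by_cases hu0 : u = 0
  · rw [siegelG_eq_one _ u v hu hv huv c (Or.inl hu0)]
    exact K.one_mem
  · obtain ⟨h₁, h₁K, p, hp, h₁u⟩ := stepA_h K hd (by omega) hU hL u hu hu0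
    have hv₁ : QMin k F a b (act h₁ v) = 0 := by rw [Q_act]; exact hv
    have huv₁ : QuadraticMap.polar (⇑(QMin k F a b)) (tri p 0 0) (act h₁ v) = 0 := by
      rw [← h₁u, polar_act]
      exact huv
    obtain ⟨h₂, h₂K, h₂u, p', h₂v⟩ := stepB_h K hd hk hU hL p hp _ hv₁ huv₁
    have hhK : h₂ * h₁ ∈ K := K.mul_mem h₂K h₁K
    have e_u : act (h₂ * h₁) u = tri p 0 0 := by rw [act_mul, h₁u, h₂u]
    have e_v : act (h₂ * h₁) v = tri p' 0 0 := by rw [act_mul, h₂v]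
    have hconj := conj_siegelG (QMin k F a b) (h₂ * h₁) u v hu hv huv c
    have hmem : (h₂ * h₁) * siegelG (QMin k F a b) u v hu hv huv c * (h₂ * h₁)⁻¹ ∈ K := by
      rw [hconj, siegelG_eq_eichG]
      have e : eichG (QMin k F a b) (act (h₂ * h₁) u) (c • act (h₂ * h₁) v)
          (by rw [Q_act, hu])
          (by rw [QuadraticMap.polar_smul_right, polar_act, huv, smul_zero])
          = eU a b p (c • p') 0 := by
        unfold eU
        apply eichG_congr _ _ _ _ _ _ _ _ _ e_u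
        rw [e_v, tri_smul]
        simp
      rw [e]
      exact eU_mem K hU _ _ _
    have e2 : siegelG (QMin k F a b) u v hu hv huv c
        = (h₂ * h₁)⁻¹ * ((h₂ * h₁) * siegelG (QMin k F a b) u v hu hv huv c * (h₂ * h₁)⁻¹)
          * (h₂ * h₁) := by group
    rw [e2]
    exact K.mul_mem (K.mul_mem (K.inv_mem hhK) hmem) hhK

end Cfsg.Agent.H12.MP

section check
open Matrix Cfsg.Agent.H49 Cfsg.Agent.H45.M
variable {F : Type*} [Field F] {k : ℕ}
example (a b : F) (hd : a ^ 2 - 4 * b ≠ 0) (hk : 3 ≤ k) (K : Subgroup (OM k F a b))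
    (hU : Qin K) (hL : Qlow K) : ∀ g ∈ siegelSet (QMin k F a b), g ∈ K :=
  Cfsg.Agent.H12.MP.gen_h a b hd hk K hU hL
end check
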