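import Cfsg.Agent.H1.HallConverse

/-!
# Groups all of whose subgroups have proper subgroups of prime-power index (S0535)
-/

set_option autoImplicit false

namespace Cfsg.Agent.H12

universe u

/-- If every nontrivial subgroup `H` has, for each prime `p` dividing `|H|`, a proper subgroup
of `p`-power index, then every subgroup is solvable. -/
theorem isSolvable_of_forall_exists_prime_pow_index_aux {G : Type u} [Group G] [Finite G]
    (h : ∀ H : Subgroup G, H ≠ ⊥ → ∀ p : ℕ, p.Prime → p ∣ Nat.card H →
      ∃ K : Subgroup H, K ≠ ⊤ ∧ ∃ k : ℕ, K.index = p ^ k) :
    ∀ (n : ℕ) (H : Subgroup G), Nat.card H = n → Group.IsSolvable H := by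
  intro n
  induction n using Nat.strong_induction_on with
  | _ n ih =>
    intro H hn
    apply H1.hall_converse
    intro p hp
    by_cases hpd : p ∣ Nat.card H
    · have hHb : H ≠ ⊥ := by
        rintro rfl
        rw [Subgroup.card_bot] at hpd
        exact hp.one_lt.ne' (Nat.dvd_one.mp hpd)
      obtain ⟨K, hKt, k, hk⟩ := h H hHb p hp hpd
      -- `K` is solvable
      have hKcard : Nat.card (K.map H.subtype) = Nat.card K :=
        Subgroup.card_map_of_injective H.subtype_injective
      have hKlt : Nat.card K < Nat.card H := by
        have h1 := Subgroup.card_mul_index K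
        have h2 : K.index ≠ 1 := fun h => hKt (Subgroup.index_eq_one.mp h)
        have h3 : 0 < K.index := Nat.pos_of_ne_zero Subgroup.index_ne_zero_of_finite
        have h4 : 0 < Nat.card K := Nat.card_pos
        have h5 : 2 ≤ K.index := by omega
        nlinarith
      have hKs' : Group.IsSolvable (K.map H.subtype) :=
        ih (Nat.card (K.map H.subtype)) (by rw [hKcard, ← hn]; exact hKlt) (K.map H.subtype) rfl
      have hKs : Group.IsSolvable K :=
        Group.isSolvable_of_isSolvable_injective
          (f := (K.equivMapOfInjective H.subtype H.subtype_injective).toMonoidHom)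
          (K.equivMapOfInjective H.subtype H.subtype_injective).injective
      -- Hall `p'`-subgroup of `K`
      have hcop : (Nat.card K / p ^ (Nat.card K).factorization p).Coprime
          (p ^ (Nat.card K).factorization p) := by
        apply Nat.Coprime.pow_right
        exact (Nat.coprime_ordCompl hp Nat.card_pos.ne').symm
      have hprod : Nat.card K = (Nat.card K / p ^ (Nat.card K).factorization p) *
          p ^ (Nat.card K).factorization p :=
        (Nat.div_mul_cancel (Nat.ordProj_dvd _ _)).symm
      obtain ⟨L, hL⟩ := H1.hall_exists _ _ hprod hcop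
      refine ⟨L.map K.subtype, ?_⟩
      have hLcard : Nat.card (L.map K.subtype) =
          Nat.card K / p ^ (Nat.card K).factorization p := by
        rw [Subgroup.card_map_of_injective K.subtype_injective, hL]
      have hHK : Nat.card H = p ^ k * Nat.card K := by
        rw [← hk, mul_comm]; exact (Subgroup.card_mul_index K).symm
      have hm0 : Nat.card K / p ^ (Nat.card K).factorization p ≠ 0 := by
        intro h0
        rw [h0, zero_mul] at hprod
        exact Nat.card_pos.ne' hprod
      have hfac : (Nat.card H).factorization p = k + (Nat.card K).factorization p := by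
        rw [hHK, Nat.factorization_mul (pow_ne_zero _ hp.ne_zero) Nat.card_pos.ne']
        simp [hp.factorization_self]
      have h1 := Subgroup.card_mul_index (L.map K.subtype)
      rw [hLcard, hHK] at h1
      rw [hfac, pow_add]
      have h2 : Nat.card K / p ^ (Nat.card K).factorization p * (L.map K.subtype).index =
          Nat.card K / p ^ (Nat.card K).factorization p *
            (p ^ k * p ^ (Nat.card K).factorization p) := by
        rw [h1]
        conv_lhs => rw [hprod]
        ring
      exact Nat.eq_of_mul_eq_mul_left (Nat.pos_of_ne_zero hm0) h2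
    · refine ⟨⊤, ?_⟩
      rw [Subgroup.index_top, Nat.factorization_eq_zero_of_not_dvd hpd, pow_zero]

/-- If every nontrivial subgroup `H` has, for each prime `p` dividing `|H|`, a proper subgroup
of `p`-power index, then the group is solvable. -/
theorem isSolvable_of_forall_exists_prime_pow_index {G : Type u} [Group G] [Finite G]
    (h : ∀ H : Subgroup G, H ≠ ⊥ → ∀ p : ℕ, p.Prime → p ∣ Nat.card H →
      ∃ K : Subgroup H, K ≠ ⊤ ∧ ∃ k : ℕ, K.index = p ^ k) : Group.IsSolvable G := by
  have h1 := isSolvable_of_forall_exists_prime_pow_index_aux h _ (⊤ : Subgroup G) rfl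
  exact Group.isSolvable_of_surjective (f := (Subgroup.topEquiv (G := G)).toMonoidHom)
    (Subgroup.topEquiv (G := G)).surjective

end Cfsg.Agent.H12
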