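import Mathlib
import Cfsg.Agent.H45.UDefs
import Cfsg.Agent.H17.SUGen
import Cfsg.Agent.Lib.Helper30.PsuF1
import Cfsg.Agent.Lib.Helper30.PsuF2

set_option autoImplicit false
set_option linter.unusedSectionVars false

/-!
# Finite-field piece FAB of S2412 (helper12): generic lemmas

`E` is a finite extension of a field `F` with `q^2` elements, `b` an `F`-basis of `E`.
-/

namespace Cfsg.Agent.H12.Psu

open Matrix Cfsg.Agent.H45.U

variable {F : Type*} [Field F] [Fintype F] {q : ℕ}
variable {E : Type*} [Field E] [Algebra F E] {k : ℕ}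

/-- the `q`-power map of `E` as a ring hom. -/
def fabFrob (hF : Fintype.card F = q ^ 2) (E : Type*) [Field E] [Algebra F E] : E →+* E where
  toFun x := x ^ q
  map_one' := one_pow q
  map_mul' a b := mul_pow a b q
  map_zero' := zero_pow (by have := H17.two_le_of_card_sq hF; omega)
  map_add' a b := by
    obtain ⟨p, a', hp, hchar, hq⟩ := H17.exists_char_pow hF
    have : Fact p.Prime := ⟨hp⟩
    have : CharP E p := charP_of_injective_algebraMap (algebraMap F E).injective p
    subst hq
    exact add_pow_char_pow a b p a'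

theorem fabFrob_apply (hF : Fintype.card F = q ^ 2) (x : E) : fabFrob hF E x = x ^ q := rfl

theorem fabFrob_algebraMap (hF : Fintype.card F = q ^ 2) (c : F) :
    fabFrob hF E (algebraMap F E c) = algebraMap F E (H17.frobHom hF c) := by
  rw [fabFrob_apply, H17.frobHom_apply, map_pow]

theorem fabFrob_smul (hF : Fintype.card F = q ^ 2) (c : F) (x : E) :
    fabFrob hF E (c • x) = H17.frobHom hF c • fabFrob hF E x := by
  rw [Algebra.smul_def, map_mul, fabFrob_algebraMap, Algebra.smul_def]

theorem fab_sum_leftMul (b : Module.Basis (Fin k) F E) (x : E) (i : Fin k) :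
    ∑ l, Algebra.leftMulMatrix b x l i • b l = x * b i := by
  simp_rw [Algebra.leftMulMatrix_eq_repr_mul]
  exact b.sum_repr (x * b i)

/-- the twisted trace matrix. -/
noncomputable def fabGam (hF : Fintype.card F = q ^ 2) (b : Module.Basis (Fin k) F E) :
    Matrix (Fin k) (Fin k) F :=
  Matrix.of fun i j => Algebra.trace F E (b i * fabFrob hF E (b j))

theorem fabGam_apply (hF : Fintype.card F = q ^ 2) (b : Module.Basis (Fin k) F E) (i j : Fin k) :
    fabGam hF b i j = Algebra.trace F E (b i * fabFrob hF E (b j)) := rfl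

theorem fab_star (hF : Fintype.card F = q ^ 2) (b : Module.Basis (Fin k) F E) (ζ : E) :
    (Algebra.leftMulMatrix b (fabFrob hF E ζ))ᵀ * fabGam hF b =
      fabGam hF b * (Algebra.leftMulMatrix b ζ).map (H17.frobHom hF) := by
  ext i j
  rw [Matrix.mul_apply, Matrix.mul_apply]
  have e1 : ∑ l, (Algebra.leftMulMatrix b (fabFrob hF E ζ))ᵀ i l * fabGam hF b l j =
      Algebra.trace F E ((fabFrob hF E ζ * b i) * fabFrob hF E (b j)) := by
    rw [← fab_sum_leftMul b (fabFrob hF E ζ) i, Finset.sum_mul, map_sum]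
    apply Finset.sum_congr rfl
    intro l _
    rw [Matrix.transpose_apply, smul_mul_assoc, map_smul, smul_eq_mul, fabGam_apply]
  have e2 : ∑ l, fabGam hF b i l * (Algebra.leftMulMatrix b ζ).map (H17.frobHom hF) l j =
      Algebra.trace F E (b i * fabFrob hF E (ζ * b j)) := by
    rw [← fab_sum_leftMul b ζ j, map_sum, Finset.mul_sum, map_sum]
    apply Finset.sum_congr rfl
    intro l _
    rw [fabFrob_smul, mul_smul_comm, map_smul, smul_eq_mul, Matrix.map_apply, mul_comm,
      fabGam_apply]
  rw [e1, e2, map_mul (fabFrob hF E)]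
  congr 1
  ring

theorem fab_key [Fintype E] (b : Module.Basis (Fin k) F E) (i : Fin k) (y : E) :
    ∑ l, Algebra.trace F E (b i * b l) * b.repr y l = Algebra.trace F E (b i * y) := by
  conv_rhs => rw [← b.sum_repr y]
  rw [Finset.mul_sum, map_sum]
  apply Finset.sum_congr rfl
  intro l _
  rw [mul_smul_comm, map_smul, smul_eq_mul, mul_comm]

theorem fabGam_ker [Fintype E] (hF : Fintype.card F = q ^ 2) (b : Module.Basis (Fin k) F E)
    (v : Fin k → F) (hv : fabGam hF b *ᵥ v = 0) : v = 0 := by
  have hw : ∀ i, Algebra.trace F E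
      (b i * fabFrob hF E (∑ j, H17.frobHom hF (v j) • b j)) = 0 := by
    intro i
    have h1 := congrFun hv i
    rw [Matrix.mulVec, dotProduct] at h1
    rw [map_sum, Finset.mul_sum, map_sum]
    rw [show (0 : Fin k → F) i = 0 from rfl] at h1
    rw [← h1]
    apply Finset.sum_congr rfl
    intro j _
    rw [fabFrob_smul, H17.frobHom_invol, mul_smul_comm, map_smul, smul_eq_mul, mul_comm,
      fabGam_apply]
  have hT : (Algebra.traceMatrix F b).det ≠ 0 := by
    rw [Algebra.traceMatrix_of_basis]
    exact det_traceForm_ne_zero b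
  have hw0 : fabFrob hF E (∑ j, H17.frobHom hF (v j) • b j) = 0 := by
    have h1 : Algebra.traceMatrix F b *ᵥ
        (b.repr (fabFrob hF E (∑ j, H17.frobHom hF (v j) • b j))) = 0 := by
      funext i
      rw [Matrix.mulVec, dotProduct]
      simp only [Algebra.traceMatrix_apply, Algebra.traceForm_apply]
      rw [fab_key b i, hw i]
      rfl
    have h2 := Matrix.eq_zero_of_mulVec_eq_zero hT h1
    apply b.repr.injective
    apply DFunLike.coe_injective
    rw [h2, map_zero]
    rfl
  have hu : ∑ j, H17.frobHom hF (v j) • b j = 0 := (map_eq_zero (fabFrob hF E)).1 hw0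
  have hcoef := Fintype.linearIndependent_iff.1 b.linearIndependent _ hu
  funext j
  exact (map_eq_zero (H17.frobHom hF)).1 (hcoef j)

theorem fabGam_det [Fintype E] (hF : Fintype.card F = q ^ 2) (b : Module.Basis (Fin k) F E) :
    (fabGam hF b).det ≠ 0 := by
  intro h
  obtain ⟨v, hv0, hv⟩ := Matrix.exists_mulVec_eq_zero_iff.2 h
  exact hv0 (fabGam_ker hF b v hv)

/-- `G * B = ct σ (B ^ q) * G` for `G := Γ.map σ`. -/
theorem fab_GB (hF : Fintype.card F = q ^ 2) (b : Module.Basis (Fin k) F E) (ζ : E) :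
    (fabGam hF b).map (H17.frobHom hF) * Algebra.leftMulMatrix b ζ =
      ct (H17.frobHom hF) (Algebra.leftMulMatrix b ζ ^ q) * (fabGam hF b).map (H17.frobHom hF) := by
  have h := congrArg (fun M : Matrix (Fin k) (Fin k) F => M.map (H17.frobHom hF))
    (fab_star hF b ζ)
  simp only [Matrix.map_mul] at h
  rw [Matrix.transpose_map, Matrix.map_map] at h
  have hid : (⇑(H17.frobHom hF) ∘ ⇑(H17.frobHom hF)) = id := by
    funext a; exact H17.frobHom_invol hF a
  rw [hid, Matrix.map_id] at h
  rw [← h, ← map_pow]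
  rfl

/-- coordinates of a matrix of columns. -/
noncomputable def fabPhi (b : Module.Basis (Fin k) F E) {r : ℕ} :
    Matrix (Fin k) (Fin r) F →+ (Fin r → E) where
  toFun c l := ∑ i, c i l • b i
  map_zero' := by funext l; simp
  map_add' c c' := by funext l; simp [add_smul, Finset.sum_add_distrib]

theorem fabPhi_apply (b : Module.Basis (Fin k) F E) {r : ℕ} (c : Matrix (Fin k) (Fin r) F)
    (l : Fin r) : fabPhi b c l = ∑ i, c i l • b i := rfl

theorem fabPhi_injective (b : Module.Basis (Fin k) F E) {r : ℕ} :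
    Function.Injective (fabPhi b (r := r)) := by
  intro c c' h
  ext i l
  have h1 := congrFun h l
  rw [fabPhi_apply, fabPhi_apply] at h1
  have h2 : ∑ i, (c i l - c' i l) • b i = 0 := by
    simp_rw [sub_smul]
    rw [Finset.sum_sub_distrib, h1, sub_self]
  exact sub_eq_zero.1 (Fintype.linearIndependent_iff.1 b.linearIndependent _ h2 i)

theorem fabPhi_ne_zero (b : Module.Basis (Fin k) F E) {r : ℕ} (c : Matrix (Fin k) (Fin r) F)
    (l : Fin r) (h : ∃ i, c i l ≠ 0) : fabPhi b c l ≠ 0 := by
  intro h0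
  obtain ⟨i, hi⟩ := h
  rw [fabPhi_apply] at h0
  exact hi (Fintype.linearIndependent_iff.1 b.linearIndependent _ h0 i)

theorem fabPhi_mul (b : Module.Basis (Fin k) F E) (ζ : E) {r : ℕ}
    (c : Matrix (Fin k) (Fin r) F) (l : Fin r) :
    fabPhi b (Algebra.leftMulMatrix b ζ * c) l = ζ * fabPhi b c l := by
  rw [fabPhi_apply, fabPhi_apply, Finset.mul_sum]
  simp_rw [Matrix.mul_apply, Finset.sum_smul]
  rw [Finset.sum_comm]
  apply Finset.sum_congr rfl
  intro j _
  rw [mul_smul_comm, ← fab_sum_leftMul b ζ j, Finset.smul_sum]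
  apply Finset.sum_congr rfl
  intro i _
  rw [smul_smul, mul_comm]

theorem fabPhi_smul (b : Module.Basis (Fin k) F E) (s : F) {r : ℕ}
    (c : Matrix (Fin k) (Fin r) F) (l : Fin r) :
    fabPhi b (s • c) l = algebraMap F E s * fabPhi b c l := by
  rw [fabPhi_apply, fabPhi_apply, ← Algebra.smul_def, Finset.smul_sum]
  apply Finset.sum_congr rfl
  intro i _
  rw [Matrix.smul_apply, smul_eq_mul, mul_smul]

theorem fabPhi_diag (b : Module.Basis (Fin k) F E) {r : ℕ} (δ : Fin r → F)
    (c : Matrix (Fin k) (Fin r) F) (l : Fin r) :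
    fabPhi b (c * Matrix.diagonal δ) l = algebraMap F E (δ l) * fabPhi b c l := by
  rw [fabPhi_apply, fabPhi_apply, ← Algebra.smul_def, Finset.smul_sum]
  apply Finset.sum_congr rfl
  intro i _
  rw [Matrix.mul_diagonal, smul_smul, mul_comm]

theorem fab_top_of_map (b : Module.Basis (Fin k) F E) {r : ℕ}
    (X : AddSubgroup (Matrix (Fin k) (Fin r) F)) (h : X.map (fabPhi b) = ⊤) : X = ⊤ := by
  rw [eq_top_iff]
  intro c _
  have h1 : fabPhi b c ∈ X.map (fabPhi b) := by rw [h]; trivial
  obtain ⟨c', hc', hcc'⟩ := h1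
  rwa [← fabPhi_injective b hcc']

end Cfsg.Agent.H12.Psu
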