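import Mathlib
import Cfsg.Agent.H12.PsuFABa

set_option autoImplicit false
set_option linter.unusedSectionVars false

/-!
# Finite-field piece FAB of S2412 (helper12): order estimates and the three properties
-/

namespace Cfsg.Agent.H12.Psu

open Matrix Cfsg.Agent.H45.U

variable {F : Type*} [Field F] [Fintype F] {q : ℕ}
variable {E : Type*} [Field E] [Algebra F E] [Fintype E] {k : ℕ}

theorem fab_orderOf (ζ : Eˣ) (hζ : ∀ y : Eˣ, y ∈ Subgroup.zpowers ζ) :
    orderOf (ζ : E) = Fintype.card E - 1 := by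
  rw [orderOf_units, orderOf_eq_card_of_forall_mem_zpowers hζ, Nat.card_units,
    Nat.card_eq_fintype_card]

/-- `ζ ^ (q + 1)` additively generates `E` when `[E : F] ≥ 2`. -/
theorem fab_gen_rho (hF : Fintype.card F = q ^ 2) (ζ : Eˣ)
    (hζ : ∀ y : Eˣ, y ∈ Subgroup.zpowers ζ) (hcard : Fintype.card E = (q ^ 2) ^ k)
    (hk2 : 2 ≤ k) :
    AddSubmonoid.closure (Set.range (fun i : ℕ => ((ζ : E) ^ (q + 1)) ^ i)) = ⊤ := by
  have hq2 := H17.two_le_of_card_sq hF
  apply Cfsg.Agent.Lib.Helper30.Psu.add_closure_pow_top_of_lt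
  · exact pow_ne_zero _ ζ.ne_zero
  · have ho : orderOf ((ζ : E) ^ (q + 1)) * Nat.gcd (Fintype.card E - 1) (q + 1) =
        Fintype.card E - 1 := by
      rw [orderOf_pow' _ (by omega : q + 1 ≠ 0), fab_orderOf ζ hζ]
      exact Nat.div_mul_cancel (Nat.gcd_dvd_left _ _)
    have hg : Nat.gcd (Fintype.card E - 1) (q + 1) ≤ q + 1 :=
      Nat.le_of_dvd (by omega) (Nat.gcd_dvd_right _ _)
    have hQ : q * q ≤ q ^ k := by
      calc q * q = q ^ 2 := by ring
        _ ≤ q ^ k := Nat.pow_le_pow_right (by omega) hk2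
    have hcard' : Fintype.card E = q ^ k * q ^ k := by
      rw [hcard, ← pow_mul, mul_comm, pow_mul]; ring
    rw [hcard'] at ho hg ⊢
    generalize orderOf ((ζ : E) ^ (q + 1)) = o at ho ⊢
    generalize Nat.gcd (q ^ k * q ^ k - 1) (q + 1) = g at ho hg
    generalize q ^ k = Q at ho hQ ⊢
    have h2q : 2 * q ≤ q * q := Nat.mul_le_mul_right q hq2
    have hlt : Q < o + 1 := by
      by_contra hcon
      have ho1 : o + 1 ≤ Q := by omega
      have h1 : o * g ≤ o * (q + 1) := Nat.mul_le_mul_left o hg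
      rw [Nat.mul_add, mul_one] at h1
      have hq1 : q + 2 ≤ Q := by linarith
      have a1 : o * (q + 2) ≤ o * Q := Nat.mul_le_mul_left o hq1
      rw [Nat.mul_add] at a1
      have a2 : (o + 1) * Q ≤ Q * Q := Nat.mul_le_mul_right Q ho1
      rw [Nat.add_mul, one_mul] at a2
      have h5 : o * g + 1 = Q * Q := by
        have : 1 ≤ Q * Q := by nlinarith
        omega
      linarith
    calc Q * Q < (o + 1) * (o + 1) := Nat.mul_lt_mul_of_lt_of_le hlt hlt.le (by omega)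
      _ = (o + 1) ^ 2 := by ring

/-- `ζ ^ 3` additively generates `E` when `E = F` and `q ≥ 3`. -/
theorem fab_gen_rho3 (ζ : Eˣ) (hζ : ∀ y : Eˣ, y ∈ Subgroup.zpowers ζ)
    (hcard : Fintype.card E = q ^ 2) (hq3 : 3 ≤ q) :
    AddSubmonoid.closure (Set.range (fun i : ℕ => ((ζ : E) ^ 3) ^ i)) = ⊤ := by
  apply Cfsg.Agent.Lib.Helper30.Psu.add_closure_pow_top_of_lt
  · exact pow_ne_zero _ ζ.ne_zero
  · have ho : orderOf ((ζ : E) ^ 3) * Nat.gcd (Fintype.card E - 1) 3 = Fintype.card E - 1 := by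
      rw [orderOf_pow' _ (by omega : 3 ≠ 0), fab_orderOf ζ hζ]
      exact Nat.div_mul_cancel (Nat.gcd_dvd_left _ _)
    have hg : Nat.gcd (Fintype.card E - 1) 3 ≤ 3 :=
      Nat.le_of_dvd (by omega) (Nat.gcd_dvd_right _ _)
    have hcard' : Fintype.card E = q * q := by rw [hcard]; ring
    rw [hcard'] at ho hg ⊢
    generalize orderOf ((ζ : E) ^ 3) = o at ho ⊢
    generalize Nat.gcd (q * q - 1) 3 = g at ho hg
    have h3q : 3 * q ≤ q * q := Nat.mul_le_mul_right q hq3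
    have hlt : q < o + 1 := by
      by_contra hcon
      have ho1 : o + 1 ≤ q := by omega
      have h1 : o * g ≤ o * 3 := Nat.mul_le_mul_left o hg
      have h5 : o * g + 1 = q * q := by
        have : 1 ≤ q * q := by nlinarith
        omega
      linarith
    calc q * q < (o + 1) * (o + 1) := Nat.mul_lt_mul_of_lt_of_le hlt hlt.le (by omega)
      _ = (o + 1) ^ 2 := by ring

theorem fab_nz (hF : Fintype.card F = q ^ 2) (b : Module.Basis (Fin k) F E) (ζ : Eˣ)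
    (hζ : ∀ y : Eˣ, y ∈ Subgroup.zpowers ζ) (hcard : Fintype.card E = (q ^ 2) ^ k)
    (hk : 1 ≤ k) (hkq : 2 ≤ k ∨ 3 ≤ q)
    (lam : F) (hlam : lam ^ (q + 1) = 1) (x : Fin k → F) (hx : x ≠ 0) :
    ((Algebra.leftMulMatrix b (ζ : E)) ^ q) *ᵥ x ≠ lam • x := by
  intro h
  have hq2 := H17.two_le_of_card_sq hF
  obtain ⟨e, he⟩ : ∃ e : E, (b.repr e : Fin k → F) = x :=
    ⟨b.equivFun.symm x, LinearEquiv.apply_symm_apply b.equivFun x⟩
  have he0 : e ≠ 0 := by
    rintro rfl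
    apply hx
    rw [← he, map_zero]
    rfl
  rw [← map_pow, ← he, Algebra.leftMulMatrix_mulVec_repr] at h
  have h2 : (ζ : E) ^ q * e = lam • e := by
    apply b.repr.injective
    apply DFunLike.coe_injective
    rw [h, map_smul]
    rfl
  have h3 : (ζ : E) ^ q = algebraMap F E lam := by
    rw [Algebra.smul_def] at h2
    exact mul_right_cancel₀ he0 h2
  have h4 : (ζ : E) ^ (q * (q + 1)) = 1 := by
    rw [pow_mul, h3, ← map_pow, hlam, map_one]
  have hdvd : (q ^ 2) ^ k - 1 ∣ q * (q + 1) := by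
    rw [← hcard, ← fab_orderOf ζ hζ]
    exact orderOf_dvd_of_pow_eq_one h4
  by_cases hk2 : 2 ≤ k
  · have h6 : q ^ 4 ≤ (q ^ 2) ^ k := by
      calc q ^ 4 = (q ^ 2) ^ 2 := by ring
        _ ≤ (q ^ 2) ^ k := Nat.pow_le_pow_right (by positivity) hk2
    have h7 := Nat.le_of_dvd (by positivity) hdvd
    have h2q : 2 * q ≤ q * q := Nat.mul_le_mul_right q hq2
    have h8 : q * (q + 1) + 1 < q ^ 4 := by
      have : q ^ 4 = (q * q) * (q * q) := by ring
      rw [this]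
      nlinarith
    omega
  · have hk1 : k = 1 := by omega
    have hq3 : 3 ≤ q := by
      rcases hkq with h | h
      · exact absurd h hk2
      · exact h
    subst hk1
    rw [pow_one] at hdvd
    have e1 : q ^ 2 - 1 = (q - 1) * (q + 1) := by
      have h1 : q ^ 2 = (q - 1) * (q + 1) + 1 := by
        obtain ⟨m, rfl⟩ : ∃ m, q = m + 1 := ⟨q - 1, by omega⟩
        simp only [Nat.add_sub_cancel]
        ring
      omega
    rw [e1] at hdvd
    have h9 : (q - 1) ∣ q := Nat.dvd_of_mul_dvd_mul_right (by omega) hdvd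
    have h10 : (q - 1) ∣ 1 := by
      have := Nat.dvd_sub h9 (dvd_refl (q - 1))
      rwa [show q - (q - 1) = 1 by omega] at this
    have := Nat.dvd_one.1 h10
    omega

theorem fab_xp2 (hF : Fintype.card F = q ^ 2) (b : Module.Basis (Fin k) F E) (ζ : Eˣ)
    (hζ : ∀ y : Eˣ, y ∈ Subgroup.zpowers ζ) (hcard : Fintype.card E = (q ^ 2) ^ k)
    (hk2 : 2 ≤ k) (δ : Fin 2 → F) (hδ : ∀ l, δ l ^ (q + 1) = 1) (hδ01 : δ 0 ≠ δ 1)
    (X : AddSubgroup (Matrix (Fin k) (Fin 2) F))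
    (hX : ∀ c ∈ X, Algebra.leftMulMatrix b (ζ : E) * c * Matrix.diagonal δ ∈ X)
    (c₁ : Matrix (Fin k) (Fin 2) F) (hc₁ : c₁ ∈ X) (hc₁0 : ∀ l, ∃ i, c₁ i l ≠ 0) : X = ⊤ := by
  apply fab_top_of_map b
  apply Cfsg.Agent.Lib.Helper30.Psu.twist_top (fun l => algebraMap F E (δ l) * (ζ : E)) ?_
    ((ζ : E) ^ (q + 1)) (q + 1) ?_ (fab_gen_rho hF ζ hζ hcard hk2) (X.map (fabPhi b)) ?_
    (fabPhi b c₁) ⟨c₁, hc₁, rfl⟩ (fun l => fabPhi_ne_zero b c₁ l (hc₁0 l))
  · intro l l' h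
    have h1 : algebraMap F E (δ l) = algebraMap F E (δ l') := mul_right_cancel₀ ζ.ne_zero h
    have h2 : δ l = δ l' := (algebraMap F E).injective h1
    by_contra hne
    rcases Fin.exists_fin_two.1 ⟨l, rfl⟩ with rfl | rfl <;>
      rcases Fin.exists_fin_two.1 ⟨l', rfl⟩ with rfl | rfl
    · exact hne rfl
    · exact hδ01 h2
    · exact hδ01 h2.symm
    · exact hne rfl
  · intro l
    rw [mul_pow, ← map_pow, hδ l, map_one, one_mul]
  · rintro v ⟨c, hc, rfl⟩
    refine ⟨_, hX c hc, ?_⟩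
    funext l
    rw [fabPhi_diag, fabPhi_mul, mul_assoc]

theorem fab_xp1 (hF : Fintype.card F = q ^ 2) (b : Module.Basis (Fin k) F E) (ζ : Eˣ)
    (hζ : ∀ y : Eˣ, y ∈ Subgroup.zpowers ζ) (hcard : Fintype.card E = (q ^ 2) ^ k)
    (hk : 1 ≤ k) (hkq : 2 ≤ k ∨ 3 ≤ q)
    (X : AddSubgroup (Matrix (Fin k) (Fin 1) F))
    (hX : ∀ c ∈ X, ((Algebra.leftMulMatrix b (ζ : E)).det *
      ((Algebra.leftMulMatrix b (ζ : E)).det ^ q)⁻¹) • (Algebra.leftMulMatrix b (ζ : E) * c) ∈ X)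
    (c₁ : Matrix (Fin k) (Fin 1) F) (hc₁ : c₁ ∈ X) (hc₁0 : c₁ ≠ 0) : X = ⊤ := by
  have hx0 : ∀ l, fabPhi b c₁ l ≠ 0 := by
    intro l
    apply fabPhi_ne_zero
    by_contra hcon
    push Not at hcon
    apply hc₁0
    ext i l'
    rw [Subsingleton.elim l' l]
    exact hcon i
  have hN0 : (Algebra.leftMulMatrix b (ζ : E)).det ≠ 0 := by
    have h1 : Algebra.leftMulMatrix b (ζ : E) * Algebra.leftMulMatrix b ((ζ⁻¹ : Eˣ) : E) = 1 := by
      rw [← map_mul, Units.mul_inv, map_one]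
    have h2 := congrArg Matrix.det h1
    rw [Matrix.det_mul, Matrix.det_one] at h2
    exact left_ne_zero_of_mul_eq_one h2
  have hNq : ∀ a : F, a ^ (q ^ 2) = a := fun a => by rw [← hF]; exact FiniteField.pow_card a
  obtain ⟨N, hN⟩ : ∃ N, N = (Algebra.leftMulMatrix b (ζ : E)).det := ⟨_, rfl⟩
  rw [← hN] at hX hN0
  have hX' : ∀ v ∈ X.map (fabPhi b),
      (fun l : Fin 1 => (algebraMap F E (N * (N ^ q)⁻¹) * (ζ : E)) * v l) ∈ X.map (fabPhi b) := by
    rintro v ⟨c, hc, rfl⟩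
    refine ⟨_, hX c hc, ?_⟩
    funext l
    rw [fabPhi_smul, fabPhi_mul, mul_assoc]
  apply fab_top_of_map b
  by_cases hk2 : 2 ≤ k
  · apply Cfsg.Agent.Lib.Helper30.Psu.twist_top
      (fun _ : Fin 1 => algebraMap F E (N * (N ^ q)⁻¹) * (ζ : E))
      (Function.injective_of_subsingleton _) ((ζ : E) ^ (q + 1)) (q + 1) ?_
      (fab_gen_rho hF ζ hζ hcard hk2) (X.map (fabPhi b)) hX' (fabPhi b c₁) ⟨c₁, hc₁, rfl⟩ hx0
    intro _
    rw [mul_pow, ← map_pow]
    have h1 : (N * (N ^ q)⁻¹) ^ (q + 1) = 1 := by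
      rw [mul_pow, inv_pow, ← pow_mul]
      have h2 : N ^ (q * (q + 1)) = N ^ (q + 1) := by
        rw [show q * (q + 1) = q ^ 2 + q by ring, pow_add, hNq, pow_succ']
      rw [h2]
      exact mul_inv_cancel₀ (pow_ne_zero _ hN0)
    rw [h1, map_one, one_mul]
  · have hk1 : k = 1 := by omega
    have hq3 : 3 ≤ q := by
      rcases hkq with h | h
      · exact absurd h hk2
      · exact h
    subst hk1
    rw [pow_one] at hcard
    have hbij := (Fintype.bijective_iff_injective_and_card (algebraMap F E)).2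
      ⟨(algebraMap F E).injective, by rw [hF, hcard]⟩
    obtain ⟨β, hβ⟩ := hbij.2 (ζ : E)
    have hNβ : N = β := by
      rw [hN, ← hβ, AlgHom.commutes, Algebra.algebraMap_eq_smul_one, Matrix.det_smul,
        Matrix.det_one, Fintype.card_fin, pow_one, mul_one]
    have hβ0 : β ≠ 0 := hNβ ▸ hN0
    apply Cfsg.Agent.Lib.Helper30.Psu.twist_top
      (fun _ : Fin 1 => algebraMap F E (N * (N ^ q)⁻¹) * (ζ : E))
      (Function.injective_of_subsingleton _) ((ζ : E) ^ 3) (q + 2) ?_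
      (fab_gen_rho3 ζ hζ hcard hq3) (X.map (fabPhi b)) hX' (fabPhi b c₁) ⟨c₁, hc₁, rfl⟩ hx0
    intro _
    rw [hNβ, ← hβ, ← map_mul, ← map_pow, ← map_pow]
    congr 1
    have e1 : (β ^ q) ^ (q + 2) = β ^ (2 * q + 1) := by
      rw [← pow_mul, show q * (q + 2) = q ^ 2 + 2 * q by ring, pow_add, hNq, ← pow_succ']
    have e2 : β * (β ^ q)⁻¹ * β = β ^ 2 * (β ^ q)⁻¹ := by ring
    rw [e2, mul_pow, inv_pow, e1, ← pow_mul, show 2 * (q + 2) = 3 + (2 * q + 1) by ring, pow_add,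
      mul_assoc, mul_inv_cancel₀ (pow_ne_zero _ hβ0), mul_one]

end Cfsg.Agent.H12.Psu
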