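import Mathlib
import Cfsg.Agent.H52.QSDefs
import Cfsg.Agent.H5.BaerSuzuki

/-!
# QS-BS (helper12, for helper52's S2787)

`bs : StBS` : Baer–Suzuki plus irreducibility: a nontrivial `p`-element of a group acting
faithfully and irreducibly on a finite `ZMod p`-module generates a non-`p`-group with one of
its conjugates.
-/

set_option autoImplicit false

namespace Cfsg.Agent.H12.QS

open Cfsg.Agent.H52.QS

universe u

theorem zpowers_sup_map_conj {Q : Type*} [Group Q] (x g : Q) :
    Subgroup.zpowers x ⊔ (Subgroup.zpowers x).map (MulAut.conj g).toMonoidHom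
      = Subgroup.closure ({x, g * x * g⁻¹} : Set Q) := by
  rw [Subgroup.zpowers_eq_closure, MonoidHom.map_closure, ← Subgroup.closure_union,
    Set.image_singleton, Set.singleton_union]
  rfl

/-- **QS-BS**. -/
theorem bs : StBS.{u} := by
  intro p _ Q _ _ M _ _ _ ρ hinj hirr x hx1 hxp
  by_contra hcon
  push Not at hcon
  have hX : IsPGroup p ↥(Subgroup.zpowers x) := by
    rintro ⟨y, hy⟩
    refine ⟨1, ?_⟩
    obtain ⟨i, rfl⟩ := Subgroup.mem_zpowers_iff.mp hy
    apply Subtype.ext
    show (x ^ i) ^ p ^ 1 = 1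
    rw [pow_one, ← zpow_natCast, ← zpow_mul, mul_comm, zpow_mul, zpow_natCast, hxp, one_zpow]
  obtain ⟨N, hNn, hNp, hXN⟩ := Cfsg.Agent.H5.baer_suzuki (Subgroup.zpowers x) hX
    (fun g => by rw [zpowers_sup_map_conj]; exact hcon g)
  have hxN : x ∈ N := hXN (Subgroup.mem_zpowers x)
  let U : Submodule (ZMod p) M :=
    { carrier := {m | ∀ n ∈ N, ρ n m = m}
      add_mem' := fun {a b} ha hb n hn => by rw [map_add, ha n hn, hb n hn]
      zero_mem' := fun n _ => map_zero _
      smul_mem' := fun c {a} ha n hn => by rw [map_smul, ha n hn] }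
  have hUmem : ∀ m : M, m ∈ U ↔ ∀ n ∈ N, ρ n m = m := fun m => Iff.rfl
  have hUinv : ∀ q : Q, ∀ u ∈ U, ρ q u ∈ U := by
    intro q u hu
    rw [hUmem] at hu ⊢
    intro n hn
    have h1 : q⁻¹ * n * q ∈ N := by
      have h0 := hNn.conj_mem n hn q⁻¹
      simpa using h0
    have h2 : n * q = q * (q⁻¹ * n * q) := by group
    calc ρ n (ρ q u) = (ρ n * ρ q) u := rfl
      _ = ρ (n * q) u := by rw [map_mul]
      _ = ρ (q * (q⁻¹ * n * q)) u := by rw [h2]
      _ = (ρ q * ρ (q⁻¹ * n * q)) u := by rw [map_mul]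
      _ = ρ q (ρ (q⁻¹ * n * q) u) := rfl
      _ = ρ q u := by rw [hu _ h1]
  have hMnt : Nontrivial M := by
    by_contra hnt
    rw [not_nontrivial_iff_subsingleton] at hnt
    apply hx1
    apply hinj
    ext m
    exact Subsingleton.elim _ _
  have hUne : U ≠ ⊥ := by
    letI : MulAction ↥N M := MulAction.compHom M (ρ.comp N.subtype)
    have hsmul : ∀ (n : ↥N) (m : M), n • m = ρ (n : Q) m := fun _ _ => rfl
    have hpM : p ∣ Nat.card M := by
      have hPG : IsPGroup p (Multiplicative M) := by
        intro a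
        refine ⟨1, ?_⟩
        rw [pow_one]
        show Multiplicative.ofAdd (p • Multiplicative.toAdd a) = 1
        have h3 : p • Multiplicative.toAdd a = 0 := by
          rw [← Nat.cast_smul_eq_nsmul (ZMod p), ZMod.natCast_self, zero_smul]
        rw [h3]
        rfl
      rcases hPG.card_eq_or_dvd with h | h
      · exfalso
        have h4 : Nat.card M = 1 := h
        rw [Nat.card_eq_one_iff_unique] at h4
        exact not_subsingleton M h4.1
      · exact h
    have h0 : (0 : M) ∈ MulAction.fixedPoints ↥N M := fun n => by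
      rw [hsmul]
      exact map_zero _
    obtain ⟨b, hb, hb0⟩ := hNp.exists_fixed_point_of_prime_dvd_card_of_fixed_point M hpM h0
    intro hU
    have hbU : b ∈ U := by
      rw [hUmem]
      intro n hn
      have h5 := hb ⟨n, hn⟩
      rwa [hsmul] at h5
    rw [hU, Submodule.mem_bot] at hbU
    exact hb0 hbU.symm
  rcases hirr U hUinv with h | h
  · exact hUne h
  · apply hx1
    apply hinj
    rw [map_one]
    ext m
    have hm : m ∈ U := by
      rw [h]
      trivial
    exact (hUmem m).mp hm x hxN

example : StBS.{u} := bs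

end Cfsg.Agent.H12.QS
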