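import Cfsg.Agent.H12.QSRee4Core
import Cfsg.Agent.S1152

/-!
# QS-REE4 (helper12, for helper52's S2787)

`ree4 : StRee4` : an element `g` of the Ree group `²G₂(3^(2m+1))` with `g^4 = 1` has `g^2 = 1`
(the Sylow 2-subgroups have exponent 2, by S1152).

The preamble (context `C` from S1077 / S1026) is the one of `Cfsg/Agent/S1152.lean`.
-/

set_option autoImplicit false

namespace Cfsg.Agent.H12.QS

open Cfsg.Agent.H52.QS

/-- **QS-REE4**. -/
theorem ree4 : StRee4 := by
  intro K _ _ m hK g hg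
  have hc : CharP K 3 := Cfsg.Agent.H22.Ree.charP_three_of_card hK
  obtain ⟨C⟩ := Cfsg.Agent.H22.Ree.exists_ctx hK (Cfsg.Agent.S1077.result Cfsg.Lie.chevG2 (by simp))
    (Cfsg.Agent.S1026.result Cfsg.Lie.chevG2 (by simp)).1
  exact ree4_of_ctx C (fun a haH ha1 ha2 => (Cfsg.Agent.S1152.result hK a haH ha1 ha2).2) g hg

example : StRee4 := ree4

end Cfsg.Agent.H12.QS
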