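import Mathlib
import Cfsg.Agent.H52.QSDefs
import Cfsg.Agent.H7.RTDefs

/-!
# QS-REE4, core (helper12, for helper52's S2787)

`ree4_of_ctx`: given a Ree context `C` and the statement of S1152 (as a hypothesis), an element
`g` of `²G₂(q)` with `g^4 = 1` satisfies `g^2 = 1`.  The wrapper `QSRee4.lean` plugs in
`exists_ctx` and `Cfsg.Agent.S1152.result`.
-/

set_option autoImplicit false
open Cfsg Cfsg.Lie

namespace Cfsg.Agent.H12.QS

open Cfsg.Agent.H22 Cfsg.Agent.H22.GEx Cfsg.Agent.H22.Ree Cfsg.Agent.H7.RT Matrix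

/-- If the Sylow 2-subgroups have exponent 2, an element with `g^4 = 1` has `g^2 = 1`. -/
theorem sq_eq_one_of_pow_four {G : Type*} [Group G] [Finite G]
    (hS : ∀ S : Sylow 2 G, ∀ x ∈ S, x * x = 1) (g : G) (hg : g ^ 4 = 1) : g ^ 2 = 1 := by
  have hP : IsPGroup 2 ↥(Subgroup.zpowers g) := by
    rintro ⟨y, hy⟩
    refine ⟨2, ?_⟩
    obtain ⟨i, rfl⟩ := Subgroup.mem_zpowers_iff.mp hy
    apply Subtype.ext
    show (g ^ i) ^ 2 ^ 2 = 1
    have h4 : (2 : ℕ) ^ 2 = 4 := by norm_num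
    rw [h4, ← zpow_natCast, ← _root_.zpow_mul, mul_comm, _root_.zpow_mul, zpow_natCast, hg, _root_.one_zpow]
  obtain ⟨S, hle⟩ := hP.exists_le_sylow
  rw [pow_two]
  exact hS S g (hle (Subgroup.mem_zpowers g))

/-- QS-REE4 from a context and the statement of S1152. -/
theorem ree4_of_ctx {K : Type} [Field K] [Fintype K] [CharP K 3] {m : ℕ} (C : Ctx K (3 ^ m))
    (h1152 : ∀ a : ↥(twistedG2 K (3 ^ m)),
      (a : GL chevG2.Idx K) ∈ chevG2.diagonalSubgroup K → a ≠ 1 → a * a = 1 →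
      ∀ S : Sylow 2 ↥(twistedG2 K (3 ^ m)), Nat.card S = 8 ∧ ∀ x ∈ S, x * x = 1)
    (g : ↥(twistedG2 K (3 ^ m))) (hg : g ^ 4 = 1) : g ^ 2 = 1 :=
  sq_eq_one_of_pow_four
    (fun S x hx => ((h1152 (aEl C) (aEl_mem_H C) (aEl_ne_one C) (aEl_mul_self C)) S).2 x hx) g hg

end Cfsg.Agent.H12.QS
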