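import Mathlib
import Cfsg.Agent.H33.R3.Defs

set_option autoImplicit false

/-!
# S1666-DEG (helper12, for helper33's S1666 project)

The valencies of the two orbital relations are 22 and 77 at every point.
-/

namespace Cfsg.Agent.H12.R3

open Equiv Cfsg.Agent.H33.R3

universe u

/-- The neighbourhood of `g a` is the image under `g` of the neighbourhood of `a`. -/
theorem deg_image {Ω : Type*} (G : Subgroup (Perm Ω)) (a b : Ω) {g : Perm Ω} (hg : g ∈ G) :
    {y | Rel G a b (g a) y} = g '' {y | Rel G a b a y} := by
  ext y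
  simp only [Set.mem_ofPred_eq, Set.mem_image]
  constructor
  · intro hy
    refine ⟨g⁻¹ y, ?_, by simp⟩
    have h1 : Rel G a b (g a) (g (g⁻¹ y)) := by simpa using hy
    exact (rel_map_iff hg).1 h1
  · rintro ⟨y', hy', rfl⟩
    exact rel_map hg hy'

/-- **S1666-DEG.** -/
theorem deg : StDeg.{u} := by
  intro Ω _ G a b c h x
  obtain ⟨g, hg, rfl⟩ := h.trans a x
  rw [deg_image G a b hg, deg_image G a c hg, Set.ncard_image_of_injective _ g.injective,
    Set.ncard_image_of_injective _ g.injective]
  exact ⟨h.nb, h.nc⟩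

example : StDeg.{u} := deg

end Cfsg.Agent.H12.R3
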