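import Mathlib
import Cfsg.Agent.H33.R3.Defs

set_option autoImplicit false

/-!
# S1666-IDX2 (helper12, for helper33's S1666 project)

A simple subgroup of index 2 (of order `> 2`) is the only subgroup of its order.
-/

namespace Cfsg.Agent.H12.R3

open Equiv Cfsg.Agent.H33.R3

universe u

/-- **S1666-IDX2.** -/
theorem idx2 : StIdx2.{u} := by
  intro A _ _ H K hS h2 hKH hA
  have hKpos : 0 < Nat.card K := Nat.card_pos
  have hidx : K.index = 2 := by
    have h1 := K.card_mul_index
    rw [hA, ← hKH] at h1
    have h3 : Nat.card K * K.index = Nat.card K * 2 := by rw [h1]; ring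
    exact Nat.eq_of_mul_eq_mul_left hKpos h3
  have hKn : K.Normal := Subgroup.normal_of_index_eq_two hidx
  have hn : (K.subgroupOf H).Normal := inferInstance
  rcases hS.eq_bot_or_eq_top_of_normal (K.subgroupOf H) hn with hb | ht
  · exfalso
    have h3 : K.relIndex H ∣ K.index := Subgroup.relIndex_dvd_index_of_normal K H
    have h4 : K.relIndex H = Nat.card H := by
      rw [Subgroup.relIndex, hb, Subgroup.index_bot]
    rw [h4, hidx] at h3
    have h5 := Nat.le_of_dvd (by norm_num) h3
    omega
  · have hle : H ≤ K := Subgroup.subgroupOf_eq_top.1 ht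
    exact Subgroup.eq_of_le_of_card_ge hle (le_of_eq hKH)

example : StIdx2.{u} := idx2

end Cfsg.Agent.H12.R3
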