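import Mathlib
import Cfsg.Agent.H33.R3.Defs

set_option autoImplicit false

/-!
# S1666-MU (helper12, for helper33's S1666 project)

Two distinct non-adjacent points of the orbital graph have exactly 6 common neighbours
(`77 μ = 22 · 21`).
-/

namespace Cfsg.Agent.H12.R3

open Equiv Cfsg.Agent.H33.R3

universe u

/-- Common neighbourhoods are moved by group elements. -/
theorem mu_cn_map {Ω : Type*} (G : Subgroup (Perm Ω)) (a b : Ω) {k : Perm Ω} (hk : k ∈ G)
    (u v : Ω) :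
    {z | Rel G a b (k u) z ∧ Rel G a b (k v) z} = k '' {z | Rel G a b u z ∧ Rel G a b v z} := by
  ext z
  have hzz : k (k⁻¹ z) = z := by simp
  simp only [Set.mem_ofPred_eq, Set.mem_image]
  constructor
  · rintro ⟨h1, h2⟩
    rw [← hzz] at h1 h2
    exact ⟨k⁻¹ z, ⟨(rel_map_iff hk).1 h1, (rel_map_iff hk).1 h2⟩, hzz⟩
  · rintro ⟨z', ⟨h1, h2⟩, rfl⟩
    exact ⟨rel_map hk h1, rel_map hk h2⟩

/-- Counting the pairs `(p, y)` with `P p` and `T p y` when all the fibres have size `k`. -/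
theorem mu_count {Ω : Type*} [Finite Ω] (P : Ω → Prop) (T : Ω → Ω → Prop) (n k : ℕ)
    (hP : {p | P p}.ncard = n) (hT : ∀ p, P p → {y | T p y}.ncard = k) :
    Nat.card {q : Ω × Ω // P q.1 ∧ T q.1 q.2} = n * k := by
  classical
  have : Fintype {p // P p} := Fintype.ofFinite _
  have e : {q : Ω × Ω // P q.1 ∧ T q.1 q.2} ≃ Σ p : {p // P p}, {y // T p.1 y} :=
    { toFun := fun q => ⟨⟨q.1.1, q.2.1⟩, ⟨q.1.2, q.2.2⟩⟩
      invFun := fun s => ⟨(s.1.1, s.2.1), s.1.2, s.2.2⟩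
      left_inv := fun q => rfl
      right_inv := fun s => rfl }
  rw [Nat.card_congr e, Nat.card_sigma]
  have h1 : ∀ p : {p // P p}, Nat.card {y // T p.1 y} = k := fun p => by
    rw [← hT p.1 p.2]
    exact Nat.card_coe_set_eq {y | T p.1 y}
  have h2 : Fintype.card {p // P p} = n := by
    rw [← hP, ← Nat.card_eq_fintype_card]
    exact Nat.card_coe_set_eq {p | P p}
  simp only [h1, Finset.sum_const, Finset.card_univ, smul_eq_mul, h2]

/-- **S1666-MU.** -/
theorem mu (hP : StPart.{u}) (hD : StDeg.{u}) (hS : StSymm.{u}) : StMu.{u} := by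
  intro Ω _ G a b c h hnt x y hxy hnxy
  obtain ⟨_, hic, hcov, _⟩ := hP G a b c h
  have hdeg := fun x => (hD G a b c h x).1
  have hsym := hS G a b c h
  -- first count
  have hT1 : ∀ p, Rel G a b a p → {y | Rel G a c a y ∧ Rel G a b p y}.ncard = 21 := by
    intro p hp
    have h1 : {y | Rel G a c a y ∧ Rel G a b p y} = {y | Rel G a b p y} \ {a} := by
      ext y
      simp only [Set.mem_ofPred_eq, Set.mem_sdiff, Set.mem_singleton_iff]
      constructor
      · rintro ⟨h1, h2⟩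
        refine ⟨h2, ?_⟩
        rintro rfl
        exact hic _ h1
      · rintro ⟨h1, h2⟩
        refine ⟨?_, h1⟩
        rcases hcov a y (fun h3 => h2 h3.symm) with h3 | h3
        · exact (hnt a p y hp h3 h1).elim
        · exact h3
    have h2 : a ∈ ({y | Rel G a b p y} : Set Ω) := hsym _ _ hp
    rw [h1, Set.ncard_sdiff_singleton_of_mem h2, hdeg p]
  have hc1 := mu_count (fun p => Rel G a b a p) (fun p y => Rel G a c a y ∧ Rel G a b p y) 22 21
    (h.nb) hT1
  -- second count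
  have hT2 : ∀ y, Rel G a c a y → {p | Rel G a b a p ∧ Rel G a b p y}.ncard
      = {z | Rel G a b a z ∧ Rel G a b c z}.ncard := by
    rintro y ⟨k, hk, hka, hkc⟩
    have h1 : {p | Rel G a b a p ∧ Rel G a b p y}
        = {z | Rel G a b (k a) z ∧ Rel G a b (k c) z} := by
      ext p
      simp only [Set.mem_ofPred_eq]
      rw [hka, hkc]
      exact ⟨fun ⟨h1, h2⟩ => ⟨h1, hsym _ _ h2⟩, fun ⟨h1, h2⟩ => ⟨h1, hsym _ _ h2⟩⟩
    rw [h1, mu_cn_map G a b hk a c, Set.ncard_image_of_injective _ k.injective]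
  have hc2 := mu_count (fun y => Rel G a c a y) (fun y p => Rel G a b a p ∧ Rel G a b p y) 77
    ({z | Rel G a b a z ∧ Rel G a b c z}.ncard) (h.nc) hT2
  have e : {q : Ω × Ω // Rel G a b a q.1 ∧ Rel G a c a q.2 ∧ Rel G a b q.1 q.2}
      ≃ {q : Ω × Ω // Rel G a c a q.1 ∧ Rel G a b a q.2 ∧ Rel G a b q.2 q.1} :=
    Equiv.subtypeEquiv (Equiv.prodComm Ω Ω)
      (fun q => ⟨fun ⟨h1, h2, h3⟩ => ⟨h2, h1, h3⟩, fun ⟨h1, h2, h3⟩ => ⟨h2, h1, h3⟩⟩)
  have hmu : {z | Rel G a b a z ∧ Rel G a b c z}.ncard = 6 := by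
    have h3 := Nat.card_congr e
    rw [hc1, hc2] at h3
    omega
  -- reduction to `x = a`
  obtain ⟨g, hg, rfl⟩ := h.trans a x
  have hyy : g (g⁻¹ y) = y := by simp
  have hy1 : g⁻¹ y ≠ a := by
    intro h1
    apply hxy
    rw [← hyy, h1]
  have hy2 : ¬ Rel G a b a (g⁻¹ y) := by
    intro h1
    apply hnxy
    have h2 := rel_map hg h1
    rwa [hyy] at h2
  have hy3 : Rel G a c a (g⁻¹ y) := (hcov a _ (fun h3 => hy1 h3.symm)).resolve_left hy2
  obtain ⟨k, hk, hka, hkc⟩ := hy3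
  have h5 : {z | Rel G a b (g a) z ∧ Rel G a b y z}
      = (g * k) '' {z | Rel G a b a z ∧ Rel G a b c z} := by
    rw [← mu_cn_map G a b (mul_mem hg hk) a c, Perm.mul_apply, Perm.mul_apply, hka, hkc, hyy]
  rw [h5, Set.ncard_image_of_injective _ (g * k).injective, hmu]

example (hP : StPart.{u}) (hD : StDeg.{u}) (hS : StSymm.{u}) : StMu.{u} := mu hP hD hS

end Cfsg.Agent.H12.R3
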