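import Mathlib
import Cfsg.Agent.H33.R3.Defs

set_option autoImplicit false

/-!
# S1666-PART (helper12, for helper33's S1666 project)

The two orbital relations are irreflexive, disjoint, and cover all pairs of distinct points.
-/

namespace Cfsg.Agent.H12.R3

open Equiv Cfsg.Agent.H33.R3

universe u

/-- If `a = b` the neighbourhood of `a` is `{a}`. -/
theorem part_nbhd_self {Ω : Type*} (G : Subgroup (Perm Ω)) (a : Ω) :
    {y | Rel G a a a y} = {a} := by
  ext y
  simp only [Set.mem_ofPred_eq, Set.mem_singleton_iff]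
  constructor
  · rintro ⟨g, _, h1, h2⟩
    rw [← h2, h1]
  · rintro rfl
    exact ⟨1, one_mem _, rfl, rfl⟩

/-- Two neighbourhoods of `a` (orbits of the stabiliser of `a`) that meet are equal. -/
theorem part_orbit_sub {Ω : Type*} (G : Subgroup (Perm Ω)) (a b c y : Ω)
    (hb : Rel G a b a y) (hc : Rel G a c a y) :
    {y | Rel G a b a y} ⊆ {y | Rel G a c a y} := by
  obtain ⟨g, hg, hga, hgb⟩ := hb
  obtain ⟨k, hk, hka, hkc⟩ := hc
  rintro y' ⟨g', hg', hg'a, hg'b⟩
  have hginv : g⁻¹ a = a := by rw [Perm.inv_eq_iff_eq]; exact hga.symm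
  refine ⟨g' * g⁻¹ * k, mul_mem (mul_mem hg' (inv_mem hg)) hk, ?_, ?_⟩
  · rw [Perm.mul_apply, Perm.mul_apply, hka, hginv, hg'a]
  · have h1 : g⁻¹ (g b) = b := by simp
    rw [Perm.mul_apply, Perm.mul_apply, hkc, ← hgb, h1, hg'b]

/-- **S1666-PART.** -/
theorem part : StPart.{u} := by
  intro Ω _ G a b c h
  have hab : a ≠ b := by
    intro hab
    have h2 := h.nb
    rw [← hab, part_nbhd_self, Set.ncard_singleton] at h2
    omega
  have hac : a ≠ c := by
    intro hac
    have h2 := h.nc
    rw [← hac, part_nbhd_self, Set.ncard_singleton] at h2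
    omega
  have haB : ¬ Rel G a b a a := by
    rintro ⟨g, _, h1, h2⟩
    exact hab (g.injective (h1.trans h2.symm))
  have haC : ¬ Rel G a c a a := by
    rintro ⟨g, _, h1, h2⟩
    exact hac (g.injective (h1.trans h2.symm))
  have hdisj : ∀ y, Rel G a b a y → ¬ Rel G a c a y := by
    intro y hb hc
    have hBC : {y | Rel G a b a y} = {y | Rel G a c a y} :=
      Set.Subset.antisymm (part_orbit_sub G a b c y hb hc) (part_orbit_sub G a c b y hc hb)
    have h2 := h.nb
    rw [hBC, h.nc] at h2
    omega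
  have hcover : ∀ y, y ≠ a → Rel G a b a y ∨ Rel G a c a y := by
    have hd1 : Disjoint {y | Rel G a b a y} {y | Rel G a c a y} :=
      Set.disjoint_left.2 (fun y hy => hdisj y hy)
    have hd2 : Disjoint ({y | Rel G a b a y} ∪ {y | Rel G a c a y}) {a} := by
      rw [Set.disjoint_singleton_right]
      rintro (h1 | h1)
      · exact haB h1
      · exact haC h1
    have hcard : (({y | Rel G a b a y} ∪ {y | Rel G a c a y}) ∪ {a}).ncard = 100 := by
      rw [Set.ncard_union_eq hd2, Set.ncard_union_eq hd1, h.nb, h.nc, Set.ncard_singleton]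
    have huniv : (({y | Rel G a b a y} ∪ {y | Rel G a c a y}) ∪ {a}) = Set.univ := by
      rw [Set.eq_univ_iff_ncard, hcard, Nat.card_eq_fintype_card, h.card]
    intro y hy
    have hmem : y ∈ (({y | Rel G a b a y} ∪ {y | Rel G a c a y}) ∪ {a}) :=
      huniv ▸ Set.mem_univ y
    rcases hmem with (h1 | h1) | h1
    · exact Or.inl h1
    · exact Or.inr h1
    · exact absurd h1 hy
  refine ⟨?_, ?_, ?_, ?_⟩
  · rintro x ⟨g, _, h1, h2⟩
    exact hab (g.injective (h1.trans h2.symm))
  · rintro x ⟨g, _, h1, h2⟩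
    exact hac (g.injective (h1.trans h2.symm))
  · intro x y hxy
    obtain ⟨g, hg, rfl⟩ := h.trans a x
    have hy : g⁻¹ y ≠ a := by
      intro h1
      apply hxy
      rw [Perm.inv_eq_iff_eq] at h1
      exact h1.symm
    have hyy : g (g⁻¹ y) = y := by simp
    rcases hcover _ hy with h1 | h1
    · left
      have h2 := rel_map hg h1
      rwa [hyy] at h2
    · right
      have h2 := rel_map hg h1
      rwa [hyy] at h2
  · intro x y hb hc
    obtain ⟨g, hg, rfl⟩ := h.trans a x
    have hyy : g (g⁻¹ y) = y := by simp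
    rw [← hyy] at hb hc
    exact hdisj _ ((rel_map_iff hg).1 hb) ((rel_map_iff hg).1 hc)

example : StPart.{u} := part

end Cfsg.Agent.H12.R3
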