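import Mathlib
import Cfsg.Agent.H33.R3.Defs

set_option autoImplicit false

/-!
# S1666-SYMM (helper12, for helper33's S1666 project)

The orbital of `(a, b)` (valency 22) is self-paired.
-/

namespace Cfsg.Agent.H12.R3

open Equiv Cfsg.Agent.H33.R3

universe u

/-- The number of pairs in a relation all of whose out-degrees are `k`. -/
theorem symm_card_pairs {Ω : Type*} [Fintype Ω] (R : Ω → Ω → Prop) (k : ℕ)
    (hk : ∀ x, {y | R x y}.ncard = k) :
    Nat.card {p : Ω × Ω // R p.1 p.2} = Fintype.card Ω * k := by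
  rw [Nat.card_congr (Equiv.subtypeProdEquivSigmaSubtype R), Nat.card_sigma]
  have h1 : ∀ x, Nat.card {y // R x y} = k := fun x => by
    rw [← hk x]
    exact Nat.card_coe_set_eq {y | R x y}
  simp [h1]

/-- **S1666-SYMM.** -/
theorem symm (hP : StPart.{u}) (hD : StDeg.{u}) : StSymm.{u} := by
  intro Ω _ G a b c h x y hxy
  obtain ⟨hib, _, hcov, _⟩ := hP G a b c h
  have hdeg := hD G a b c h
  by_contra hyx
  have hne : y ≠ x := by rintro rfl; exact hib _ hxy
  have hc : Rel G a c y x := (hcov y x hne).resolve_left hyx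
  obtain ⟨g, hg, rfl, rfl⟩ := hxy
  have hcba : Rel G a c b a := (rel_map_iff hg).1 hc
  obtain ⟨m, hm, hma, hmc⟩ := hcba
  have hrev : ∀ u v, Rel G a c u v → Rel G a b v u := by
    rintro u v ⟨n, hn, rfl, rfl⟩
    refine ⟨n * m⁻¹, mul_mem hn (inv_mem hm), ?_, ?_⟩
    · rw [Perm.mul_apply]
      congr 1
      rw [Perm.inv_eq_iff_eq]
      exact hmc.symm
    · rw [Perm.mul_apply]
      congr 1
      rw [Perm.inv_eq_iff_eq]
      exact hma.symm
  have hcb : Nat.card {p : Ω × Ω // Rel G a b p.1 p.2} = 100 * 22 := by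
    rw [symm_card_pairs (Rel G a b) 22 (fun x => (hdeg x).1), h.card]
  have hcc : Nat.card {p : Ω × Ω // Rel G a c p.1 p.2} = 100 * 77 := by
    rw [symm_card_pairs (Rel G a c) 77 (fun x => (hdeg x).2), h.card]
  have hinj : Function.Injective
      (fun p : {p : Ω × Ω // Rel G a c p.1 p.2} =>
        (⟨p.1.swap, hrev _ _ p.2⟩ : {p : Ω × Ω // Rel G a b p.1 p.2})) := by
    intro p q hpq
    have h1 : p.1.swap = q.1.swap := congrArg Subtype.val hpq
    exact Subtype.ext (Prod.swap_injective h1)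
  have h2 := Nat.card_le_card_of_injective _ hinj
  omega

example (hP : StPart.{u}) (hD : StDeg.{u}) : StSymm.{u} := symm hP hD

end Cfsg.Agent.H12.R3
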