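import Mathlib
import Cfsg.Agent.H33.R3.Defs

set_option autoImplicit false

/-!
# S1666-TRI (helper12, for helper33's S1666 project)

The orbital graph of `(a, b)` has no triangles: otherwise the closed neighbourhoods would
partition the 100 points into cliques of size 23.
-/

namespace Cfsg.Agent.H12.R3

open Equiv Cfsg.Agent.H33.R3

universe u

/-- Closed neighbourhoods are moved by group elements. -/
theorem tri_closed_map {Ω : Type*} (G : Subgroup (Perm Ω)) (a b : Ω) {n : Perm Ω} (hn : n ∈ G)
    (x y : Ω) :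
    (y = n x ∨ Rel G a b (n x) y) ↔ (n⁻¹ y = x ∨ Rel G a b x (n⁻¹ y)) := by
  have hyy : n (n⁻¹ y) = y := by simp
  constructor
  · rintro (h1 | h1)
    · left; rw [h1]; simp
    · right; rw [← hyy] at h1; exact (rel_map_iff hn).1 h1
  · rintro (h1 | h1)
    · left; rw [← h1, hyy]
    · right
      have h2 := rel_map hn h1
      rwa [hyy] at h2

/-- **S1666-TRI.** -/
theorem tri (hP : StPart.{u}) (hD : StDeg.{u}) (hS : StSymm.{u}) : StTri.{u} := by
  intro Ω _ G a b c h hTwo x y z hxy hxz hyz
  obtain ⟨hib, _, _, _⟩ := hP G a b c h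
  have hdeg := fun x => (hD G a b c h x).1
  have hsym := hS G a b c h
  obtain ⟨g, hg, rfl, rfl⟩ := hxy
  have hzz : g (g⁻¹ z) = z := by simp
  rw [← hzz] at hxz hyz
  have haz : Rel G a b a (g⁻¹ z) := (rel_map_iff hg).1 hxz
  have hbz : Rel G a b b (g⁻¹ z) := (rel_map_iff hg).1 hyz
  have hzb : g⁻¹ z ≠ b := by
    intro h1
    rw [h1] at hbz
    exact hib _ hbz
  have hab : Rel G a b a b := ⟨1, one_mem _, rfl, rfl⟩
  have h2 : ∀ q', Rel G a b a q' → q' ≠ b → Rel G a b b q' := by
    intro q' hq' hq'b
    obtain ⟨k, hk, _, hkb, hkq⟩ := hTwo _ q' haz hq' hzb hq'b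
    have h3 := rel_map hk hbz
    rwa [hkb, hkq] at h3
  have hcl : ∀ x, ({y | y = x ∨ Rel G a b x y} : Set Ω).ncard = 23 := by
    intro x
    have h3 : ({y | y = x ∨ Rel G a b x y} : Set Ω) = insert x {y | Rel G a b x y} := by
      ext y
      simp [Set.mem_insert_iff]
    have h5 : x ∉ ({y | Rel G a b x y} : Set Ω) := fun hx => hib x hx
    rw [h3, Set.ncard_insert_of_notMem h5, hdeg x]
  have h3 : ({y | y = a ∨ Rel G a b a y} : Set Ω) = {y | y = b ∨ Rel G a b b y} := by
    refine Set.eq_of_subset_of_ncard_le ?_ ?_ (Set.toFinite _)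
    · rintro y (rfl | hy)
      · right; exact hsym _ _ hab
      · by_cases hyb : y = b
        · left; exact hyb
        · right; exact h2 y hy hyb
    · rw [hcl, hcl]
  have h4 : ∀ u v, Rel G a b u v →
      ∀ y, (y = u ∨ Rel G a b u y) ↔ (y = v ∨ Rel G a b v y) := by
    rintro u v ⟨n, hn, rfl, rfl⟩ y
    rw [tri_closed_map G a b hn a y, tri_closed_map G a b hn b y]
    exact Set.ext_iff.1 h3 (n⁻¹ y)
  let s : Setoid Ω :=
    { r := fun x y => y = x ∨ Rel G a b x y
      iseqv :=
        ⟨fun x => Or.inl rfl,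
          fun {x y} hxy => hxy.elim (fun h => Or.inl h.symm) (fun h => Or.inr (hsym _ _ h)),
          fun {x y z} hxy hyz => by
            rcases hxy with rfl | hxy
            · exact hyz
            · exact (h4 x y hxy z).2 hyz⟩ }
  have hfib : ∀ q : Quotient s, Nat.card {x // (Quotient.mk s x) = q} = 23 := by
    intro q
    induction q using Quotient.inductionOn with
    | _ x₀ =>
      rw [← hcl x₀, ← Nat.card_coe_set_eq]
      apply Nat.card_congr
      apply Equiv.subtypeEquivRight
      intro x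
      rw [Quotient.eq]
      constructor
      · rintro (h1 | h1)
        · exact Or.inl h1.symm
        · exact Or.inr (hsym _ _ h1)
      · rintro (h1 | h1)
        · exact Or.inl h1.symm
        · exact Or.inr (hsym _ _ h1)
  have : Fintype (Quotient s) := Fintype.ofFinite _
  have hcount : Nat.card Ω = Fintype.card (Quotient s) * 23 := by
    rw [← Nat.card_congr (Equiv.sigmaFiberEquiv (Quotient.mk s)), Nat.card_sigma]
    simp [hfib]
  rw [Nat.card_eq_fintype_card, h.card] at hcount
  omega

example (hP : StPart.{u}) (hD : StDeg.{u}) (hS : StSymm.{u}) : StTri.{u} := tri hP hD hS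

end Cfsg.Agent.H12.R3
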