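import Mathlib
import Cfsg.Agent.H33.R3.Defs

set_option autoImplicit false

/-!
# S1666-TWO (helper12, for helper33's S1666 project)

The stabiliser of `a` and `b` is transitive on the remaining 21 neighbours of `a`.
-/

namespace Cfsg.Agent.H12.R3

open Equiv Cfsg.Agent.H33.R3

universe u

/-- A third point, away from two given ones, in a set of 22 points. -/
theorem two_third {P : Type} [Fintype P] (hP : Fintype.card P = 22) (p₀ p₁ : P) :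
    ∃ p₂, p₂ ≠ p₀ ∧ p₂ ≠ p₁ := by
  classical
  have hlt : ({p₀, p₁} : Finset P).card < (Finset.univ : Finset P).card := by
    rw [Finset.card_univ, hP]
    exact lt_of_le_of_lt Finset.card_le_two (by norm_num)
  obtain ⟨x, _, hx⟩ := Finset.exists_mem_notMem_of_card_lt_card hlt
  simp only [Finset.mem_insert, Finset.mem_singleton, not_or] at hx
  exact ⟨x, hx.1, hx.2⟩

/-- **S1666-TWO.** -/
theorem two (hT : StT) : StTwo.{u} := by
  intro Ω _ G a b c h M P _ _ _ hcardP hcardM htr ⟨e⟩ q q' hq hq' hqb hq'b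
  have hidx : (MulAction.stabilizer (↥(MulAction.stabilizer (↥G) a)) b).index = 22 := by
    rw [MulAction.index_stabilizer, ← h.nb]
    congr 1
    ext y
    simp only [MulAction.mem_orbit_iff, Set.mem_ofPred_eq]
    constructor
    · rintro ⟨s, rfl⟩
      exact ⟨((s : ↥G) : Perm Ω), (s : ↥G).2, s.2, rfl⟩
    · rintro ⟨g, hg, hga, hgb⟩
      exact ⟨⟨⟨g, hg⟩, hga⟩, hgb⟩
  have hKidx : ((MulAction.stabilizer (↥(MulAction.stabilizer (↥G) a)) b).map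
      (e : ↥(MulAction.stabilizer (↥G) a) →* M)).index = 22 := by
    rw [Subgroup.index_map_equiv, hidx]
  obtain ⟨p₀, hp₀⟩ := hT hcardP hcardM htr _ hKidx
  have hstab : ∀ t : ↥(MulAction.stabilizer (↥G) a),
      e t • p₀ = p₀ ↔ ((t : ↥G) : Perm Ω) b = b := by
    intro t
    rw [← MulAction.mem_stabilizer_iff, ← hp₀]
    constructor
    · rintro ⟨t', ht', h1⟩
      have h2 : t' = t := e.injective h1
      rw [← h2]
      exact ht'
    · intro ht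
      exact ⟨t, ht, rfl⟩
  obtain ⟨g, hg, hga, rfl⟩ := hq
  obtain ⟨g', hg', hg'a, rfl⟩ := hq'
  have h1 : e ⟨⟨g, hg⟩, hga⟩ • p₀ ≠ p₀ := by
    rw [Ne, hstab]
    exact hqb
  have h1' : e ⟨⟨g', hg'⟩, hg'a⟩ • p₀ ≠ p₀ := by
    rw [Ne, hstab]
    exact hq'b
  obtain ⟨p₂, hp₂⟩ := two_third hcardP p₀ (e ⟨⟨g, hg⟩, hga⟩ • p₀)
  obtain ⟨p₂', hp₂'⟩ := two_third hcardP p₀ (e ⟨⟨g', hg'⟩, hg'a⟩ • p₀)
  obtain ⟨m, hm0, hm1, _⟩ := htr p₀ (e ⟨⟨g, hg⟩, hga⟩ • p₀) p₂ p₀ (e ⟨⟨g', hg'⟩, hg'a⟩ • p₀) p₂'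
    (Ne.symm h1) (Ne.symm hp₂.1) (Ne.symm hp₂.2) (Ne.symm h1') (Ne.symm hp₂'.1)
    (Ne.symm hp₂'.2)
  obtain ⟨k, rfl⟩ := e.surjective m
  have hkb : ((k : ↥G) : Perm Ω) b = b := (hstab k).1 hm0
  have h2 : e ((⟨⟨g', hg'⟩, hg'a⟩ : ↥(MulAction.stabilizer (↥G) a))⁻¹ * k * ⟨⟨g, hg⟩, hga⟩) • p₀
      = p₀ := by
    rw [map_mul, map_mul, map_inv, mul_smul, mul_smul, hm1, inv_smul_smul]
  have h3 := (hstab _).1 h2
  have h4 : g'⁻¹ (((k : ↥G) : Perm Ω) (g b)) = b := h3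
  rw [Perm.inv_eq_iff_eq] at h4
  exact ⟨((k : ↥G) : Perm Ω), (k : ↥G).2, k.2, hkb, h4⟩

example (hT : StT) : StTwo.{u} := two hT

end Cfsg.Agent.H12.R3
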