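import Cfsg.Agent.H7.RTDefs
import Cfsg.Agent.H44.SL2Card

/-!
# RT-CONJPSI1 (helper12, for helper7's S2359)

`conjPsi1`: an element of prime order `p ∣ (q+1)/4` of `²G₂(q)` is conjugate into `ψ(SL₂(q))`
(the image contains a Sylow `p`-subgroup, by the order formulas).
-/

set_option autoImplicit false
open Cfsg Cfsg.Lie

namespace Cfsg.Agent.H12.RT

open Cfsg.Agent.H22 Cfsg.Agent.H22.GEx Cfsg.Agent.H22.Ree Cfsg.Agent.H45.R2 Cfsg.Agent.H7.RC
  Cfsg.Agent.H7.RT Matrix

universe u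

variable {K : Type u} [Field K] [Fintype K] [CharP K 3] {m : ℕ}

/-- **RT-CONJPSI1**. -/
theorem conjPsi1 (C : Ctx K (3 ^ m)) (hK : Fintype.card K = 3 ^ (2 * m + 1))
    (hcan : CanonG2 K) (hW : WeylG2 K) (hc : CommStmt (K := K)) (hmem : MemStmt C)
    (hk : KerStmt C) (hconj : StConjInto.{u}) (hNA : StNTA) : StConjPsi1 C hc hmem := by
  intro p hp hpdvd y hy
  have hpp : p.Prime := hp.out
  have hq8 := q_mod8 m
  have hG : Nat.card ↥(twistedG2 K (3 ^ m)) =
      (3 ^ (2 * m + 1)) ^ 3 * (3 ^ (2 * m + 1) - 1) * ((3 ^ (2 * m + 1)) ^ 3 + 1) :=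
    C.card_twisted hK hcan hW
  have hS : Nat.card (SpecialLinearGroup (Fin 2) K) =
      3 ^ (2 * m + 1) * ((3 ^ (2 * m + 1)) ^ 2 - 1) := by
    rw [Cfsg.Agent.H44.card_SL2, hK]
  have h3q : 3 ∣ 3 ^ (2 * m + 1) := dvd_pow_self 3 (by omega)
  obtain ⟨q, hq⟩ : ∃ q : ℕ, q = 3 ^ (2 * m + 1) := ⟨_, rfl⟩
  rw [← hq] at hq8 hpdvd hG hS h3q
  have h4 : 4 ∣ q + 1 := by omega
  have hp_dvd : p ∣ q + 1 := dvd_trans hpdvd (Nat.div_dvd_of_dvd h4)
  have hodd : ¬ 2 ∣ (q + 1) / 4 := by omega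
  have hp2 : p ≠ 2 := by
    rintro rfl
    exact hodd hpdvd
  have hp3 : p ≠ 3 := by
    rintro rfl
    have h1 : 3 ∣ 1 := (Nat.dvd_add_right h3q).mp hp_dvd
    omega
  have hp3lt : 3 < p := by
    have h2 := hpp.two_le
    omega
  have hnpq : ¬ p ∣ q := by
    intro h
    rw [hq] at h
    exact hp3 ((Nat.prime_dvd_prime_iff_eq hpp Nat.prime_three).mp (hpp.dvd_of_dvd_pow h))
  have hq2 : 2 ≤ q := by omega
  have hfac := (hNA q p hq2 hpp hp3lt hnpq).2.1 hp_dvd
  have hkerle : Nat.card ↥(psiG C hc hmem).ker ≤ 2 := by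
    have hsub : ((psiG C hc hmem).ker : Set (SpecialLinearGroup (Fin 2) K)) ⊆ {1, -1} := by
      intro s hs
      have h1 : psiG C hc hmem s = 1 := hs
      rcases psiG_eq_one C hc hmem hk s h1 with h | h
      · left; exact h
      · right; exact h
    calc Nat.card ↥(psiG C hc hmem).ker
        = ((psiG C hc hmem).ker : Set (SpecialLinearGroup (Fin 2) K)).ncard :=
          Nat.card_coe_set_eq _
      _ ≤ ({1, -1} : Set (SpecialLinearGroup (Fin 2) K)).ncard :=
          Set.ncard_le_ncard hsub (Set.toFinite _)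
      _ ≤ 2 := by
          have h5 := Set.ncard_insert_le (1 : SpecialLinearGroup (Fin 2) K) ({-1} : Set _)
          rw [Set.ncard_singleton] at h5
          exact h5
  have hkerpos : 0 < Nat.card ↥(psiG C hc hmem).ker := Nat.card_pos
  have hrpos : 0 < Nat.card ↥(psiG C hc hmem).range := Nat.card_pos
  have hmul : Nat.card ↥(psiG C hc hmem).ker * Nat.card ↥(psiG C hc hmem).range
      = q * (q ^ 2 - 1) := by
    rw [← hS, ← Subgroup.index_ker, Subgroup.card_mul_index]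
  have hfacQ : (q * (q ^ 2 - 1)).factorization p
      = (Nat.card ↥(psiG C hc hmem).range).factorization p := by
    rw [← hmul, Nat.factorization_mul hkerpos.ne' hrpos.ne']
    have h6 : (Nat.card ↥(psiG C hc hmem).ker).factorization p = 0 := by
      apply Nat.factorization_eq_zero_of_not_dvd
      intro hdvd
      have h7 := Nat.le_of_dvd hkerpos hdvd
      omega
    rw [Finsupp.add_apply, h6, zero_add]
  obtain ⟨g, s, hs⟩ := hconj ↥(twistedG2 K (3 ^ m)) p (psiG C hc hmem).range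
    (by rw [hG, ← hfacQ]; exact hfac) y hy
  exact ⟨g, s, hs.symm⟩

example (C : Ctx K (3 ^ m)) (hK : Fintype.card K = 3 ^ (2 * m + 1))
    (hcan : CanonG2 K) (hW : WeylG2 K) (hc : CommStmt (K := K)) (hmem : MemStmt C)
    (hk : KerStmt C) (hconj : StConjInto.{u}) (hNA : StNTA) : StConjPsi1 C hc hmem :=
  conjPsi1 C hK hcan hW hc hmem hk hconj hNA

end Cfsg.Agent.H12.RT
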