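import Cfsg.Agent.H7.RTDefs
import Cfsg.Agent.H12.RTConjCent

/-!
# RT-H3 (helper12, parallel copy for helper7's S2359)

`h3`: for an involution `v` commuting with `ψ(t)`, the group `C_G(ψ(t)) ∩ C_G(v)` is abelian
(conjugate `v` to `a`, lift the conjugate of `ψ(t)` to `ψ(t')`, and use that `D_{t'}` is
abelian).
-/

set_option autoImplicit false
open Cfsg Cfsg.Lie

namespace Cfsg.Agent.H12.RT

open Cfsg.Agent.H22 Cfsg.Agent.H22.GEx Cfsg.Agent.H22.Ree Cfsg.Agent.H45.R2 Cfsg.Agent.H7.RC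
  Cfsg.Agent.H7.RT Matrix

universe u

variable {K : Type u} [Field K] [Fintype K] [CharP K 3] {m : ℕ}

/-- **RT-H3**. -/
theorem h3 (C : Ctx K (3 ^ m)) (hc : CommStmt (K := K)) (hmem : MemStmt C)
    (hinv : ∀ u v : ↥(twistedG2 K (3 ^ m)), u ≠ 1 → u * u = 1 → v ≠ 1 → v * v = 1 →
      ∃ g, g * u * g⁻¹ = v)
    (hlift : StLift C hc hmem) (hdab : StDAb C hc hmem) (hdc : StDCent C hc hmem) :
    StH3 C hc hmem := by
  intro t ht1 htodd htdvd v hv1 hv2 hvt y₁ y₂ h1t h1v h2t h2v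
  obtain ⟨g, hg⟩ := hinv v (aEl C) hv1 hv2 (aEl_ne_one C) (aEl_mul_self C)
  have hconj_comm : ∀ y w : ↥(twistedG2 K (3 ^ m)), y * w = w * y →
      (g * y * g⁻¹) * (g * w * g⁻¹) = (g * w * g⁻¹) * (g * y * g⁻¹) := by
    intro y w h
    calc g * y * g⁻¹ * (g * w * g⁻¹) = g * (y * w) * g⁻¹ := by group
      _ = g * (w * y) * g⁻¹ := by rw [h]
      _ = g * w * g⁻¹ * (g * y * g⁻¹) := by group
  obtain ⟨t', ht'1, ht'odd, ht'dvd, ht'⟩ : ∃ t' : SpecialLinearGroup (Fin 2) K, t' ≠ 1 ∧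
      Odd (orderOf t') ∧ orderOf t' ∣ 3 ^ (2 * m + 1) + 1 ∧
      psiG C hc hmem t' = g * psiG C hc hmem t * g⁻¹ := by
    by_cases hx1 : psiG C hc hmem t = 1
    · exact ⟨t, ht1, htodd, htdvd, by rw [hx1]; group⟩
    · have hx1' : g * psiG C hc hmem t * g⁻¹ ≠ 1 := by
        intro e
        apply hx1
        have h0 : psiG C hc hmem t = g⁻¹ * (g * psiG C hc hmem t * g⁻¹) * g := by group
        rw [h0, e]; group
      have hord : orderOf (g * psiG C hc hmem t * g⁻¹) = orderOf (psiG C hc hmem t) :=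
        orderOf_conj_eq g _
      have hdvd : orderOf (psiG C hc hmem t) ∣ orderOf t := orderOf_map_dvd (psiG C hc hmem) t
      have hxodd : Odd (orderOf (g * psiG C hc hmem t * g⁻¹)) := by
        rw [hord]
        exact Odd.of_dvd_nat htodd hdvd
      have hxa : g * psiG C hc hmem t * g⁻¹ * aEl C = aEl C * (g * psiG C hc hmem t * g⁻¹) := by
        rw [← hg]
        exact hconj_comm _ _ hvt.symm
      obtain ⟨t', ht', ht'1, ht'dvd⟩ := hlift _ hx1' hxodd hxa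
      have hdvd2 : orderOf t' ∣ orderOf t := dvd_trans ht'dvd (by rw [hord]; exact hdvd)
      exact ⟨t', ht'1, Odd.of_dvd_nat htodd hdvd2, dvd_trans hdvd2 htdvd, ht'⟩
  have hD : ∀ y : ↥(twistedG2 K (3 ^ m)), y * psiG C hc hmem t = psiG C hc hmem t * y →
      y * v = v * y → g * y * g⁻¹ ∈ DSub C hc hmem t' := by
    intro y hyt hyv
    apply hdc t' ht'1 ht'odd
    · rw [ht']
      exact hconj_comm _ _ hyt
    · rw [← hg]
      exact hconj_comm _ _ hyv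
  have hcomm := (hdab t' ht'1 ht'odd ht'dvd).1 _ (hD y₁ h1t h1v) _ (hD y₂ h2t h2v)
  have h4 : y₁ * y₂ = g⁻¹ * (g * y₁ * g⁻¹ * (g * y₂ * g⁻¹)) * g := by group
  have h5 : y₂ * y₁ = g⁻¹ * (g * y₂ * g⁻¹ * (g * y₁ * g⁻¹)) * g := by group
  rw [h4, h5, hcomm]

example (C : Ctx K (3 ^ m)) (hc : CommStmt (K := K)) (hmem : MemStmt C)
    (hinv : ∀ u v : ↥(twistedG2 K (3 ^ m)), u ≠ 1 → u * u = 1 → v ≠ 1 → v * v = 1 →
      ∃ g, g * u * g⁻¹ = v)
    (hlift : StLift C hc hmem) (hdab : StDAb C hc hmem) (hdc : StDCent C hc hmem) :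
    StH3 C hc hmem := h3 C hc hmem hinv hlift hdab hdc

end Cfsg.Agent.H12.RT
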