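import Mathlib
import Cfsg.Agent.H51.RsDefs

/-!
# S2113 (team project, helper51): pieces RS-ARITHA, RS-ARITHB, RS-ARITHC — the exponent pairs
`(a, b)` with `3^N - 1 ∤ a 3^i + b 3^j`.
-/

set_option autoImplicit false

namespace Cfsg.Agent.H12.Rs

open Cfsg.Agent.H96.Ro Cfsg.Agent.H51.Rs

/-- a power of 3 is 1 or three times a power of 3 -/
theorem pow3_cases (e : ℕ) : 3 ^ e = 1 ∨ ∃ x : ℕ, 3 ^ e = 3 * x ∧ (x = 1 ∨ ∃ y : ℕ, x = 3 * y) := by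
  rcases Nat.eq_zero_or_pos e with h | h
  · left; rw [h, pow_zero]
  · right
    obtain ⟨e', rfl⟩ := Nat.exists_eq_succ_of_ne_zero (Nat.pos_iff_ne_zero.mp h)
    refine ⟨3 ^ e', by rw [pow_succ]; ring, ?_⟩
    rcases Nat.eq_zero_or_pos e' with h' | h'
    · left; rw [h', pow_zero]
    · right
      obtain ⟨e'', rfl⟩ := Nat.exists_eq_succ_of_ne_zero (Nat.pos_iff_ne_zero.mp h')
      exact ⟨3 ^ e'', by rw [pow_succ]; ring⟩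

/-- a sum of four powers of 3 is not `3^N - 1` for `N ≥ 3` -/
theorem four_pow_ne (N a b c d : ℕ) (hN : 3 ≤ N) :
    3 ^ a + 3 ^ b + 3 ^ c + 3 ^ d ≠ 3 ^ N - 1 := by
  intro h
  obtain ⟨N', rfl⟩ : ∃ N', N = N' + 3 := ⟨N - 3, by omega⟩
  have hT : 3 ^ (N' + 3) = 27 * 3 ^ N' := by rw [pow_add]; ring
  have hpos : 1 ≤ 3 ^ N' := Nat.one_le_pow _ _ (by norm_num)
  rw [hT] at h
  rcases pow3_cases a with ha | ⟨xa, ha, ha'⟩ <;> rcases pow3_cases b with hb | ⟨xb, hb, hb'⟩ <;>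
    rcases pow3_cases c with hc | ⟨xc, hc, hc'⟩ <;> rcases pow3_cases d with hd | ⟨xd, hd, hd'⟩ <;>
    rw [ha, hb, hc, hd] at h
  all_goals first
    | omega
    | (rcases ha' with ha' | ⟨ya, ha'⟩ <;> rcases hb' with hb' | ⟨yb, hb'⟩ <;> omega)
    | (rcases ha' with ha' | ⟨ya, ha'⟩ <;> rcases hc' with hc' | ⟨yc, hc'⟩ <;> omega)
    | (rcases ha' with ha' | ⟨ya, ha'⟩ <;> rcases hd' with hd' | ⟨yd, hd'⟩ <;> omega)
    | (rcases hb' with hb' | ⟨yb, hb'⟩ <;> rcases hc' with hc' | ⟨yc, hc'⟩ <;> omega)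
    | (rcases hb' with hb' | ⟨yb, hb'⟩ <;> rcases hd' with hd' | ⟨yd, hd'⟩ <;> omega)
    | (rcases hc' with hc' | ⟨yc, hc'⟩ <;> rcases hd' with hd' | ⟨yd, hd'⟩ <;> omega)

/-- powers of 3 modulo `3^N - 1` -/
theorem pow3_modEq (N e : ℕ) : 3 ^ e ≡ 3 ^ (e % N) [MOD 3 ^ N - 1] := by
  have hpos : 1 ≤ 3 ^ N := Nat.one_le_pow _ _ (by norm_num)
  have h1 : 3 ^ N ≡ 1 [MOD 3 ^ N - 1] := by
    obtain ⟨Q, hQ⟩ : ∃ Q, 3 ^ N = Q + 1 := ⟨3 ^ N - 1, by omega⟩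
    rw [hQ, Nat.add_sub_cancel]
    show (Q + 1) % Q = 1 % Q
    rw [Nat.add_mod_left]
  have h2 : 3 ^ e = (3 ^ N) ^ (e / N) * 3 ^ (e % N) := by
    rw [← pow_mul, ← pow_add, Nat.div_add_mod]
  rw [h2]
  have h3 := (h1.pow (e / N)).mul_right (3 ^ (e % N))
  rw [one_pow, one_mul] at h3
  exact h3

/-- a sum of four powers of 3 is not divisible by `3^N - 1` for `N ≥ 3` -/
theorem not_dvd_four (N a b c d : ℕ) (hN : 3 ≤ N) :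
    ¬ (3 ^ N - 1) ∣ 3 ^ a + 3 ^ b + 3 ^ c + 3 ^ d := by
  intro h
  have hN0 : 0 < N := by omega
  have hmod : 3 ^ a + 3 ^ b + 3 ^ c + 3 ^ d ≡
      3 ^ (a % N) + 3 ^ (b % N) + 3 ^ (c % N) + 3 ^ (d % N) [MOD 3 ^ N - 1] :=
    (((pow3_modEq N a).add (pow3_modEq N b)).add (pow3_modEq N c)).add (pow3_modEq N d)
  have h' : (3 ^ N - 1) ∣ 3 ^ (a % N) + 3 ^ (b % N) + 3 ^ (c % N) + 3 ^ (d % N) :=
    (Nat.modEq_zero_iff_dvd.mp (hmod.symm.trans (Nat.modEq_zero_iff_dvd.mpr h)))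
  have hle : ∀ e : ℕ, 3 ^ (e % N) ≤ 3 ^ (N - 1) := fun e =>
    Nat.pow_le_pow_right (by norm_num) (by have := Nat.mod_lt e hN0; omega)
  have hT : 3 ^ N = 3 * 3 ^ (N - 1) := by
    obtain ⟨N', rfl⟩ : ∃ N', N = N' + 1 := ⟨N - 1, by omega⟩
    rw [pow_succ, Nat.add_sub_cancel]; ring
  have hpos : ∀ e : ℕ, 1 ≤ 3 ^ e := fun e => Nat.one_le_pow _ _ (by norm_num)
  obtain ⟨k, hk⟩ := h'
  have ha := hle a; have hb := hle b; have hc := hle c; have hd := hle d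
  have pa := hpos (a % N); have pb := hpos (b % N); have pc := hpos (c % N)
  have pd := hpos (d % N); have pT := hpos (N - 1)
  have pT2 : 3 ^ 2 ≤ 3 ^ (N - 1) := Nat.pow_le_pow_right (by norm_num) (by omega)
  rcases Nat.lt_or_ge k 2 with hk2 | hk2
  · interval_cases k
    · rw [mul_zero] at hk
      omega
    · rw [mul_one] at hk
      exact four_pow_ne N _ _ _ _ hN hk
  · have h2 : (3 ^ N - 1) * 2 ≤ (3 ^ N - 1) * k := Nat.mul_le_mul_left _ hk2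
    rw [← hk, hT] at h2
    omega

/-- a sum of two powers `3^i + 3^j`, `i, j < N`, is not divisible by `3^N - 1` for `N ≥ 3` -/
theorem not_dvd_two (N i j : ℕ) (hN : 3 ≤ N) (hi : i < N) (hj : j < N) :
    ¬ (3 ^ N - 1) ∣ 3 ^ i + 3 ^ j := by
  intro h
  have hT : 3 ^ N = 3 * 3 ^ (N - 1) := by
    obtain ⟨N', rfl⟩ : ∃ N', N = N' + 1 := ⟨N - 1, by omega⟩
    rw [pow_succ, Nat.add_sub_cancel]; ring
  have hi' : 3 ^ i ≤ 3 ^ (N - 1) := Nat.pow_le_pow_right (by norm_num) (by omega)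
  have hj' : 3 ^ j ≤ 3 ^ (N - 1) := Nat.pow_le_pow_right (by norm_num) (by omega)
  have pi : 1 ≤ 3 ^ i := Nat.one_le_pow _ _ (by norm_num)
  have pT : 3 ^ 2 ≤ 3 ^ (N - 1) := Nat.pow_le_pow_right (by norm_num) (by omega)
  have hle := Nat.le_of_dvd (Nat.add_pos_left pi _) h
  rw [hT] at hle
  omega

theorem odd_pow3 (e : ℕ) : Odd (3 ^ e) := Odd.pow (by decide)

/-- (RS-ARITHA) -/
theorem arithA : StArithA := by
  intro m hm i hi j hj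
  have hQ : Even (3 ^ (2 * m + 1) - 1) := Nat.Odd.sub_odd (odd_pow3 _) (by decide)
  have hn1 : Even (3 ^ (m + 1) + 1) := Odd.add_odd (odd_pow3 _) (by decide)
  have hn2 : Odd (3 ^ (m + 1) + 2) := Odd.add_even (odd_pow3 _) (by decide)
  refine ⟨?_, ?_, ?_⟩
  · rw [one_mul, one_mul]
    exact not_dvd_two _ i j (by omega) hi hj
  · intro h
    have h1 : Even ((3 ^ (m + 1) + 1) * 3 ^ i + 1 * 3 ^ j) := hQ.trans_dvd h
    have h2 : Odd ((3 ^ (m + 1) + 1) * 3 ^ i + 1 * 3 ^ j) := by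
      rw [one_mul]
      exact Even.add_odd (hn1.mul_right _) (odd_pow3 _)
    exact (Nat.not_even_iff_odd.mpr h2) h1
  · intro h
    have h1 : Even ((3 ^ (m + 1) + 1) * 3 ^ i + (3 ^ (m + 1) + 2) * 3 ^ j) := hQ.trans_dvd h
    have h2 : Odd ((3 ^ (m + 1) + 1) * 3 ^ i + (3 ^ (m + 1) + 2) * 3 ^ j) :=
      Even.add_odd (hn1.mul_right _) (hn2.mul (odd_pow3 _))
    exact (Nat.not_even_iff_odd.mpr h2) h1

/-- (RS-ARITHB) -/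
theorem arithB : StArithB := by
  intro m hm i hi j hj
  refine ⟨?_, ?_⟩
  · have e1 : (3 ^ (m + 1) + 2) * 3 ^ i + 1 * 3 ^ j =
        3 ^ (m + 1 + i) + 3 ^ i + 3 ^ i + 3 ^ j := by
      rw [pow_add]; ring
    rw [e1]
    exact not_dvd_four _ _ _ _ _ (by omega)
  · have e1 : (3 ^ (m + 1) + 1) * 3 ^ i + (3 ^ (m + 1) + 1) * 3 ^ j =
        3 ^ (m + 1 + i) + 3 ^ i + 3 ^ (m + 1 + j) + 3 ^ j := by
      rw [pow_add, pow_add]; ring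
    rw [e1]
    exact not_dvd_four _ _ _ _ _ (by omega)

/-- (RS-ARITHC) -/
theorem arithC : StArithC := by
  intro m hm i hi j hj h
  apply not_dvd_two (2 * m + 1) i j (by omega) hi hj
  have hq : 3 ^ (m + 1) * 3 ^ (m + 1) = 3 * 3 ^ (2 * m + 1) := by
    rw [← pow_add, ← pow_succ']
    congr 1
    omega
  have hn9 : 9 ≤ 3 ^ (m + 1) := by
    have : 3 ^ 2 ≤ 3 ^ (m + 1) := Nat.pow_le_pow_right (by norm_num) (by omega)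
    omega
  have hqpos : 1 ≤ 3 ^ (2 * m + 1) := Nat.one_le_pow _ _ (by norm_num)
  obtain ⟨n', hn'⟩ : ∃ n', 3 ^ (m + 1) = n' + 2 := ⟨3 ^ (m + 1) - 2, by omega⟩
  obtain ⟨Q, hQ⟩ : ∃ Q, 3 ^ (2 * m + 1) = Q + 1 := ⟨3 ^ (2 * m + 1) - 1, by omega⟩
  rw [hn', hQ] at hq
  rw [hn', hQ, Nat.add_sub_cancel] at h
  rw [hQ, Nat.add_sub_cancel]
  have e1 : n' * ((n' + 2 + 2) * 3 ^ i + (n' + 2 + 2) * 3 ^ j) + (3 ^ i + 3 ^ j) =
      Q * (3 * (3 ^ i + 3 ^ j)) := by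
    have h3 : n' * (n' + 2 + 2) + 1 = Q * 3 := by nlinarith
    calc n' * ((n' + 2 + 2) * 3 ^ i + (n' + 2 + 2) * 3 ^ j) + (3 ^ i + 3 ^ j)
        = (n' * (n' + 2 + 2) + 1) * (3 ^ i + 3 ^ j) := by ring
      _ = Q * (3 * (3 ^ i + 3 ^ j)) := by rw [h3]; ring
  have h4 : Q ∣ n' * ((n' + 2 + 2) * 3 ^ i + (n' + 2 + 2) * 3 ^ j) := Dvd.dvd.mul_left h n'
  have h5 : Q ∣ n' * ((n' + 2 + 2) * 3 ^ i + (n' + 2 + 2) * 3 ^ j) + (3 ^ i + 3 ^ j) := by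
    rw [e1]
    exact Dvd.intro _ rfl
  exact (Nat.dvd_add_right h4).mp h5

example : StArithA =
    (∀ m : ℕ, 1 ≤ m → ∀ i < 2 * m + 1, ∀ j < 2 * m + 1,
    ¬ (3 ^ (2 * m + 1) - 1) ∣ 1 * 3 ^ i + 1 * 3 ^ j ∧
    ¬ (3 ^ (2 * m + 1) - 1) ∣ (3 ^ (m + 1) + 1) * 3 ^ i + 1 * 3 ^ j ∧
    ¬ (3 ^ (2 * m + 1) - 1) ∣ (3 ^ (m + 1) + 1) * 3 ^ i + (3 ^ (m + 1) + 2) * 3 ^ j) :=
  rfl

example : StArithB =
    (∀ m : ℕ, 1 ≤ m → ∀ i < 2 * m + 1, ∀ j < 2 * m + 1,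
    ¬ (3 ^ (2 * m + 1) - 1) ∣ (3 ^ (m + 1) + 2) * 3 ^ i + 1 * 3 ^ j ∧
    ¬ (3 ^ (2 * m + 1) - 1) ∣ (3 ^ (m + 1) + 1) * 3 ^ i + (3 ^ (m + 1) + 1) * 3 ^ j) :=
  rfl

example : StArithC =
    (∀ m : ℕ, 1 ≤ m → ∀ i < 2 * m + 1, ∀ j < 2 * m + 1,
    ¬ (3 ^ (2 * m + 1) - 1) ∣ (3 ^ (m + 1) + 2) * 3 ^ i + (3 ^ (m + 1) + 2) * 3 ^ j) :=
  rfl

end Cfsg.Agent.H12.Rs
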