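import Mathlib
import Cfsg.Agent.H51.RsDefs

/-!
# S2113 (team project, helper51): piece RS-CYC — for every prime `p ≠ 2, 3` one of the four cyclic
tori of `²G₂(q)` has index prime to `p`.
-/

set_option autoImplicit false

namespace Cfsg.Agent.H12.Rs

open Cfsg.Agent.H96.Ro Cfsg.Agent.H51.Rs

universe v

/-- a subgroup of order `a` in a group of order `c * a` has index `c` -/
theorem cyc_aux {G : Type v} [Group G] [Finite G] (p : ℕ) (A : Subgroup G) (a c : ℕ)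
    (hA : Nat.card A = a) (hG : Nat.card G = c * a) (hc : ¬ p ∣ c) : ¬ p ∣ A.index := by
  have ha : 0 < a := hA ▸ Nat.card_pos
  have h := A.index_mul_card
  rw [hA, hG] at h
  have h' : A.index = c := Nat.eq_of_mul_eq_mul_right ha h
  rwa [h']

/-- (RS-CYC) -/
theorem cyc : StCyc.{v} := by
  intro G _ _ m hm hcard hA p hp hp2 hp3
  have : Fact p.Prime := ⟨hp⟩
  have hq8 : 3 ^ (2 * m + 1) % 8 = 3 := by
    rw [pow_succ, pow_mul, Nat.mul_mod, Nat.pow_mod]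
    norm_num
  have hrr : 3 ^ (m + 1) * 3 ^ (m + 1) = 3 * 3 ^ (2 * m + 1) := by
    rw [← pow_add, ← pow_succ']
    congr 1
    omega
  have hrq : 3 ^ (m + 1) ≤ 3 ^ (2 * m + 1) := Nat.pow_le_pow_right (by norm_num) (by omega)
  have hpq : ¬ p ∣ 3 ^ (2 * m + 1) := fun h =>
    hp3 ((Nat.prime_dvd_prime_iff_eq hp Nat.prime_three).mp (hp.dvd_of_dvd_pow h))
  obtain ⟨A1, hA1c, hA1⟩ := hA ((3 ^ (2 * m + 1) - 1) / 2) (by simp)
  obtain ⟨A2, hA2c, hA2⟩ := hA ((3 ^ (2 * m + 1) + 1) / 4) (by simp)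
  obtain ⟨A3, hA3c, hA3⟩ := hA (3 ^ (2 * m + 1) - 3 ^ (m + 1) + 1) (by simp)
  obtain ⟨A4, hA4c, hA4⟩ := hA (3 ^ (2 * m + 1) + 3 ^ (m + 1) + 1) (by simp)
  clear hA
  generalize 3 ^ (2 * m + 1) = q at *
  generalize 3 ^ (m + 1) = r at *
  obtain ⟨a₁, ha₁⟩ : ∃ a₁, (q - 1) / 2 = a₁ := ⟨_, rfl⟩
  obtain ⟨a₂, ha₂⟩ : ∃ a₂, (q + 1) / 4 = a₂ := ⟨_, rfl⟩
  obtain ⟨a₃, ha₃⟩ : ∃ a₃, q - r + 1 = a₃ := ⟨_, rfl⟩
  obtain ⟨a₄, ha₄⟩ : ∃ a₄, q + r + 1 = a₄ := ⟨_, rfl⟩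
  rw [ha₁] at hA1
  rw [ha₂] at hA2
  rw [ha₃] at hA3
  rw [ha₄] at hA4
  have e1 : 2 * a₁ + 1 = q := by omega
  have e2 : 4 * a₂ = q + 1 := by omega
  have e3 : a₃ + r = q + 1 := by omega
  have e4 : a₄ = q + r + 1 := by omega
  have e1' : q - 1 = 2 * a₁ := by omega
  have e34 : ((a₃ : ℤ) * a₄ + q) = q * q + 1 := by
    have h3' : (a₃ : ℤ) + r = q + 1 := by exact_mod_cast e3
    have h4' : (a₄ : ℤ) = q + r + 1 := by exact_mod_cast e4
    have hrr' : (r : ℤ) * r = 3 * q := by exact_mod_cast hrr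
    rw [h4']
    linear_combination (q + r + 1 : ℤ) * h3' - hrr'
  have e5 : q ^ 3 + 1 = 4 * a₂ * (a₃ * a₄) := by
    have h2' : (4 : ℤ) * a₂ = q + 1 := by exact_mod_cast e2
    have : ((q : ℤ) ^ 3 + 1) = 4 * a₂ * (a₃ * a₄) := by
      linear_combination (-(a₃ * a₄ : ℤ)) * h2' - (q + 1 : ℤ) * e34
    exact_mod_cast this
  have hcard' : Nat.card G = q ^ 3 * (2 * a₁) * (4 * a₂ * (a₃ * a₄)) := by
    rw [hcard, e1', e5]
  -- pass to `ZMod p`
  have hQ0 : (q : ZMod p) ≠ 0 := fun h => hpq ((ZMod.natCast_eq_zero_iff _ _).mp h)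
  have h2 : (2 : ZMod p) ≠ 0 := by
    intro h
    have h' : ((2 : ℕ) : ZMod p) = 0 := by exact_mod_cast h
    exact hp2 ((Nat.prime_dvd_prime_iff_eq hp Nat.prime_two).mp ((ZMod.natCast_eq_zero_iff _ _).mp h'))
  have h3 : (3 : ZMod p) ≠ 0 := by
    intro h
    have h' : ((3 : ℕ) : ZMod p) = 0 := by exact_mod_cast h
    exact hp3 ((Nat.prime_dvd_prime_iff_eq hp Nat.prime_three).mp ((ZMod.natCast_eq_zero_iff _ _).mp h'))
  have h4 : (4 : ZMod p) ≠ 0 := by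
    have : (4 : ZMod p) = 2 * 2 := by norm_num
    rw [this]
    exact mul_ne_zero h2 h2
  have E1 : (2 : ZMod p) * a₁ + 1 = q := by exact_mod_cast congrArg (Nat.cast : ℕ → ZMod p) e1
  have E2 : (4 : ZMod p) * a₂ = q + 1 := by exact_mod_cast congrArg (Nat.cast : ℕ → ZMod p) e2
  have E3 : (a₃ : ZMod p) + r = q + 1 := by exact_mod_cast congrArg (Nat.cast : ℕ → ZMod p) e3
  have E4 : (a₄ : ZMod p) = q + r + 1 := by exact_mod_cast congrArg (Nat.cast : ℕ → ZMod p) e4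
  have ERR : (r : ZMod p) * r = 3 * q := by exact_mod_cast congrArg (Nat.cast : ℕ → ZMod p) hrr
  have n12 : (a₁ : ZMod p) = 0 → (a₂ : ZMod p) = 0 → False := fun k1 k2 =>
    h2 (by linear_combination E1 - E2 - 2 * k1 + 4 * k2)
  have n13 : (a₁ : ZMod p) = 0 → (a₃ : ZMod p) = 0 → False := fun k1 k3 => by
    have hQ : (q : ZMod p) = 1 := by linear_combination -E1 + 2 * k1
    have hR : (r : ZMod p) = 2 := by linear_combination E3 - k3 + hQ
    rw [hQ, hR] at ERR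
    exact one_ne_zero (α := ZMod p) (by linear_combination ERR)
  have n14 : (a₁ : ZMod p) = 0 → (a₄ : ZMod p) = 0 → False := fun k1 k4 => by
    have hQ : (q : ZMod p) = 1 := by linear_combination -E1 + 2 * k1
    have hR : (r : ZMod p) = -2 := by linear_combination -E4 + k4 - hQ
    rw [hQ, hR] at ERR
    exact one_ne_zero (α := ZMod p) (by linear_combination ERR)
  have n23 : (a₂ : ZMod p) = 0 → (a₃ : ZMod p) = 0 → False := fun k2 k3 => by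
    have hQ : (q : ZMod p) = -1 := by linear_combination -E2 + 4 * k2
    have hR : (r : ZMod p) = 0 := by linear_combination E3 - k3 + hQ
    rw [hQ, hR] at ERR
    exact h3 (by linear_combination ERR)
  have n24 : (a₂ : ZMod p) = 0 → (a₄ : ZMod p) = 0 → False := fun k2 k4 => by
    have hQ : (q : ZMod p) = -1 := by linear_combination -E2 + 4 * k2
    have hR : (r : ZMod p) = 0 := by linear_combination -E4 + k4 - hQ
    rw [hQ, hR] at ERR
    exact h3 (by linear_combination ERR)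
  have n34 : (a₃ : ZMod p) = 0 → (a₄ : ZMod p) = 0 → False := fun k3 k4 => by
    have h2R : (2 : ZMod p) * r = 0 := by linear_combination E3 - k3 - E4 + k4
    have hR : (r : ZMod p) = 0 := (mul_eq_zero.mp h2R).resolve_left h2
    have hQ : (q : ZMod p) = -1 := by linear_combination -E3 + k3 + hR
    rw [hQ, hR] at ERR
    exact h3 (by linear_combination ERR)
  by_cases hpG : p ∣ Nat.card G
  swap
  · exact ⟨⊥, inferInstance, by rwa [Subgroup.index_bot]⟩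
  rw [hcard'] at hpG
  have hz : ((q ^ 3 * (2 * a₁) * (4 * a₂ * (a₃ * a₄)) : ℕ) : ZMod p) = 0 :=
    (ZMod.natCast_eq_zero_iff _ _).mpr hpG
  push_cast at hz
  have hcases : (a₁ : ZMod p) = 0 ∨ (a₂ : ZMod p) = 0 ∨ (a₃ : ZMod p) = 0 ∨ (a₄ : ZMod p) = 0 := by
    by_contra hcon
    push Not at hcon
    exact (mul_ne_zero (mul_ne_zero (pow_ne_zero 3 hQ0) (mul_ne_zero h2 hcon.1))
      (mul_ne_zero (mul_ne_zero h4 hcon.2.1) (mul_ne_zero hcon.2.2.1 hcon.2.2.2))) hz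
  rcases hcases with k | k | k | k
  · refine ⟨A1, hA1c, cyc_aux p A1 a₁ (q ^ 3 * 2 * (4 * a₂ * (a₃ * a₄))) hA1
      (by rw [hcard']; ring) ?_⟩
    rw [← ZMod.natCast_eq_zero_iff]
    push_cast
    exact mul_ne_zero (mul_ne_zero (pow_ne_zero 3 hQ0) h2)
      (mul_ne_zero (mul_ne_zero h4 (fun k' => n12 k k'))
        (mul_ne_zero (fun k' => n13 k k') (fun k' => n14 k k')))
  · refine ⟨A2, hA2c, cyc_aux p A2 a₂ (q ^ 3 * (2 * a₁) * (4 * (a₃ * a₄))) hA2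
      (by rw [hcard']; ring) ?_⟩
    rw [← ZMod.natCast_eq_zero_iff]
    push_cast
    exact mul_ne_zero (mul_ne_zero (pow_ne_zero 3 hQ0) (mul_ne_zero h2 (fun k' => n12 k' k)))
      (mul_ne_zero h4 (mul_ne_zero (fun k' => n23 k k') (fun k' => n24 k k')))
  · refine ⟨A3, hA3c, cyc_aux p A3 a₃ (q ^ 3 * (2 * a₁) * (4 * a₂ * a₄)) hA3
      (by rw [hcard']; ring) ?_⟩
    rw [← ZMod.natCast_eq_zero_iff]
    push_cast
    exact mul_ne_zero (mul_ne_zero (pow_ne_zero 3 hQ0) (mul_ne_zero h2 (fun k' => n13 k' k)))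
      (mul_ne_zero (mul_ne_zero h4 (fun k' => n23 k' k)) (fun k' => n34 k k'))
  · refine ⟨A4, hA4c, cyc_aux p A4 a₄ (q ^ 3 * (2 * a₁) * (4 * a₂ * a₃)) hA4
      (by rw [hcard']; ring) ?_⟩
    rw [← ZMod.natCast_eq_zero_iff]
    push_cast
    exact mul_ne_zero (mul_ne_zero (pow_ne_zero 3 hQ0) (mul_ne_zero h2 (fun k' => n14 k' k)))
      (mul_ne_zero (mul_ne_zero h4 (fun k' => n24 k' k)) (fun k' => n34 k' k))

example : StCyc.{v} =
    (∀ (G : Type v) [Group G] [Finite G] (m : ℕ), 1 ≤ m →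
    Nat.card G = (3 ^ (2 * m + 1)) ^ 3 * (3 ^ (2 * m + 1) - 1) * ((3 ^ (2 * m + 1)) ^ 3 + 1) →
    (∀ k ∈ ({(3 ^ (2 * m + 1) - 1) / 2, (3 ^ (2 * m + 1) + 1) / 4,
        3 ^ (2 * m + 1) - 3 ^ (m + 1) + 1, 3 ^ (2 * m + 1) + 3 ^ (m + 1) + 1} : Set ℕ),
      ∃ A : Subgroup G, IsCyclic A ∧ Nat.card A = k) →
    ∀ p : ℕ, p.Prime → p ≠ 2 → p ≠ 3 → ∃ A : Subgroup G, IsCyclic A ∧ ¬ p ∣ A.index) :=
  rfl

end Cfsg.Agent.H12.Rs
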