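import Mathlib
import Cfsg.Agent.H51.RsDefs

/-!
# S2113 (team project, helper51): piece RS-NUKER — `nuL L` is the `L.length`-th power on the
kernel of a central extension.
-/

set_option autoImplicit false

namespace Cfsg.Agent.H12.Rs

open Cfsg.Agent.H96.Ro Cfsg.Agent.H51.Rs

universe u v w

theorem nuKer : StNuKer.{u, v, w} := by
  intro K _ G _ n Γ _ E L z hz
  unfold Ext.nuL
  induction L with
  | nil => simp
  | cons κ L ih =>
    rw [List.map_cons, List.prod_cons, ih, List.length_cons, pow_succ']
    have h1 : E.hh κ * z * (E.hh κ)⁻¹ = z := by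
      rw [E.central z hz (E.hh κ), mul_assoc, mul_inv_cancel, mul_one]
    rw [h1]

example : StNuKer.{u, v, w} =
    (∀ (K : Type u) [Field K] (G : Type v) [Group G] (n : ℕ) (Γ : Type w) [Group Γ]
    (E : Ext K G n Γ) (L : List Kˣ) (z : Γ), E.σ z = 1 → E.nuL L z = z ^ L.length) :=
  rfl

end Cfsg.Agent.H12.Rs
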