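import Mathlib
import Cfsg.Agent.H48.SPCDefs
import Cfsg.Agent.H48.OmTransfer

set_option autoImplicit false
set_option linter.unusedSectionVars false

/-! helper12: piece SPC-SYM of helper48's S2676 team project — nondegenerate symmetric matrices
over a finite field of odd characteristic are congruent iff their determinants agree up to
squares, and both square classes occur. -/

namespace Cfsg.Agent.H12.SPC

open Matrix

universe u

section basics

variable {F : Type*} [Field F] {κ : Type} [Fintype κ] [DecidableEq κ]

theorem single_dot_mulVec_single (M : Matrix κ κ F) (i j : κ) :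
    (Pi.single i (1 : F) : κ → F) ⬝ᵥ (M *ᵥ (Pi.single j (1 : F) : κ → F)) = M i j := by
  rw [single_dotProduct, one_mul, Matrix.mulVec_single_one]
  rfl

theorem dot_symm (C : Matrix κ κ F) (hC : C.transpose = C) (u w : κ → F) :
    w ⬝ᵥ (C *ᵥ u) = u ⬝ᵥ (C *ᵥ w) := by
  rw [Matrix.dotProduct_mulVec u, ← Matrix.mulVec_transpose, hC, dotProduct_comm]

/-- The quadratic form `v ↦ (1/2) v·Cv`. -/
noncomputable def qf (C : Matrix κ κ F) : QuadraticForm F (κ → F) :=
  LinearMap.BilinMap.toQuadraticMap (Matrix.toLinearMap₂' F ((2⁻¹ : F) • C))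

theorem polar_qf (h2 : (2 : F) ≠ 0) (C : Matrix κ κ F) (hC : C.transpose = C) (u w : κ → F) :
    QuadraticMap.polar (⇑(qf C)) u w = u ⬝ᵥ (C *ᵥ w) := by
  unfold qf
  rw [LinearMap.BilinMap.polar_toQuadraticMap, Matrix.toLinearMap₂'_apply',
    Matrix.toLinearMap₂'_apply', Matrix.smul_mulVec, Matrix.smul_mulVec, dotProduct_smul,
    dotProduct_smul, dot_symm C hC u w, smul_eq_mul]
  field_simp
  ring

theorem stdGram_qf (h2 : (2 : F) ≠ 0) (C : Matrix κ κ F) (hC : C.transpose = C) :
    Cfsg.Agent.H49.stdGram (qf C) = C := by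
  ext i j
  show QuadraticMap.polar (⇑(qf C)) (Pi.single i 1) (Pi.single j 1) = C i j
  rw [polar_qf h2 C hC, single_dot_mulVec_single]

theorem nondeg_qf (h2 : (2 : F) ≠ 0) (C : Matrix κ κ F) (hC : C.transpose = C)
    (hdet : C.det ≠ 0) : (QuadraticMap.polarBilin (qf C)).Nondegenerate := by
  constructor
  · intro a ha
    have h1 : a ᵥ* C = 0 := by
      funext j
      have := ha (Pi.single j 1)
      rw [QuadraticMap.polarBilin_apply_apply, polar_qf h2 C hC, Matrix.dotProduct_mulVec,
        dotProduct_single, mul_one] at this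
      exact this
    exact Matrix.eq_zero_of_vecMul_eq_zero hdet h1
  · intro b hb
    have h1 : C *ᵥ b = 0 := by
      funext i
      have := hb (Pi.single i 1)
      rw [QuadraticMap.polarBilin_apply_apply, polar_qf h2 C hC, single_dotProduct,
        one_mul] at this
      exact this
    exact Matrix.eq_zero_of_mulVec_eq_zero hdet h1

end basics

/-- **SPC-SYM.** -/
theorem sym : Cfsg.Agent.H48.SPC.SymStmt.{u} := by
  intro F _ _ h2 κ _ _
  classical
  constructor
  · intro C C' hC hC' hdet hdet'
    constructor
    · rintro ⟨γ, -, hγ⟩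
      refine ⟨γ.det * C.det, ?_⟩
      rw [← hγ, Matrix.det_mul, Matrix.det_mul, Matrix.det_transpose]
      ring
    · intro hsq
      have hsq' : IsSquare ((Cfsg.Agent.H49.stdGram (qf C')).det *
          (Cfsg.Agent.H49.stdGram (qf C)).det) := by
        rw [stdGram_qf h2 C' hC', stdGram_qf h2 C hC, mul_comm]
        exact hsq
      obtain ⟨g, hg⟩ := Cfsg.Agent.H48.exists_linIso_of_disc h2 rfl (qf C') (qf C)
        (nondeg_qf h2 C' hC' hdet') (nondeg_qf h2 C hC hdet) hsq'
      have hpol : ∀ u w : κ → F,
          QuadraticMap.polar (⇑(qf C)) (g u) (g w) = QuadraticMap.polar (⇑(qf C')) u w := by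
        intro u w
        unfold QuadraticMap.polar
        rw [← map_add, hg, hg, hg]
      have hgm : ∀ v : κ → F,
          g v = LinearMap.toMatrix' (g : (κ → F) →ₗ[F] (κ → F)) *ᵥ v := by
        intro v
        rw [LinearMap.toMatrix'_mulVec]
        rfl
      have hmat : (LinearMap.toMatrix' (g : (κ → F) →ₗ[F] (κ → F))).transpose * C *
          LinearMap.toMatrix' (g : (κ → F) →ₗ[F] (κ → F)) = C' := by
        ext i j
        have h := hpol (Pi.single i 1) (Pi.single j 1)
        rw [polar_qf h2 C hC, polar_qf h2 C' hC', single_dot_mulVec_single, hgm, hgm] at h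
        have e := single_dot_mulVec_single
          ((LinearMap.toMatrix' (g : (κ → F) →ₗ[F] (κ → F))).transpose * C *
            LinearMap.toMatrix' (g : (κ → F) →ₗ[F] (κ → F))) i j
        rw [← h, ← e, ← Matrix.mulVec_mulVec, ← Matrix.mulVec_mulVec,
          Matrix.dotProduct_mulVec (Pi.single i 1)
            (LinearMap.toMatrix' (g : (κ → F) →ₗ[F] (κ → F))).transpose,
          Matrix.vecMul_transpose]
      refine ⟨LinearMap.toMatrix' (g : (κ → F) →ₗ[F] (κ → F)), ?_, hmat⟩
      intro h0
      apply hdet'
      rw [← hmat, Matrix.det_mul, Matrix.det_mul, h0, mul_zero]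
  · intro hne b
    obtain ⟨i₀⟩ := hne
    cases b with
    | true =>
      refine ⟨1, Matrix.transpose_one, ?_, ?_⟩
      · rw [Matrix.det_one]
        exact one_ne_zero
      · rw [Matrix.det_one]
        exact ⟨fun _ => rfl, fun _ => ⟨1, (mul_one 1).symm⟩⟩
    | false =>
      have hchar : ringChar F ≠ 2 := by
        intro h
        apply h2
        have := ringChar.Nat.cast_ringChar (R := F)
        rw [h] at this
        exact_mod_cast this
      obtain ⟨δ, hδ⟩ := FiniteField.exists_nonsquare hchar
      have hdet : (Matrix.diagonal (fun i : κ => if i = i₀ then δ else 1)).det = δ := by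
        rw [Matrix.det_diagonal, Finset.prod_ite_eq' Finset.univ i₀ (fun _ => δ)]
        simp
      refine ⟨Matrix.diagonal (fun i : κ => if i = i₀ then δ else 1),
        Matrix.diagonal_transpose _, ?_, ?_⟩
      · rw [hdet]
        intro h0
        apply hδ
        rw [h0]
        exact ⟨0, (mul_zero 0).symm⟩
      · rw [hdet]
        constructor
        · intro h
          exact absurd h hδ
        · intro h
          exact absurd h (by decide)

end Cfsg.Agent.H12.SPC

section check
universe u
example : Cfsg.Agent.H48.SPC.SymStmt.{u} := Cfsg.Agent.H12.SPC.sym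
end check
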