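import Mathlib

set_option autoImplicit false
set_option linter.style.haveILetI false
set_option linter.unusedSectionVars false
set_option linter.unusedVariables false
set_option linter.deprecated false

namespace Cfsg.Agent.H12.SelfDual

open Module

section Abstract

/-- An involutory `F`-algebra automorphism of a finite field extension `E/F` which is not the
identity: the degree is even and the automorphism is the `|F|^(n/2)`-power map. -/
theorem frob_of_involution {F : Type*} [Field F] [Fintype F] {E : Type*} [CommRing E] [IsDomain E]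
    [Finite E] [Algebra F E] (σ : E →ₐ[F] E) (h2 : ∀ x, σ (σ x) = x) (hne : ∃ x, σ x ≠ x) :
    Even (finrank F E) ∧ ∀ x, σ x = x ^ (Fintype.card F ^ (finrank F E / 2)) := by
  classical
  letI := Fintype.ofFinite E
  letI : Field E := Fintype.fieldOfDomain E
  obtain ⟨j, hj⟩ := (FiniteField.bijective_frobeniusAlgHom_pow F E).2 σ
  have hj' : FiniteField.frobeniusAlgHom F E ^ j.1 = σ := hj
  have hσ : ∀ x, σ x = x ^ (Fintype.card F ^ j.1) := by
    intro x
    have e := DFunLike.congr_fun hj' x
    simp only [AlgHom.coe_pow, FiniteField.coe_frobeniusAlgHom, pow_iterate] at e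
    exact e.symm
  have hord := FiniteField.orderOf_frobeniusAlgHom F E
  have h2j : FiniteField.frobeniusAlgHom F E ^ (2 * j.1) = 1 := by
    rw [two_mul, pow_add, hj']
    ext x
    simp [h2]
  have hdvd : finrank F E ∣ 2 * j.1 := by
    have h := orderOf_dvd_of_pow_eq_one h2j
    rwa [hord] at h
  have hj0 : j.1 ≠ 0 := by
    intro h0
    obtain ⟨x, hx⟩ := hne
    apply hx
    rw [hσ x, h0]; simp
  have hlt := j.2
  have h2 : 2 * j.1 = finrank F E := by
    obtain ⟨c, hc⟩ := hdvd
    have hc1 : c = 1 := by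
      rcases c with _ | _ | c
      · omega
      · rfl
      · exfalso
        have : finrank F E * (c + 1 + 1) ≥ finrank F E * 2 := Nat.mul_le_mul_left _ (by omega)
        omega
    rw [hc, hc1, mul_one]
  refine ⟨⟨j.1, by omega⟩, fun x => ?_⟩
  rw [hσ x]
  congr 2
  omega

end Abstract

section Concrete

variable {F : Type*} [Field F] {H : Type*} [CommGroup H] {V : Type*} [AddCommGroup V] [Module F V]
variable (ρ : Representation F H V)

theorem range_comm : ∀ a ∈ Set.range ρ, ∀ b ∈ Set.range ρ, a * b = b * a := by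
  rintro _ ⟨g, rfl⟩ _ ⟨h, rfl⟩
  rw [← map_mul, ← map_mul, mul_comm]

/-- The subalgebra of `End V` generated by the image of the representation. -/
abbrev envAlg : Subalgebra F (Module.End F V) := Algebra.adjoin F (Set.range ρ)

noncomputable instance envCommRing : CommRing (envAlg ρ) :=
  Algebra.adjoinCommRingOfComm F (range_comm ρ)

theorem mem_comm (e₁ e₂ : Module.End F V) (h₁ : e₁ ∈ envAlg ρ) (h₂ : e₂ ∈ envAlg ρ) :
    e₁ * e₂ = e₂ * e₁ :=
  congrArg Subtype.val (mul_comm (⟨e₁, h₁⟩ : envAlg ρ) ⟨e₂, h₂⟩)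

/-- The representation, with values in the enveloping algebra. -/
def repE : H →* envAlg ρ where
  toFun h := ⟨ρ h, Algebra.subset_adjoin ⟨h, rfl⟩⟩
  map_one' := Subtype.ext (map_one ρ)
  map_mul' a b := Subtype.ext (map_mul ρ a b)

theorem repE_coe (h : H) : ((repE ρ h : envAlg ρ) : Module.End F V) = ρ h := rfl

variable (hirr : ∀ U : Submodule F V, (∀ h : H, ∀ u ∈ U, ρ h u ∈ U) → U = ⊥ ∨ U = ⊤)
include hirr

theorem ker_eq (e : Module.End F V) (he : e ∈ envAlg ρ) :
    LinearMap.ker e = ⊥ ∨ LinearMap.ker e = ⊤ := by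
  apply hirr
  intro h u hu
  rw [LinearMap.mem_ker] at hu ⊢
  have hc : e * ρ h = ρ h * e := mem_comm ρ e (ρ h) he (Algebra.subset_adjoin ⟨h, rfl⟩)
  have h1 : e (ρ h u) = (e * ρ h) u := rfl
  rw [h1, hc]
  show ρ h (e u) = 0
  rw [hu, map_zero]

theorem injective_of_ne_zero (e : Module.End F V) (he : e ∈ envAlg ρ) (he0 : e ≠ 0) :
    Function.Injective e := by
  rcases ker_eq ρ hirr e he with h | h
  · exact LinearMap.ker_eq_bot.mp h
  · exact absurd (LinearMap.ker_eq_top.mp h) he0

theorem isDomain_env [Nontrivial V] : IsDomain (envAlg ρ) := by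
  haveI : Nontrivial (envAlg ρ) := ⟨⟨0, 1, fun h => by
    have h1 := congrArg Subtype.val h
    exact zero_ne_one h1⟩⟩
  haveI : NoZeroDivisors (envAlg ρ) := ⟨fun {a b} hab => by
    by_cases ha : a = 0
    · exact Or.inl ha
    · right
      have ha' : (a : Module.End F V) ≠ 0 := fun h => ha (Subtype.ext h)
      have hinj := injective_of_ne_zero ρ hirr a.1 a.2 ha'
      apply Subtype.ext
      apply LinearMap.ext
      intro v
      apply hinj
      have h1 := congrArg Subtype.val hab
      have h2 : (a : Module.End F V) ((b : Module.End F V) v) = ((a * b : envAlg ρ) : Module.End F V) v := rfl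
      rw [h2, h1]
      simp⟩
  exact NoZeroDivisors.to_isDomain _

/-- Evaluation at a vector, as a linear map from the enveloping algebra. -/
noncomputable def evalMap (v₀ : V) : envAlg ρ →ₗ[F] V :=
  (LinearMap.applyₗ v₀).comp (envAlg ρ).val.toLinearMap

omit hirr in
theorem evalMap_apply (v₀ : V) (e : envAlg ρ) : evalMap ρ v₀ e = (e : Module.End F V) v₀ := rfl

theorem evalMap_bijective (v₀ : V) (hv₀ : v₀ ≠ 0) : Function.Bijective (evalMap ρ v₀) := by
  constructor
  · rw [← LinearMap.ker_eq_bot, LinearMap.ker_eq_bot']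
    intro e he
    rw [evalMap_apply] at he
    by_contra hne
    have ha' : (e : Module.End F V) ≠ 0 := fun h => hne (Subtype.ext h)
    have hinj := injective_of_ne_zero ρ hirr e.1 e.2 ha'
    exact hv₀ (hinj (by rw [he, map_zero]))
  · rw [← LinearMap.range_eq_top]
    have hr := hirr (LinearMap.range (evalMap ρ v₀)) (by
      rintro h _ ⟨e, rfl⟩
      exact ⟨repE ρ h * e, rfl⟩)
    rcases hr with hr | hr
    · exfalso
      have : v₀ ∈ LinearMap.range (evalMap ρ v₀) := ⟨1, rfl⟩
      rw [hr, Submodule.mem_bot] at this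
      exact hv₀ this
    · exact hr

/-- The enveloping algebra is a one-dimensional module over itself, identified with `V`. -/
noncomputable def evalEquiv (v₀ : V) (hv₀ : v₀ ≠ 0) : envAlg ρ ≃ₗ[F] V :=
  LinearEquiv.ofBijective (evalMap ρ v₀) (evalMap_bijective ρ hirr v₀ hv₀)

theorem evalEquiv_apply (v₀ : V) (hv₀ : v₀ ≠ 0) (e : envAlg ρ) :
    evalEquiv ρ hirr v₀ hv₀ e = (e : Module.End F V) v₀ := rfl

theorem evalEquiv_rep_mul (v₀ : V) (hv₀ : v₀ ≠ 0) (h : H) (e : envAlg ρ) :
    evalEquiv ρ hirr v₀ hv₀ (repE ρ h * e) = ρ h (evalEquiv ρ hirr v₀ hv₀ e) := rfl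

theorem evalEquiv_symm_rep (v₀ : V) (hv₀ : v₀ ≠ 0) (h : H) (x : V) :
    (evalEquiv ρ hirr v₀ hv₀).symm (ρ h x) = repE ρ h * (evalEquiv ρ hirr v₀ hv₀).symm x := by
  apply (evalEquiv ρ hirr v₀ hv₀).injective
  rw [LinearEquiv.apply_symm_apply, evalEquiv_rep_mul, LinearEquiv.apply_symm_apply]

end Concrete

section Main

variable {F : Type*} [Field F] [Fintype F] {H : Type*} [CommGroup H] [Finite H]
  {V : Type*} [AddCommGroup V] [Module F V] [FiniteDimensional F V]
variable (ρ : Representation F H V)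

theorem sd_forward (hfaith : Function.Injective ρ)
    (hirr : ∀ U : Submodule F V, (∀ h : H, ∀ u ∈ U, ρ h u ∈ U) → U = ⊥ ∨ U = ⊤)
    (hn : 2 ≤ finrank F V) (B : LinearMap.BilinForm F V) (hB : B.Nondegenerate)
    (hinv : ∀ h : H, ∀ x y : V, B (ρ h x) (ρ h y) = B x y) :
    Even (finrank F V) ∧ Nat.card H ∣ Fintype.card F ^ (finrank F V / 2) + 1 := by
  classical
  haveI : Nontrivial V := Module.nontrivial_of_finrank_pos (R := F) (by omega)
  obtain ⟨v₀, hv₀⟩ := exists_ne (0 : V)
  haveI := isDomain_env ρ hirr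
  haveI : Finite V := Module.finite_of_finite F
  haveI : Finite (envAlg ρ) := Finite.of_equiv V (evalEquiv ρ hirr v₀ hv₀).symm.toEquiv
  have hrank : finrank F (envAlg ρ) = finrank F V := (evalEquiv ρ hirr v₀ hv₀).finrank_eq
  -- the adjoint
  let adj : Module.End F V → Module.End F V := fun e => B.leftAdjointOfNondegenerate hB e
  have hadj : ∀ e x y, B (adj e x) y = B x (e y) := fun e x y =>
    B.isAdjointPairLeftAdjointOfNondegenerate hB e x y
  have huniq : ∀ e e' : Module.End F V, (∀ x y, B (e' x) y = B x (e y)) → adj e = e' := by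
    intro e e' h
    exact ((B.isAdjointPair_iff_eq_of_nondegenerate hB e' e).mp h).symm
  have h_rho : ∀ h, adj (ρ h) = ρ h⁻¹ := by
    intro h
    apply huniq
    intro x y
    rw [← hinv h (ρ h⁻¹ x) y]
    congr 2
    have : ρ h (ρ h⁻¹ x) = (ρ h * ρ h⁻¹) x := rfl
    rw [this, ← map_mul, mul_inv_cancel, map_one]; rfl
  have h_add : ∀ e₁ e₂, adj (e₁ + e₂) = adj e₁ + adj e₂ := by
    intro e₁ e₂
    apply huniq
    intro x y
    simp only [LinearMap.add_apply, map_add, hadj]
  have h_mul : ∀ e₁ e₂, adj (e₁ * e₂) = adj e₂ * adj e₁ := by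
    intro e₁ e₂
    apply huniq
    intro x y
    show B (adj e₂ (adj e₁ x)) y = B x (e₁ (e₂ y))
    rw [hadj, hadj]
  have h_alg : ∀ c : F, adj (algebraMap F (Module.End F V) c) = algebraMap F (Module.End F V) c := by
    intro c
    apply huniq
    intro x y
    simp [Module.algebraMap_end_apply]
  have hmem : ∀ e ∈ envAlg ρ, adj e ∈ envAlg ρ := by
    intro e he
    induction he using Algebra.adjoin_induction with
    | mem x hx =>
      obtain ⟨h, rfl⟩ := hx
      rw [h_rho]
      exact Algebra.subset_adjoin ⟨h⁻¹, rfl⟩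
    | algebraMap c => rw [h_alg]; exact Subalgebra.algebraMap_mem _ c
    | add x y _ _ hx hy => rw [h_add]; exact Subalgebra.add_mem _ hx hy
    | mul x y _ _ hx hy => rw [h_mul]; exact Subalgebra.mul_mem _ hy hx
  let σ : envAlg ρ →ₐ[F] envAlg ρ :=
    { toFun := fun e => ⟨adj e.1, hmem e.1 e.2⟩
      map_one' := by
        apply Subtype.ext
        have := h_alg 1
        simpa using this
      map_mul' := fun a b => by
        apply Subtype.ext
        show adj (a.1 * b.1) = adj a.1 * adj b.1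
        rw [h_mul]
        exact mem_comm ρ _ _ (hmem b.1 b.2) (hmem a.1 a.2)
      map_zero' := by
        apply Subtype.ext
        have := h_alg 0
        simpa using this
      map_add' := fun a b => Subtype.ext (h_add a.1 b.1)
      commutes' := fun c => Subtype.ext (h_alg c) }
  have hσρ : ∀ h, σ (repE ρ h) = repE ρ h⁻¹ := fun h => Subtype.ext (h_rho h)
  have h2 : ∀ x, σ (σ x) = x := by
    have hcomp : σ.comp σ = AlgHom.id F (envAlg ρ) := by
      apply AlgHom.adjoin_ext
      rintro x ⟨h, rfl⟩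
      show σ (σ (repE ρ h)) = repE ρ h
      rw [hσρ, hσρ, inv_inv]
    intro x
    exact DFunLike.congr_fun hcomp x
  have hne : ∃ x, σ x ≠ x := by
    by_contra hall
    push Not at hall
    have hpm : ∀ h : H, ρ h = 1 ∨ ρ h = -1 := by
      intro h
      have h1 : repE ρ h⁻¹ = repE ρ h := by rw [← hσρ]; exact hall _
      have h3 : repE ρ h * repE ρ h = 1 := by
        nth_rewrite 1 [← h1]
        rw [← map_mul, inv_mul_cancel, map_one]
      have h4 : (repE ρ h - 1) * (repE ρ h + 1) = 0 := by ring_nf; rw [pow_two, h3]; ring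
      rcases mul_eq_zero.mp h4 with h5 | h5
      · left
        have := congrArg Subtype.val (sub_eq_zero.mp h5)
        exact this
      · right
        have := congrArg Subtype.val (eq_neg_of_add_eq_zero_left h5)
        exact this
    have hU := hirr (F ∙ v₀) (by
      intro h u hu
      rcases hpm h with h1 | h1
      · rw [h1]; exact hu
      · rw [h1]; simpa using hu)
    rcases hU with hU | hU
    · exact hv₀ ((Submodule.span_singleton_eq_bot).mp hU)
    · have h1 := finrank_span_singleton (K := F) hv₀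
      rw [hU, finrank_top] at h1
      omega
  obtain ⟨hev, hpow⟩ := frob_of_involution σ h2 hne
  rw [hrank] at hev hpow
  refine ⟨hev, ?_⟩
  have hq : ∀ h : H, h ^ (Fintype.card F ^ (finrank F V / 2) + 1) = 1 := by
    intro h
    apply hfaith
    have h1 := hpow (repE ρ h)
    rw [hσρ] at h1
    have h3 : repE ρ (h ^ (Fintype.card F ^ (finrank F V / 2) + 1)) = 1 := by
      rw [map_pow, pow_succ, ← h1, ← map_mul, inv_mul_cancel, map_one]
    have h4 := congrArg Subtype.val h3
    rw [map_one]
    exact h4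
  have hinjE : Function.Injective (repE ρ) := by
    intro a b hab
    exact hfaith (congrArg Subtype.val hab)
  haveI : IsCyclic H := isCyclic_of_subgroup_isDomain (repE ρ) hinjE
  rw [← IsCyclic.exponent_eq_card]
  exact Monoid.exponent_dvd_of_forall_pow_eq_one hq

theorem sd_backward
    (hirr : ∀ U : Submodule F V, (∀ h : H, ∀ u ∈ U, ρ h u ∈ U) → U = ⊥ ∨ U = ⊤)
    (hn : 2 ≤ finrank F V) (m : ℕ) (hm : Nat.card H ∣ Fintype.card F ^ m + 1) :
    ∃ B : LinearMap.BilinForm F V, B.Nondegenerate ∧
      ∀ h : H, ∀ x y : V, B (ρ h x) (ρ h y) = B x y := by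
  classical
  haveI : Nontrivial V := Module.nontrivial_of_finrank_pos (R := F) (by omega)
  obtain ⟨v₀, hv₀⟩ := exists_ne (0 : V)
  haveI := isDomain_env ρ hirr
  haveI : Finite V := Module.finite_of_finite F
  haveI : Finite (envAlg ρ) := Finite.of_equiv V (evalEquiv ρ hirr v₀ hv₀).symm.toEquiv
  letI := Fintype.ofFinite (envAlg ρ)
  letI : Field (envAlg ρ) := Fintype.fieldOfDomain (envAlg ρ)
  set φ := evalEquiv ρ hirr v₀ hv₀ with hφ
  let ψ : V →ₗ[F] envAlg ρ := φ.symm.toLinearMap
  let τ : envAlg ρ →ₐ[F] envAlg ρ := FiniteField.frobeniusAlgHom F (envAlg ρ) ^ m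
  have hτ : ∀ x, τ x = x ^ (Fintype.card F ^ m) := by
    intro x
    show (FiniteField.frobeniusAlgHom F (envAlg ρ) ^ m) x = _
    simp only [AlgHom.coe_pow, FiniteField.coe_frobeniusAlgHom, pow_iterate]
  have hτinj : Function.Injective τ := τ.toRingHom.injective
  have hτsurj : Function.Surjective τ := Finite.injective_iff_surjective.mp hτinj
  haveI : FiniteDimensional F (envAlg ρ) := Module.Finite.equiv φ.symm
  obtain ⟨lam, hlam⟩ : ∃ lam : Module.Dual F (envAlg ρ), lam 1 ≠ 0 := by
    by_contra hcon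
    push Not at hcon
    exact one_ne_zero ((Module.forall_dual_apply_eq_zero_iff F (1 : envAlg ρ)).mp hcon)
  let B : LinearMap.BilinForm F V :=
    ((LinearMap.mul F (envAlg ρ)).compl₁₂ ψ (τ.toLinearMap.comp ψ)).compr₂ lam
  have hBdef : ∀ x y, B x y = lam (ψ x * τ (ψ y)) := fun x y => rfl
  have hψφ : ∀ e, ψ (φ e) = e := fun e => φ.symm_apply_apply e
  have hψ0 : ∀ x, x ≠ 0 → ψ x ≠ 0 := by
    intro x hx h0
    apply hx
    have : φ (ψ x) = x := φ.apply_symm_apply x
    rw [← this, h0, map_zero]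
  refine ⟨B, ⟨?_, ?_⟩, ?_⟩
  · -- separating left
    intro x hx
    by_contra hx0
    have ha := hψ0 x hx0
    obtain ⟨b, hb⟩ := hτsurj (ψ x)⁻¹
    have h1 := hx (φ b)
    rw [hBdef, hψφ, hb, mul_inv_cancel₀ ha] at h1
    exact hlam h1
  · -- separating right
    intro y hy
    by_contra hy0
    have hb := hψ0 y hy0
    have hτb : τ (ψ y) ≠ 0 := by
      intro h0
      apply hb
      apply hτinj
      rw [h0, map_zero]
    have h1 := hy (φ (τ (ψ y))⁻¹)
    rw [hBdef, hψφ, inv_mul_cancel₀ hτb] at h1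
    exact hlam h1
  · intro h x y
    have hx : ψ (ρ h x) = repE ρ h * ψ x := evalEquiv_symm_rep ρ hirr v₀ hv₀ h x
    have hy : ψ (ρ h y) = repE ρ h * ψ y := evalEquiv_symm_rep ρ hirr v₀ hv₀ h y
    rw [hBdef, hBdef, hx, hy, map_mul τ (repE ρ h) (ψ y), hτ (repE ρ h)]
    have hone : repE ρ h * repE ρ h ^ (Fintype.card F ^ m) = 1 := by
      rw [← pow_succ', ← map_pow]
      obtain ⟨c, hc⟩ := hm
      rw [hc, pow_mul, pow_card_eq_one', one_pow, map_one]
    have : repE ρ h * ψ x * (repE ρ h ^ (Fintype.card F ^ m) * τ (ψ y)) =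
        (repE ρ h * repE ρ h ^ (Fintype.card F ^ m)) * (ψ x * τ (ψ y)) := by ring
    rw [this, hone, one_mul]

theorem sd_one (hfaith : Function.Injective ρ) (h1 : finrank F V = 1)
    (B : LinearMap.BilinForm F V) (hB : B.Nondegenerate)
    (hinv : ∀ h : H, ∀ x y : V, B (ρ h x) (ρ h y) = B x y) : Nat.card H ≤ 2 := by
  classical
  haveI : Nontrivial V := Module.nontrivial_of_finrank_pos (R := F) (by omega)
  obtain ⟨v₀, hv₀⟩ := exists_ne (0 : V)
  have hsc : ∀ y : V, ∃ c : F, c • v₀ = y := fun y => exists_smul_eq_of_finrank_eq_one h1 hv₀ y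
  have hB0 : B v₀ v₀ ≠ 0 := by
    intro h0
    apply hv₀
    apply hB.1 v₀
    intro y
    obtain ⟨c, rfl⟩ := hsc y
    rw [map_smul, smul_eq_mul, h0, mul_zero]
  choose c hc using fun h : H => hsc (ρ h v₀)
  have hc2 : ∀ h, c h * c h = 1 := by
    intro h
    have := hinv h v₀ v₀
    rw [← hc h] at this
    simp only [map_smul, LinearMap.smul_apply, smul_eq_mul] at this
    have h3 : (c h * c h - 1) * B v₀ v₀ = 0 := by linear_combination this
    rcases mul_eq_zero.mp h3 with h4 | h4
    · exact sub_eq_zero.mp h4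
    · exact absurd h4 hB0
  have hpm : ∀ h, c h = 1 ∨ c h = -1 := fun h => mul_self_eq_one_iff.mp (hc2 h)
  have hcinj : Function.Injective c := by
    intro a b hab
    apply hfaith
    apply LinearMap.ext
    intro y
    obtain ⟨d, rfl⟩ := hsc y
    rw [map_smul, map_smul, ← hc a, ← hc b, hab]
  have hle : Nat.card H ≤ Nat.card ({1, -1} : Finset F) := by
    apply Nat.card_le_card_of_injective (fun h => (⟨c h, by
      rcases hpm h with h1 | h1 <;> simp [h1]⟩ : ({1, -1} : Finset F)))
    intro a b hab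
    exact hcinj (congrArg Subtype.val hab)
  refine hle.trans ?_
  rw [Nat.card_eq_fintype_card, Fintype.card_coe]
  exact Finset.card_le_two

end Main

end Cfsg.Agent.H12.SelfDual
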