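import Cfsg.Agent.H48.SpUDefs
import Cfsg.Agent.H17.AltBasis
import Cfsg.Agent.H99.SympDecomp

/-!
# S2316 piece EVEN (for helper48)

`even' : EvenStmt` (no hypothesis needed) and `even (hG : GramBStmt) : EvenStmt`:
if the image of `T` is `M`-orthogonal to its kernel and `rank (T * T) = rank T`, then the
image of `T` is a nondegenerate alternating space, hence of even dimension.
-/

set_option autoImplicit false

open Matrix

namespace Cfsg.Agent.H12.SpU

open Cfsg.Agent.H48.SpU

universe u

/-- a finite-dimensional space with a nondegenerate alternating form has even dimension -/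
theorem even_finrank_of_nondeg {F : Type*} [Field F] {W : Type*} [AddCommGroup W] [Module F W]
    [FiniteDimensional F W] (B : LinearMap.BilinForm F W) (hB : B.IsAlt)
    (hnd : ∀ w, (∀ w', B w w' = 0) → w = 0) : Even (Module.finrank F W) := by
  classical
  obtain ⟨m, e, f, hef, hee, hff, hrad⟩ :=
    Cfsg.Agent.H17.alt_hyp_aux (Module.finrank F W) W B hB rfl
  have hli := Cfsg.Agent.H99.hyp_linearIndependent B hB e f hee hff hef
  have h1 : m + m ≤ Module.finrank F W := by
    have h := hli.fintype_card_le_finrank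
    rw [Fintype.card_sum, Fintype.card_fin] at h
    exact h
  have h2 : Module.finrank F W ≤ m + m := by
    let φ : W →ₗ[F] (Fin m ⊕ Fin m → F) := LinearMap.pi (fun k => B (Sum.elim e f k))
    have hinj : Function.Injective φ := by
      rw [← LinearMap.ker_eq_bot, LinearMap.ker_eq_bot']
      intro v hv
      apply hnd
      apply hrad
      · intro i; exact congrFun hv (Sum.inl i)
      · intro i; exact congrFun hv (Sum.inr i)
    have h := LinearMap.finrank_le_finrank_of_injective hinj
    rw [Module.finrank_pi, Fintype.card_sum, Fintype.card_fin] at h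
    exact h
  exact ⟨m, by omega⟩

theorem even' : EvenStmt.{u} := by
  intro F _ _ ι _ _ M T hM hperp hrank
  have hBapp : ∀ x y : ι → F, Matrix.toBilin' M x y = x ⬝ᵥ M *ᵥ y :=
    fun x y => Matrix.toBilin'_apply' M x y
  have hBalt : ((Matrix.toBilin' M).restrict (LinearMap.range T.mulVecLin)).IsAlt := by
    intro w
    show Matrix.toBilin' M (w : ι → F) (w : ι → F) = 0
    rw [hBapp]
    exact hM.1 _
  have hrange : LinearMap.range (T * T).mulVecLin = LinearMap.range T.mulVecLin := by
    apply Submodule.eq_of_le_of_finrank_eq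
    · rw [Matrix.mulVecLin_mul]
      exact LinearMap.range_comp_le_range _ _
    · exact hrank
  have hdecomp : ∀ v : ι → F, ∃ u : ι → F, T *ᵥ (v - T *ᵥ u) = 0 := by
    intro v
    have hv : T *ᵥ v ∈ LinearMap.range (T * T).mulVecLin := by
      rw [hrange]
      exact ⟨v, rfl⟩
    obtain ⟨u, hu⟩ := hv
    refine ⟨u, ?_⟩
    rw [Matrix.mulVecLin_apply] at hu
    rw [Matrix.mulVec_sub, Matrix.mulVec_mulVec, hu, sub_self]
  have hnd : ∀ w : LinearMap.range T.mulVecLin,
      (∀ w' : LinearMap.range T.mulVecLin,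
        ((Matrix.toBilin' M).restrict (LinearMap.range T.mulVecLin)) w w' = 0) → w = 0 := by
    rintro ⟨w, x, rfl⟩ hw
    apply Subtype.ext
    show T.mulVecLin x = 0
    rw [Matrix.mulVecLin_apply]
    have hall : ∀ v : ι → F, (T *ᵥ x) ⬝ᵥ M *ᵥ v = 0 := by
      intro v
      obtain ⟨u, hu⟩ := hdecomp v
      have e1 := hperp x (v - T *ᵥ u) hu
      have e2 : (T *ᵥ x) ⬝ᵥ M *ᵥ (T *ᵥ u) = 0 := by
        rw [← hBapp]
        exact hw ⟨T *ᵥ u, u, rfl⟩
      have e3 : v = (v - T *ᵥ u) + T *ᵥ u := by abel
      rw [e3, Matrix.mulVec_add, dotProduct_add, e1, e2, add_zero]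
    have h0 : (T *ᵥ x) ᵥ* M = 0 := by
      funext i
      have h := hall (Pi.single i 1)
      rw [Matrix.dotProduct_mulVec, dotProduct_single_one] at h
      exact h
    exact Matrix.eq_zero_of_vecMul_eq_zero hM.2 h0
  exact even_finrank_of_nondeg _ hBalt hnd

theorem even (_hG : GramBStmt.{u}) : EvenStmt.{u} := even'

example (hG : GramBStmt.{u}) : EvenStmt.{u} := even hG
example : EvenStmt.{u} := even'

end Cfsg.Agent.H12.SpU
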