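import Cfsg.Agent.H48.SpUDefs

/-!
# S2316 piece FITT (for helper48)

`fitt : FittStmt`: for `n ≥ card ι` the rank of `Y ^ n * Y ^ n` equals the rank of `Y ^ n`.
-/

set_option autoImplicit false

open Matrix

namespace Cfsg.Agent.H12.SpU

open Cfsg.Agent.H48.SpU

universe u

/-- rank of a power of a matrix through the kernel of the power of `toLin'` -/
theorem rank_pow_add_ker_aux {F : Type*} [Field F] {ι : Type*} [Fintype ι] [DecidableEq ι]
    (Y : Matrix ι ι F) (k : ℕ) :
    (Y ^ k).rank + Module.finrank F (LinearMap.ker ((Matrix.toLin' Y) ^ k)) =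
      Fintype.card ι := by
  have h1 : (Y ^ k).rank = Module.finrank F (LinearMap.range ((Matrix.toLin' Y) ^ k)) := by
    rw [← Matrix.toLin'_pow]
    rfl
  rw [h1, LinearMap.finrank_range_add_finrank_ker, Module.finrank_pi]

theorem fitt : FittStmt.{u} := by
  intro F _ _ ι _ _ Y n hn
  have hfr : Module.finrank F (ι → F) = Fintype.card ι := Module.finrank_pi F
  have hk1 : LinearMap.ker ((Matrix.toLin' Y) ^ n) =
      LinearMap.ker ((Matrix.toLin' Y) ^ Module.finrank F (ι → F)) :=
    Module.End.ker_pow_eq_ker_pow_finrank_of_le (by rw [hfr]; exact hn)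
  have hk2 : LinearMap.ker ((Matrix.toLin' Y) ^ (n + n)) =
      LinearMap.ker ((Matrix.toLin' Y) ^ Module.finrank F (ι → F)) :=
    Module.End.ker_pow_eq_ker_pow_finrank_of_le (by rw [hfr]; omega)
  have e1 := rank_pow_add_ker_aux Y n
  have e2 := rank_pow_add_ker_aux Y (n + n)
  rw [hk1] at e1
  rw [hk2] at e2
  rw [← pow_add]
  omega

example : FittStmt.{u} := fitt

end Cfsg.Agent.H12.SpU
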