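import Cfsg.Agent.H48.SpUDefs

/-!
# S2316 pieces PERP-U and PERP-A (for helper48)

`perpU : PerpUStmt` and `perpA : PerpAStmt`: the image of `(g - 1) ^ n` (resp. of
`(X (X + 1)) ^ n`) is orthogonal to its kernel with respect to the form `M`.
-/

set_option autoImplicit false

open Matrix

namespace Cfsg.Agent.H12.SpU

open Cfsg.Agent.H48.SpU

universe u

/-- `(A *ᵥ x) ⬝ᵥ w = x ⬝ᵥ (Aᵀ *ᵥ w)` -/
theorem mulVec_dot_aux {F : Type*} [CommRing F] {ι : Type*} [Fintype ι]
    (A : Matrix ι ι F) (x w : ι → F) : (A *ᵥ x) ⬝ᵥ w = x ⬝ᵥ (Aᵀ *ᵥ w) := by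
  rw [Matrix.dotProduct_mulVec, Matrix.vecMul_transpose]

/-- abstract core: if `Tᵀ * M = M * S * T` with `S` commuting with `T`, then the image of
`T ^ n` is `M`-orthogonal to its kernel. -/
theorem perp_core {F : Type*} [CommRing F] {ι : Type*} [Fintype ι] [DecidableEq ι]
    (M T S : Matrix ι ι F) (hTS : Tᵀ * M = M * S * T) (hc : Commute S T) (n : ℕ)
    (x y : ι → F) (hy : (T ^ n) *ᵥ y = 0) : ((T ^ n) *ᵥ x) ⬝ᵥ (M *ᵥ y) = 0 := by
  have key : ∀ k : ℕ, (T ^ k)ᵀ * M = M * S ^ k * T ^ k := by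
    intro k
    induction k with
    | zero => simp
    | succ k ih =>
      have h1 : (T ^ (k + 1))ᵀ = Tᵀ * (T ^ k)ᵀ := by
        rw [pow_succ, Matrix.transpose_mul]
      rw [h1, Matrix.mul_assoc, ih, ← Matrix.mul_assoc, ← Matrix.mul_assoc, hTS]
      have h2 : T * S ^ k = S ^ k * T := ((hc.pow_left k).eq).symm
      calc M * S * T * S ^ k * T ^ k = M * S * (T * S ^ k) * T ^ k := by
            simp only [Matrix.mul_assoc]
        _ = M * S * (S ^ k * T) * T ^ k := by rw [h2]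
        _ = M * (S * S ^ k) * (T * T ^ k) := by simp only [Matrix.mul_assoc]
        _ = M * S ^ (k + 1) * T ^ (k + 1) := by rw [← pow_succ', ← pow_succ']
  rw [mulVec_dot_aux, Matrix.mulVec_mulVec, key n, ← Matrix.mulVec_mulVec, hy,
    Matrix.mulVec_zero, dotProduct_zero]

theorem perpU : PerpUStmt.{u} := by
  intro F _ _ ι _ _ M g n hM hg x y hy
  -- `g` is invertible
  have hdet : g.det * g.det = 1 := by
    have h := congrArg Matrix.det hg
    rw [Matrix.det_mul, Matrix.det_mul, Matrix.det_transpose] at h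
    have h2 : (g.det * g.det - 1) * M.det = 0 := by linear_combination h
    rcases mul_eq_zero.mp h2 with h3 | h3
    · linear_combination h3
    · exact absurd h3 hM
  have hgu : IsUnit g.det := IsUnit.of_mul_eq_one _ hdet
  have hgi : g * g⁻¹ = 1 := Matrix.mul_nonsing_inv g hgu
  have hig : g⁻¹ * g = 1 := Matrix.nonsing_inv_mul g hgu
  have h1 : gᵀ * M = M * g⁻¹ := by
    calc gᵀ * M = gᵀ * M * (g * g⁻¹) := by rw [hgi, Matrix.mul_one]
      _ = (gᵀ * M * g) * g⁻¹ := by simp only [Matrix.mul_assoc]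
      _ = M * g⁻¹ := by rw [hg]
  refine perp_core M (g - 1) (-g⁻¹) ?_ ?_ n x y hy
  · rw [Matrix.transpose_sub, Matrix.transpose_one, Matrix.sub_mul, h1, Matrix.one_mul,
      Matrix.mul_neg, Matrix.neg_mul, Matrix.mul_assoc, Matrix.mul_sub, hig, Matrix.mul_one,
      Matrix.mul_sub, Matrix.mul_one]
    abel
  · show -g⁻¹ * (g - 1) = (g - 1) * -g⁻¹
    rw [Matrix.neg_mul, Matrix.mul_neg, Matrix.mul_sub, Matrix.sub_mul, hig, hgi,
      Matrix.mul_one, Matrix.one_mul]

theorem perpA : PerpAStmt.{u} := by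
  intro F _ _ ι _ _ M X n hX x y hy
  have h1 : Xᵀ * M = -(M * (X + 1)) := by
    rw [Matrix.mul_add, Matrix.mul_one]
    calc Xᵀ * M = (M * X + Xᵀ * M) - M * X := by abel
      _ = -(M * X + M) := by rw [hX]; abel
  have h2 : (X + 1)ᵀ * M = -(M * X) := by
    rw [Matrix.transpose_add, Matrix.transpose_one, Matrix.add_mul, Matrix.one_mul]
    calc Xᵀ * M + M = (M * X + Xᵀ * M) + M - M * X := by abel
      _ = -(M * X) := by rw [hX]; abel
  refine perp_core M (X * (X + 1)) 1 ?_ (Commute.one_left _) n x y hy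
  rw [Matrix.transpose_mul, Matrix.mul_assoc, h1, Matrix.mul_neg, ← Matrix.mul_assoc, h2,
    Matrix.neg_mul, neg_neg, Matrix.mul_one, Matrix.mul_assoc]

example : PerpUStmt.{u} := perpU
example : PerpAStmt.{u} := perpA

end Cfsg.Agent.H12.SpU
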