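import Cfsg.Agent.H48.SpUDefs

/-!
# S2316 piece SUMA (for helper48)

`sumA (hE) (hP) (hF) : SumAStmt`: the affine space `ASet M` is the disjoint union of the
rank strata `AR M (2 m) (2 j)`, `j ≤ m`.
-/

set_option autoImplicit false

open Matrix

namespace Cfsg.Agent.H12.SpU

open Cfsg.Agent.H48.SpU

universe u

/-- cardinality of a set of a finite type as a filter card -/
theorem natCard_set_aux {α : Type*} [Fintype α] (A : Set α) [DecidablePred (· ∈ A)] :
    Nat.card A = (Finset.univ.filter (· ∈ A)).card := by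
  rw [Nat.card_eq_fintype_card, Fintype.card_subtype]

/-- generic stratification count: if every element of `A` has `r x = 2 * j` for some `j ≤ m`,
then `Nat.card A` is the sum of the cards of the strata. -/
theorem strata_count_aux {α : Type*} [Fintype α] (A : Set α) (r : α → ℕ) (m : ℕ)
    (h : ∀ x ∈ A, ∃ j, j ≤ m ∧ r x = 2 * j) :
    Nat.card A = ∑ j ∈ Finset.range (m + 1), Nat.card {x | x ∈ A ∧ r x = 2 * j} := by
  classical
  rw [natCard_set_aux]
  have h1 : ∀ j, Nat.card {x | x ∈ A ∧ r x = 2 * j} =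
      ((Finset.univ.filter (· ∈ A)).filter (fun x => r x / 2 = j)).card := by
    intro j
    rw [natCard_set_aux]
    congr 1
    ext x
    simp only [Finset.mem_filter, Finset.mem_univ, true_and, Set.mem_ofPred_eq]
    constructor
    · rintro ⟨hx, hr⟩
      exact ⟨hx, by omega⟩
    · rintro ⟨hx, hr⟩
      obtain ⟨j', -, hj'⟩ := h x hx
      exact ⟨hx, by omega⟩
  rw [Finset.sum_congr rfl (fun j _ => h1 j)]
  apply Finset.card_eq_sum_card_fiberwise
  intro x hx
  rw [Finset.mem_coe, Finset.mem_filter] at hx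
  obtain ⟨j, hj, hj'⟩ := h x hx.2
  rw [Finset.mem_coe, Finset.mem_range]
  show r x / 2 < m + 1
  omega

theorem sumA (hE : EvenStmt.{u}) (hP : PerpAStmt.{u}) (hF : FittStmt.{u}) : SumAStmt.{u} := by
  intro F _ _ ι _ _ M m hM hcard
  have hrank : ∀ X ∈ ASet M, ∃ j, j ≤ m ∧ ((X * (X + 1)) ^ (2 * m)).rank = 2 * j := by
    intro X hX
    have hperp := hP F ι M X (2 * m) hX
    have hfit := hF F ι (X * (X + 1)) (2 * m) (by omega)
    obtain ⟨j, hj⟩ := hE F ι M ((X * (X + 1)) ^ (2 * m)) hM hperp hfit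
    have hle := Matrix.rank_le_card_width ((X * (X + 1)) ^ (2 * m))
    exact ⟨j, by omega, by omega⟩
  exact strata_count_aux (ASet M) (fun X => ((X * (X + 1)) ^ (2 * m)).rank) m hrank

/-- the same for the group: `SumUStmt` from the corresponding `PerpUStmt` (bonus, not asked) -/
theorem sumU_of (hE : EvenStmt.{u}) (hP : PerpUStmt.{u}) (hF : FittStmt.{u}) : SumUStmt.{u} := by
  intro F _ _ ι _ _ M m hM hcard
  have hrank : ∀ g ∈ SpSet M, ∃ j, j ≤ m ∧ ((g - 1) ^ (2 * m)).rank = 2 * j := by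
    intro g hg
    have hperp := hP F ι M g (2 * m) hM.2 hg
    have hfit := hF F ι (g - 1) (2 * m) (by omega)
    obtain ⟨j, hj⟩ := hE F ι M ((g - 1) ^ (2 * m)) hM hperp hfit
    have hle := Matrix.rank_le_card_width ((g - 1) ^ (2 * m))
    exact ⟨j, by omega, by omega⟩
  exact strata_count_aux (SpSet M) (fun g => ((g - 1) ^ (2 * m)).rank) m hrank

example (hE : EvenStmt.{u}) (hP : PerpAStmt.{u}) (hF : FittStmt.{u}) : SumAStmt.{u} :=
  sumA hE hP hF

end Cfsg.Agent.H12.SpU
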