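import Mathlib
import Cfsg.Agent.H12.Supersolvable2
import Cfsg.Agent.H12.PGroup
import Cfsg.Agent.H12.CLT

/-!
# Supersolvable groups, part 3 (helper12): hereditary CLT implies supersolvable
-/

set_option autoImplicit false
open Pointwise

namespace Cfsg.Agent.H12

variable {G : Type*} [Group G]

theorem normal_of_sup_eq_top_of_conj_mem {L A B : Subgroup G} (hsup : A ⊔ B = ⊤)
    (hA : ∀ a ∈ A, ∀ x ∈ L, a * x * a⁻¹ ∈ L) (hB : ∀ b ∈ B, ∀ x ∈ L, b * x * b⁻¹ ∈ L) :
    L.Normal := by
  have key : ∀ C : Subgroup G, (∀ a ∈ C, ∀ x ∈ L, a * x * a⁻¹ ∈ L) →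
      C ≤ Subgroup.normalizer (L : Set G) := by
    intro C hC a ha
    rw [Subgroup.mem_normalizer_iff]
    intro x
    constructor
    · exact hC a ha x
    · intro hx
      have := hC a⁻¹ (C.inv_mem ha) _ hx
      simpa [mul_assoc] using this
  rw [← Subgroup.normalizer_eq_top_iff]
  apply top_le_iff.mp
  rw [← hsup]
  exact sup_le (key A hA) (key B hB)

theorem relIndex_ne_zero_of_finite [Finite G] (H K : Subgroup G) : H.relIndex K ≠ 0 :=
  Subgroup.index_ne_zero_of_finite

/-- If `G = M P` with `P` a normal `p`-subgroup, `M` supersolvable and `|P : M ∩ P| ≤ p`,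
then `G` is supersolvable. -/
theorem isSupersolvable_of_sup_pgroup [Finite G] {p : ℕ} [hp : Fact p.Prime] (P M : Subgroup G)
    (hPn : P.Normal) (hP : IsPGroup p P) (hM : Cfsg.IsSupersolvable M) (hsup : M ⊔ P = ⊤)
    (hidx : (M ⊓ P).relIndex P ≤ p) : Cfsg.IsSupersolvable G := by
  induction hn : Nat.card G using Nat.strong_induction_on generalizing G with
  | _ n ih =>
    by_cases hP0 : P = ⊥
    · subst hP0
      rw [sup_bot_eq] at hsup
      subst hsup
      exact isSupersolvable_of_mulEquiv Subgroup.topEquiv hM
    · obtain ⟨N, hNP', hNmin⟩ := Finite.exists_le_minimal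
        (p := fun N : Subgroup G => N.Normal ∧ N ≠ ⊥ ∧ N ≤ P) ⟨hPn, hP0, le_rfl⟩
      obtain ⟨hNn, hN0, hNP⟩ := hNmin.prop
      have hNp : IsPGroup p N := hP.to_le hNP
      -- Step A: N is central in P
      have hcent : N ≤ Subgroup.centralizer (P : Set G) := by
        have hZn : (N ⊓ Subgroup.centralizer (P : Set G)).Normal :=
          Subgroup.normal_inf_normal _ _
        obtain ⟨x, hxN, hx1, hx⟩ := exists_ne_one_commute_of_isPGroup hP hNp hN0
          Subgroup.le_normalizer_of_normal
        have hZ0 : N ⊓ Subgroup.centralizer (P : Set G) ≠ ⊥ := by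
          intro h0
          have : x ∈ N ⊓ Subgroup.centralizer (P : Set G) := ⟨hxN, fun y hy => hx y hy⟩
          rw [h0, Subgroup.mem_bot] at this
          exact hx1 this
        exact (hNmin.le_of_le ⟨hZn, hZ0, inf_le_left.trans hNP⟩ inf_le_left).trans inf_le_right
      -- Step B: N has prime order
      have hNprime : (Nat.card N).Prime := by
        by_cases hNM : N ⊓ M = ⊥
        · have h1 : (M ⊓ P).relIndex N = Nat.card N := by
            rw [← Subgroup.inf_relIndex_right]
            have : M ⊓ P ⊓ N = ⊥ := by
              apply le_bot_iff.mp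
              rw [← hNM]
              exact le_inf inf_le_right (inf_le_left.trans inf_le_left)
            rw [this, Subgroup.relIndex_bot_left]
          have h2 : (M ⊓ P).relIndex N ≤ (M ⊓ P).relIndex P :=
            Subgroup.relIndex_le_of_le_right hNP (relIndex_ne_zero_of_finite _ _)
          have h3 : Nat.card N ≤ p := by rw [← h1]; exact h2.trans hidx
          have : Nontrivial N := (Subgroup.nontrivial_iff_ne_bot N).mpr hN0
          obtain ⟨k, hk0, hk⟩ := hNp.nontrivial_iff_card.mp this
          have h4 : p ≤ Nat.card N := by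
            rw [hk]; exact Nat.le_self_pow (ne_of_gt hk0) p
          have h5 : Nat.card N = p := le_antisymm h3 h4
          rw [h5]; exact hp.out
        · have hNM' : N.subgroupOf M ≠ ⊥ := by
            intro h0
            rw [Subgroup.subgroupOf_eq_bot] at h0
            exact hNM (disjoint_iff.mp h0)
          have hNMn : (N.subgroupOf M).Normal := hNn.subgroupOf M
          obtain ⟨L', hL'n, hL'N, hL'p⟩ := exists_normal_prime_card_le hM (N.subgroupOf M) hNM'
          have hLN : L'.map M.subtype ≤ N := by
            rintro _ ⟨y, hy, rfl⟩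
            exact hL'N hy
          have hLc : Nat.card (L'.map M.subtype) = Nat.card L' :=
            Subgroup.card_map_of_injective (Subgroup.subtype_injective M)
          have hL0 : L'.map M.subtype ≠ ⊥ := by
            intro h0
            rw [h0, Subgroup.card_bot] at hLc
            rw [← hLc] at hL'p
            exact Nat.not_prime_one hL'p
          have hLn : (L'.map M.subtype).Normal := by
            apply normal_of_sup_eq_top_of_conj_mem hsup
            · rintro a ha _ ⟨y, hy, rfl⟩
              exact ⟨⟨a, ha⟩ * y * ⟨a, ha⟩⁻¹, hL'n.conj_mem y hy ⟨a, ha⟩, rfl⟩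
            · intro b hb x hx
              have h1 : b * x = x * b := hcent (hLN hx) b hb
              have h2 : b * x * b⁻¹ = x := by rw [h1]; group
              rw [h2]; exact hx
          have hNL : N ≤ L'.map M.subtype :=
            hNmin.le_of_le ⟨hLn, hL0, hLN.trans hNP⟩ hLN
          have hNL' : N = L'.map M.subtype := le_antisymm hNL hLN
          rw [hNL', hLc]; exact hL'p
      -- Step C: quotient
      have : Fact (Nat.card N).Prime := ⟨hNprime⟩
      have hNc : IsCyclic N := isCyclic_of_prime_card rfl
      have hlt : Nat.card (G ⧸ N) < n := by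
        rw [← hn]; exact card_quotient_lt_of_ne_bot N hN0
      let π := QuotientGroup.mk' N
      have hπ : Function.Surjective π := QuotientGroup.mk'_surjective N
      have hker : π.ker = N := QuotientGroup.ker_mk' N
      have h1 : (P.map π).Normal := hPn.map π hπ
      have h2 : IsPGroup p (P.map π) := hP.map π
      have h3 : Cfsg.IsSupersolvable (M.map π) :=
        isSupersolvable_of_surjective (π.subgroupMap M) (π.subgroupMap_surjective M) hM
      have h4 : M.map π ⊔ P.map π = ⊤ := by
        rw [← Subgroup.map_sup, hsup, Subgroup.map_top_of_surjective π hπ]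
      have h5 : (M.map π ⊓ P.map π).relIndex (P.map π) ≤ p := by
        calc (M.map π ⊓ P.map π).relIndex (P.map π)
            ≤ ((M ⊓ P).map π).relIndex (P.map π) :=
              Subgroup.relIndex_le_of_le_left (Subgroup.map_inf_le M P π)
                (relIndex_ne_zero_of_finite _ _)
          _ = ((M ⊓ P) ⊔ N).relIndex P := by
              rw [Subgroup.relIndex_map_map, hker, sup_eq_left.mpr hNP]
          _ ≤ (M ⊓ P).relIndex P :=
              Subgroup.relIndex_le_of_le_left le_sup_left (relIndex_ne_zero_of_finite _ _)
          _ ≤ p := hidx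
      have hQ := ih _ hlt (P.map π) (M.map π) h1 h2 h3 h4 h5 rfl
      exact isSupersolvable_of_quotient_cyclic N hQ

/-- A finite group all of whose subgroups satisfy the converse of Lagrange's theorem is
supersolvable. -/
theorem isSupersolvable_of_hclt [Finite G]
    (h : ∀ H : Subgroup G, Cfsg.HasSubgroupOfEveryOrder H) : Cfsg.IsSupersolvable G := by
  induction hn : Nat.card G using Nat.strong_induction_on generalizing G with
  | _ n ih =>
    by_cases hG1 : Subsingleton G
    · exact isSupersolvable_of_subsingleton
    · have hnt : Nontrivial G := not_subsingleton_iff_nontrivial.mp hG1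
      have hcard : 1 < Nat.card G := Finite.one_lt_card
      obtain ⟨p, hp, hpd, hmax⟩ : ∃ p, p.Prime ∧ p ∣ Nat.card G ∧
          ∀ q : ℕ, q.Prime → q ∣ Nat.card G → q ≤ p := by
        have hne : (Nat.card G).primeFactors.Nonempty := Nat.nonempty_primeFactors.mpr hcard
        refine ⟨(Nat.card G).primeFactors.max' hne, ?_, ?_, ?_⟩
        · exact Nat.prime_of_mem_primeFactors (Finset.max'_mem _ hne)
        · exact Nat.dvd_of_mem_primeFactors (Finset.max'_mem _ hne)
        · intro q hq hqd
          exact Finset.le_max' _ q (Nat.mem_primeFactors.mpr ⟨hq, hqd, Nat.card_pos.ne'⟩)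
      have : Fact p.Prime := ⟨hp⟩
      let P : Sylow p G := default
      have hPn : (P : Subgroup G).Normal := sylow_normal_of_hclt h p hpd hmax P
      obtain ⟨M, hMc⟩ := exists_subgroup_card_of_hclt h (Nat.card G / p) (Nat.div_dvd_of_dvd hpd)
      have hGpos : 0 < Nat.card G := Nat.card_pos
      have hMi : M.index = p := by
        have h1 := M.card_mul_index
        rw [hMc] at h1
        have h2 : Nat.card G / p * p = Nat.card G := Nat.div_mul_cancel hpd
        have h3 : 0 < Nat.card G / p := Nat.div_pos (Nat.le_of_dvd hGpos hpd) hp.pos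
        exact Nat.eq_of_mul_eq_mul_left h3 (h1.trans h2.symm)
      have hMlt : Nat.card M < n := by
        rw [← hn, ← M.card_mul_index, hMi]
        have := hp.two_le
        have hMpos : 0 < Nat.card M := Nat.card_pos
        nlinarith
      have hMss : Cfsg.IsSupersolvable M := ih _ hMlt (hclt_subgroup h M) rfl
      have hPM : ¬ (P : Subgroup G) ≤ M := by
        intro hle
        have := Subgroup.index_dvd_of_le hle
        rw [hMi] at this
        exact P.not_dvd_index this
      have hsup : M ⊔ (P : Subgroup G) = ⊤ := by
        have h1 : (M ⊔ (P : Subgroup G)).index ∣ p := by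
          have h0 := Subgroup.index_dvd_of_le (le_sup_left : M ≤ M ⊔ (P : Subgroup G))
          rwa [hMi] at h0
        rcases (Nat.dvd_prime hp).mp h1 with h2 | h2
        · exact Subgroup.index_eq_one.mp h2
        · exfalso
          have h3 := Subgroup.relIndex_mul_index (le_sup_left : M ≤ M ⊔ (P : Subgroup G))
          rw [h2, hMi] at h3
          have h4 : M.relIndex (M ⊔ (P : Subgroup G)) = 1 := by
            have := hp.pos
            nlinarith
          exact hPM (le_sup_right.trans (Subgroup.relIndex_eq_one.mp h4))
      have hidx : (M ⊓ (P : Subgroup G)).relIndex (P : Subgroup G) ≤ p := by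
        rw [Subgroup.inf_relIndex_right]
        calc M.relIndex (P : Subgroup G) ≤ M.relIndex ⊤ :=
              Subgroup.relIndex_le_of_le_right le_top (relIndex_ne_zero_of_finite _ _)
          _ = p := by rw [Subgroup.relIndex_top_right, hMi]
      exact isSupersolvable_of_sup_pgroup (P : Subgroup G) M hPn P.isPGroup' hMss hsup hidx

end Cfsg.Agent.H12
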