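import Cfsg.Agent.H1.MinNormal

/-!
# Products of Sylow subgroups in solvable groups (S0554)
-/

set_option autoImplicit false
open scoped Pointwise

namespace Cfsg.Agent.H12

universe u

/-- Adjusting one factor of an ordered product by an element of a normal subgroup changes the
product by an element of the normal subgroup, and every such change is realised. -/
theorem exists_update_prod {G : Type*} [Group G] (N : Subgroup G) [N.Normal] :
    ∀ (t : ℕ) (s : Fin t → G) (j : Fin t) (n : G), n ∈ N →
      ∃ m ∈ N, (List.ofFn (Function.update s j (s j * m))).prod = (List.ofFn s).prod * n := by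
  intro t
  induction t with
  | zero => intro s j; exact j.elim0
  | succ t ih =>
    intro s j n hn
    rcases Fin.eq_zero_or_eq_succ j with rfl | ⟨k, rfl⟩
    · refine ⟨(List.ofFn fun i => s (Fin.succ i)).prod * n *
          ((List.ofFn fun i => s (Fin.succ i)).prod)⁻¹,
        Subgroup.Normal.conj_mem inferInstance n hn _, ?_⟩
      rw [List.ofFn_succ, List.ofFn_succ, List.prod_cons, List.prod_cons]
      have h1 : (fun i : Fin t => Function.update s 0 (s 0 * ((List.ofFn fun i => s (Fin.succ i)).prod * n *
          ((List.ofFn fun i => s (Fin.succ i)).prod)⁻¹)) (Fin.succ i)) = fun i => s (Fin.succ i) := by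
        funext i
        rw [Function.update_of_ne (Fin.succ_ne_zero i)]
      rw [h1, Function.update_self]
      group
    · obtain ⟨m, hm, hprod⟩ := ih (fun i => s (Fin.succ i)) k n hn
      refine ⟨m, hm, ?_⟩
      rw [List.ofFn_succ, List.ofFn_succ, List.prod_cons, List.prod_cons]
      have h1 : (fun i : Fin t => Function.update s (Fin.succ k) (s (Fin.succ k) * m) (Fin.succ i)) =
          Function.update (fun i => s (Fin.succ i)) k (s (Fin.succ k) * m) := by
        funext i
        by_cases hik : i = k
        · subst hik
          rw [Function.update_self, Function.update_self]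
        · rw [Function.update_of_ne hik, Function.update_of_ne (fun h => hik (Fin.succ_injective _ h))]
      rw [h1, hprod, Function.update_of_ne (Fin.succ_ne_zero k).symm, mul_assoc]

/-- A normal `p`-subgroup is contained in every Sylow `p`-subgroup. -/
theorem normal_pgroup_le_sylow {G : Type*} [Group G] [Finite G] {p : ℕ} [Fact p.Prime]
    (N : Subgroup G) [N.Normal] (hN : IsPGroup p N) (S : Sylow p G) : N ≤ S := by
  obtain ⟨Q, hQ⟩ := hN.exists_le_sylow
  obtain ⟨g, rfl⟩ := MulAction.exists_smul_eq G Q S
  rw [Sylow.coe_subgroup_smul]
  have h1 : (MulAut.conj g) • N = N := Subgroup.Normal.conj_smul_eq_self g N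
  rw [← h1]
  exact Subgroup.pointwise_smul_le_pointwise_smul_iff.mpr hQ

/-- In a finite solvable group, every element is an ordered product of elements of given Sylow
subgroups, one for each prime of a list covering the prime divisors of the order. -/
theorem solvable_prod_sylows_aux : ∀ (c : ℕ) (G : Type u) [Group G] [Finite G] [Group.IsSolvable G],
    Nat.card G = c → ∀ (t : ℕ) (p : Fin t → ℕ) (_ : ∀ i, (p i).Prime)
    (_ : ∀ q : ℕ, q.Prime → q ∣ Nat.card G → ∃ i, p i = q) (S : (i : Fin t) → Sylow (p i) G),
    ∀ g : G, ∃ s : (i : Fin t) → G, (∀ i, s i ∈ (S i : Subgroup G)) ∧ g = (List.ofFn s).prod := by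
  intro c
  induction c using Nat.strong_induction_on with
  | _ c ih =>
    intro G _ _ _ hc t p hp hall S g
    by_cases htriv : Subsingleton G
    · refine ⟨fun _ => 1, fun i => Subgroup.one_mem _, ?_⟩
      exact Subsingleton.elim _ _
    · rw [not_subsingleton_iff_nontrivial] at htriv
      obtain ⟨q, N, hq, hNn, hNb, hNp⟩ := H1.exists_normal_pgroup (G := G)
      have hqd : q ∣ Nat.card G := by
        have h1 : Nat.card N ≠ 1 := fun h => hNb (Subgroup.card_eq_one.mp h)
        have : Fact q.Prime := ⟨hq⟩
        obtain ⟨k, hk⟩ := IsPGroup.iff_card.mp hNp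
        have h2 : q ∣ Nat.card N := by
          rw [hk]
          rcases Nat.eq_zero_or_pos k with rfl | hk0
          · rw [hk, pow_zero] at h1; exact absurd rfl h1
          · exact dvd_pow_self q hk0.ne'
        exact h2.trans (Subgroup.card_subgroup_dvd_card N)
      obtain ⟨j, hj⟩ := hall q hq hqd
      have hNS : N ≤ (S j : Subgroup G) := by
        have : Fact (p j).Prime := ⟨hp j⟩
        exact normal_pgroup_le_sylow N (by rw [hj]; exact hNp) (S j)
      have hsurj : Function.Surjective (QuotientGroup.mk' N) := QuotientGroup.mk'_surjective N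
      have hcard : Nat.card (G ⧸ N) < c := by
        rw [← hc]
        have h1 : Nat.card N ≠ 1 := fun h => hNb (Subgroup.card_eq_one.mp h)
        have h2 := Subgroup.card_eq_card_quotient_mul_card_subgroup N
        have h3 : 0 < Nat.card (G ⧸ N) := Nat.card_pos
        have h4 : 0 < Nat.card N := Nat.card_pos
        have h5 : 2 ≤ Nat.card N := by omega
        nlinarith
      have hall' : ∀ r : ℕ, r.Prime → r ∣ Nat.card (G ⧸ N) → ∃ i, p i = r := by
        intro r hr hrd
        refine hall r hr (hrd.trans ?_)
        rw [Subgroup.card_eq_card_quotient_mul_card_subgroup N]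
        exact dvd_mul_right _ _
      let S' : (i : Fin t) → Sylow (p i) (G ⧸ N) := fun i =>
        haveI : Fact (p i).Prime := ⟨hp i⟩
        (S i).mapSurjective hsurj
      obtain ⟨sb, hsb, hprod⟩ := ih (Nat.card (G ⧸ N)) hcard (G ⧸ N) rfl t p hp hall' S'
        (QuotientGroup.mk' N g)
      have hlift : ∀ i, ∃ x : G, x ∈ (S i : Subgroup G) ∧ QuotientGroup.mk' N x = sb i := by
        intro i
        have : Fact (p i).Prime := ⟨hp i⟩
        have h1 : sb i ∈ ((S' i : Sylow (p i) (G ⧸ N)) : Subgroup (G ⧸ N)) := hsb i
        have h2 : ((S' i : Sylow (p i) (G ⧸ N)) : Subgroup (G ⧸ N)) =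
            (S i : Subgroup G).map (QuotientGroup.mk' N) := Sylow.coe_mapSurjective hsurj (S i)
        rw [h2] at h1
        obtain ⟨x, hx, hxe⟩ := h1
        exact ⟨x, hx, hxe⟩
      choose s hs hse using hlift
      have hmem : ((List.ofFn s).prod)⁻¹ * g ∈ N := by
        rw [← QuotientGroup.eq]
        have h1 : QuotientGroup.mk' N ((List.ofFn s).prod) = (List.ofFn sb).prod := by
          rw [map_list_prod, List.map_ofFn]
          congr 1
          congr 1
          funext i
          exact hse i
        have h2 : QuotientGroup.mk' N ((List.ofFn s).prod) = QuotientGroup.mk' N g := by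
          rw [h1, hprod]
        exact h2
      obtain ⟨m, hm, hfin⟩ := exists_update_prod N t s j _ hmem
      refine ⟨Function.update s j (s j * m), ?_, ?_⟩
      · intro i
        by_cases hij : i = j
        · subst hij
          rw [Function.update_self]
          exact Subgroup.mul_mem _ (hs i) (hNS hm)
        · rw [Function.update_of_ne hij]
          exact hs i
      · rw [hfin]
        group

end Cfsg.Agent.H12
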