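import Cfsg.Agent.H42.UnDefs

/-!
# S5954 piece UN-FIX (for helper42)

`uFix : StUFix`: the fixed space of an invariant nondegenerate subspace is invariant and
nondegenerate (port of helper77's `H77/SpdFix.lean` to hermitian forms).
-/

set_option autoImplicit false

namespace Cfsg.Agent.H12.Un

open Cfsg.Agent.H45 Cfsg.Agent.H42.Spd Cfsg.Agent.H42.Un Module

universe u v

theorem uFix : StUFix.{u, v} := by
  intro F _ _ σ V _ _ _ r B T hc W hW
  obtain ⟨hWinv, hWnd⟩ := hW
  have hTW : ∀ x ∈ W, T x ∈ W :=
    (Module.End.mem_invtSubmodule_iff_forall_mem_of_mem (f := T)).mp hWinv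
  have hker : ∀ x, x ∈ LinearMap.ker (T - 1) ↔ T x = x := by
    intro x
    rw [LinearMap.mem_ker, LinearMap.sub_apply, Module.End.one_apply, sub_eq_zero]
  have hisom : ∀ (i : ℕ) (x y : V), B ((T ^ i) x) ((T ^ i) y) = B x y := by
    intro i
    induction i with
    | zero => intro x y; simp
    | succ i ih =>
      intro x y
      rw [pow_succ', Module.End.mul_apply, Module.End.mul_apply, hc.iso.isom, ih]
  refine ⟨?_, ?_⟩
  · rw [Module.End.mem_invtSubmodule]
    rintro x ⟨hx1, hx2⟩
    have hx3 : T x = x := (hker x).mp hx2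
    refine ⟨hTW x hx1, ?_⟩
    show T x ∈ LinearMap.ker (T - 1)
    rw [hker, hx3, hx3]
  · rw [eq_bot_iff]
    rintro v ⟨⟨hvW, hvK⟩, hvperp⟩
    rw [Submodule.mem_bot]
    have hTv : T v = v := (hker v).mp hvK
    have hpv : ∀ i : ℕ, (T ^ i) v = v := by
      intro i
      induction i with
      | zero => simp
      | succ i ih => rw [pow_succ, Module.End.mul_apply, hTv, ih]
    have hpW : ∀ (i : ℕ) (w : V), w ∈ W → (T ^ i) w ∈ W := by
      intro i
      induction i with
      | zero =>
        intro w hw
        simpa using hw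
      | succ i ih =>
        intro w hw
        rw [pow_succ', Module.End.mul_apply]
        exact hTW _ (ih w hw)
    have key : v ∈ W ⊓ perp B W := by
      refine ⟨hvW, fun w hw => ?_⟩
      have hN1 : (∑ i ∈ Finset.range r, (T ^ i) w) ∈ W :=
        Submodule.sum_mem _ (fun i _ => hpW i w hw)
      have hN2 : T (∑ i ∈ Finset.range r, (T ^ i) w) = ∑ i ∈ Finset.range r, (T ^ i) w := by
        rw [map_sum]
        have e1 : ∀ i ∈ Finset.range r, T ((T ^ i) w) = (T ^ (i + 1)) w := by
          intro i _
          rw [pow_succ', Module.End.mul_apply]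
        rw [Finset.sum_congr rfl e1]
        have e2 := Finset.sum_range_succ (fun i => (T ^ i) w) r
        have e3 := Finset.sum_range_succ' (fun i => (T ^ i) w) r
        rw [e2] at e3
        simp only [hc.pow, pow_zero, Module.End.one_apply] at e3
        exact (add_right_cancel e3).symm
      have hN : B (∑ i ∈ Finset.range r, (T ^ i) w) v = 0 :=
        hvperp _ ⟨hN1, (hker _).mpr hN2⟩
      have hsum : B (∑ i ∈ Finset.range r, (T ^ i) w) v = (r : F) * B w v := by
        rw [map_sum, LinearMap.sum_apply]
        have e1 : ∀ i ∈ Finset.range r, B ((T ^ i) w) v = B w v := by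
          intro i _
          have h := hisom i w v
          rw [hpv i] at h
          exact h
        rw [Finset.sum_congr rfl e1, Finset.sum_const, Finset.card_range, nsmul_eq_mul]
      rw [hsum] at hN
      exact (mul_eq_zero.mp hN).resolve_left hc.cast_ne
    rw [hWnd, Submodule.mem_bot] at key
    exact key

example : StUFix.{u, v} := uFix

end Cfsg.Agent.H12.Un
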