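import Cfsg.Agent.H42.UnDefs

/-!
# S5954 piece UN-INVEVEN (for helper42)

`uInvEven : StUInvEven`: if `T * T = ν ^ 2` with `ν * σ ν = -1`, then every `T`-invariant
nondegenerate subspace `W` is the direct sum of the totally isotropic subspaces
`W ⊓ ker (T - ν)` and `W ⊓ ker (T + ν)`, which are paired nondegenerately, hence have the same
dimension (counting over the finite field), so `finrank W` is even.
-/

set_option autoImplicit false

namespace Cfsg.Agent.H12.Un

open Cfsg.Agent.H45 Cfsg.Agent.H42.Spd Cfsg.Agent.H42.Un Module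

universe u v

section
variable {F : Type u} [Field F] {σ : F →+* F} {V : Type v} [AddCommGroup V] [Module F V]

/-- If `W ≤ P ⊔ Q`, `P ≤ W` is totally isotropic and `W` is nondegenerate, then
`finrank P ≤ finrank Q` (finite field; `P` embeds into the dual of `Q`). -/
theorem finrank_le_of_pairing [Finite F] [FiniteDimensional F V] (B : V →ₗ[F] V →ₛₗ[σ] F)
    (W P Q : Submodule F V) (hPW : P ≤ W) (hW : W ≤ P ⊔ Q)
    (hiso : ∀ x ∈ P, ∀ y ∈ P, B y x = 0) (hnd : W ⊓ perp B W = ⊥) :
    Module.finrank F P ≤ Module.finrank F Q := by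
  classical
  let f : P → Module.Dual F Q := fun x => (B.flip (x : V)).comp Q.subtype
  have hf : Function.Injective f := by
    intro x x' hxx
    have hd : ((x : V) - (x' : V)) ∈ W ⊓ perp B W := by
      refine Submodule.mem_inf.mpr ⟨hPW (P.sub_mem x.2 x'.2), (mem_perp B W _).mpr ?_⟩
      intro w hw
      obtain ⟨p, hp, q, hq, rfl⟩ := Submodule.mem_sup.mp (hW hw)
      have h1 : B p ((x : V) - x') = 0 := hiso _ (P.sub_mem x.2 x'.2) p hp
      have h2 : B q ((x : V) - x') = 0 := by
        have h := congrArg (fun φ : Module.Dual F Q => φ ⟨q, hq⟩) hxx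
        simp only [f, LinearMap.comp_apply, Submodule.subtype_apply, LinearMap.flip_apply] at h
        rw [map_sub, h, sub_self]
      rw [map_add, LinearMap.add_apply, h1, h2, add_zero]
    rw [hnd] at hd
    exact Subtype.ext (sub_eq_zero.mp ((Submodule.mem_bot F).mp hd))
  have : Finite (Module.Dual F Q) := Module.finite_of_finite F
  have hcard := Nat.card_le_card_of_injective f hf
  rw [Module.natCard_eq_pow_finrank (K := F) (V := P),
    Module.natCard_eq_pow_finrank (K := F) (V := Module.Dual F Q),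
    Subspace.dual_finrank_eq] at hcard
  exact (Nat.pow_le_pow_iff_right Finite.one_lt_card).mp hcard

end

theorem uInvEven : StUInvEven.{u, v} := by
  intro F _ _ σ V _ _ _ B T hT h2 ν hν hTT W hW
  obtain ⟨hWinv, hWnd⟩ := hW
  have hν0 : ν ≠ 0 := by
    rintro rfl
    simp at hν
  have h2ν : (2 * ν : F) ≠ 0 := mul_ne_zero h2 hν0
  have hTmem : ∀ w ∈ W, T w ∈ W := fun w hw => hWinv hw
  have hTTapp : ∀ w : V, T (T w) = (ν * ν) • w := by
    intro w
    have h := congrArg (fun f : Module.End F V => f w) hTT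
    simpa using h
  have hisoc : ∀ c : F, c * σ c = -1 → ∀ x y : V, T x = c • x → T y = c • y → B y x = 0 := by
    intro c hc x y hx hy
    have h1 : B y x = - B y x := by
      calc B y x = B (T y) (T x) := (hT.isom y x).symm
        _ = (c * σ c) * B y x := by
            rw [hx, hy, LinearMap.map_smulₛₗ (B (c • y)) c x, LinearMap.map_smul B c y,
              LinearMap.smul_apply, smul_eq_mul, smul_eq_mul]
            ring
        _ = - B y x := by rw [hc]; ring
    have h3 : (2 : F) * B y x = 0 := by linear_combination h1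
    exact (mul_eq_zero.mp h3).resolve_left h2
  obtain ⟨P, hP⟩ : ∃ P : Submodule F V,
      P = W ⊓ LinearMap.ker (T - ν • (1 : Module.End F V)) := ⟨_, rfl⟩
  obtain ⟨Q, hQ⟩ : ∃ Q : Submodule F V,
      Q = W ⊓ LinearMap.ker (T + ν • (1 : Module.End F V)) := ⟨_, rfl⟩
  have hmemP : ∀ x, x ∈ P ↔ x ∈ W ∧ T x = ν • x := by
    intro x
    rw [hP, Submodule.mem_inf, LinearMap.mem_ker, LinearMap.sub_apply, LinearMap.smul_apply,
      Module.End.one_apply, sub_eq_zero]
  have hmemQ : ∀ x, x ∈ Q ↔ x ∈ W ∧ T x = (-ν) • x := by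
    intro x
    rw [hQ, Submodule.mem_inf, LinearMap.mem_ker, LinearMap.add_apply, LinearMap.smul_apply,
      Module.End.one_apply, neg_smul, add_eq_zero_iff_eq_neg]
  have hsup : W ≤ P ⊔ Q := by
    intro w hw
    rw [Submodule.mem_sup]
    refine ⟨(2 * ν)⁻¹ • (T w + ν • w), ?_, (2 * ν)⁻¹ • (ν • w - T w), ?_, ?_⟩
    · rw [hmemP]
      refine ⟨W.smul_mem _ (W.add_mem (hTmem w hw) (W.smul_mem _ hw)), ?_⟩
      rw [map_smul, map_add, map_smul, hTTapp]
      module
    · rw [hmemQ]
      refine ⟨W.smul_mem _ (W.sub_mem (W.smul_mem _ hw) (hTmem w hw)), ?_⟩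
      rw [map_smul, map_sub, map_smul, hTTapp]
      module
    · rw [← smul_add]
      have e : T w + ν • w + (ν • w - T w) = (2 * ν) • w := by module
      rw [e, smul_smul, inv_mul_cancel₀ h2ν, one_smul]
  have hPQ : P ⊓ Q = ⊥ := by
    rw [eq_bot_iff]
    intro x hx
    obtain ⟨hxP, hxQ⟩ := hx
    have e1 := ((hmemP x).mp hxP).2
    have e2 := ((hmemQ x).mp hxQ).2
    have h3 : (2 * ν) • x = 0 := by
      have e3 : ν • x = (-ν) • x := e1.symm.trans e2
      calc (2 * ν) • x = ν • x - (-ν) • x := by module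
        _ = 0 := by rw [e3, sub_self]
    exact (Submodule.mem_bot F).mpr ((smul_eq_zero.mp h3).resolve_left h2ν)
  have hPW : P ≤ W := by rw [hP]; exact inf_le_left
  have hQW : Q ≤ W := by rw [hQ]; exact inf_le_left
  have hsupeq : P ⊔ Q = W := le_antisymm (sup_le hPW hQW) hsup
  have hPiso : ∀ x ∈ P, ∀ y ∈ P, B y x = 0 := fun x hx y hy =>
    hisoc ν hν x y ((hmemP x).mp hx).2 ((hmemP y).mp hy).2
  have hν' : (-ν) * σ (-ν) = -1 := by
    rw [map_neg]
    linear_combination hν
  have hQiso : ∀ x ∈ Q, ∀ y ∈ Q, B y x = 0 := fun x hx y hy =>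
    hisoc (-ν) hν' x y ((hmemQ x).mp hx).2 ((hmemQ y).mp hy).2
  have h1 := finrank_le_of_pairing B W P Q hPW hsup hPiso hWnd
  have h2' := finrank_le_of_pairing B W Q P hQW (by rw [sup_comm]; exact hsup) hQiso hWnd
  have h3 := Submodule.finrank_sup_add_finrank_inf_eq P Q
  rw [hsupeq, hPQ, finrank_bot, add_zero] at h3
  exact ⟨Module.finrank F P, by omega⟩

example : StUInvEven.{u, v} := uInvEven

end Cfsg.Agent.H12.Un
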