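import Cfsg.Agent.H42.UnDefs

/-!
# S5954 piece UN-REL (for helper42)

`uBlockRel (h : StUBlock) : StUBlockRel`: the block statement inside an invariant nondegenerate
subspace `W` (port of helper67's `H67/SpdRel.lean` to hermitian forms): restrict `B` and `T`
to `W`.
-/

set_option autoImplicit false

namespace Cfsg.Agent.H12.Un

open Cfsg.Agent.H45 Cfsg.Agent.H42.Spd Cfsg.Agent.H42.Un Module

universe u v

theorem restrict_pow_coe_aux {F : Type u} [Field F] {V : Type v} [AddCommGroup V] [Module F V]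
    (T : Module.End F V) (W : Submodule F V) (hinv : W ∈ T.invtSubmodule) (k : ℕ) (x : W) :
    ((((T.restrict hinv) ^ k) x : W) : V) = (T ^ k) (x : V) := by
  induction k generalizing x with
  | zero => simp
  | succ k ih =>
    rw [pow_succ, Module.End.mul_apply, ih, pow_succ, Module.End.mul_apply]
    rfl

theorem uBlockRel (h : StUBlock.{u, v}) : StUBlockRel.{u, v} := by
  intro F _ _ q σ V _ _ _ r B T hcard hσ hctx W hW hker hWne
  have hT := hctx.iso
  have hinv : W ∈ T.invtSubmodule := hW.1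
  have hiso' : UIso (B.domRestrict₁₂ W W) (T.restrict hinv) := by
    refine ⟨hT.invol, hT.nontriv, fun x y => hT.herm x y, ?_, fun x y => hT.isom x y⟩
    intro x hx
    have h1 : (x : V) ∈ W ⊓ perp B W := by
      refine ⟨x.2, fun u hu => ?_⟩
      have h2 : B (x : V) u = 0 := hx ⟨u, hu⟩
      rw [hT.herm (x : V) u, h2, map_zero]
    rw [hW.2] at h1
    exact Subtype.ext ((Submodule.mem_bot F).mp h1)
  have hpow : (T.restrict hinv) ^ r = 1 := by
    refine LinearMap.ext fun x => Subtype.ext ?_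
    rw [restrict_pow_coe_aux, hctx.pow]
    rfl
  have hctx' : UCtx r (B.domRestrict₁₂ W W) (T.restrict hinv) :=
    ⟨hctx.prime, hctx.ne_two, hctx.cast_ne, hiso', hctx.ss.restrict _, hpow⟩
  have hker' : LinearMap.ker (T.restrict hinv - 1) = ⊥ := by
    rw [LinearMap.ker_eq_bot']
    intro x hx
    have h1 : (x : V) ∈ W ⊓ LinearMap.ker (T - 1) := by
      refine ⟨x.2, ?_⟩
      show (x : V) ∈ LinearMap.ker (T - 1)
      rw [LinearMap.mem_ker]
      have h2 := congrArg Subtype.val hx
      exact h2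
    rw [hker] at h1
    exact Subtype.ext ((Submodule.mem_bot F).mp h1)
  have htop : (⊤ : Submodule F W) ≠ ⊥ := by
    intro htb
    apply hWne
    rw [eq_bot_iff]
    intro w hw
    have h1 : (⟨w, hw⟩ : W) ∈ (⊤ : Submodule F W) := trivial
    rw [htb] at h1
    exact congrArg Subtype.val ((Submodule.mem_bot F).mp h1)
  obtain ⟨U', hU', hfr⟩ := h F q σ W r (B.domRestrict₁₂ W W) (T.restrict hinv) hcard hσ hctx'
    hker' htop
  refine ⟨U'.map W.subtype, Submodule.map_subtype_le W U', ⟨?_, ?_⟩, ?_⟩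
  · rw [Module.End.mem_invtSubmodule]
    rintro x ⟨u, hu, rfl⟩
    rw [Submodule.mem_comap]
    have h1 := (Module.End.mem_invtSubmodule _).mp hU'.1 hu
    rw [Submodule.mem_comap] at h1
    exact ⟨(T.restrict hinv) u, h1, rfl⟩
  · rw [eq_bot_iff]
    rintro x ⟨⟨u, hu, rfl⟩, hx2⟩
    have h1 : u ∈ U' ⊓ perp (B.domRestrict₁₂ W W) U' := by
      refine ⟨hu, fun u' hu' => ?_⟩
      exact hx2 (u' : V) ⟨u', hu', rfl⟩
    rw [hU'.2] at h1
    rw [(Submodule.mem_bot F).mp h1]
    simp
  · rw [← hfr]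
    exact (Submodule.equivSubtypeMap W U').symm.finrank_eq

example : StUBlock.{u, v} → StUBlockRel.{u, v} := uBlockRel

end Cfsg.Agent.H12.Un
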