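import Mathlib
import Cfsg.Agent.H58.KUDefs
import Cfsg.Agent.S1418

/-!
# Sub-project Z of S1353 / S1354 (helper58): piece Z-NORM — `E ≤ N_G(A₀)`.
-/

set_option autoImplicit false

namespace Cfsg.Agent.H12.KU

open Cfsg Subgroup Cfsg.Agent.H76.NCKill Cfsg.Agent.H58.KU

universe u

section

variable {G : Type u} [Group G]

/-- `M` normalizes `M_σ`. -/
theorem le_normalizer_sigmaCore_z (M : Subgroup G) : M ≤ normalizer (sigmaCore M : Set G) := by
  have hle : sigmaCore M ≤ M := Subgroup.map_subtype_le _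
  rw [← Subgroup.normal_subgroupOf_iff_le_normalizer hle]
  have h1 : (sigmaCore M).subgroupOf M = piCore (sigma M) M :=
    Subgroup.comap_map_eq_self_of_injective M.subtype_injective _
  rw [h1]
  exact piCore_normal _ _

/-- the normalizer of `S` normalizes the centralizer of `S` -/
theorem conj_mem_centralizer_iff {S : Subgroup G} {e : G} (he : e ∈ normalizer (S : Set G))
    (h : G) : h ∈ centralizer (S : Set G) ↔ e * h * e⁻¹ ∈ centralizer (S : Set G) := by
  constructor
  · intro hh
    rw [mem_centralizer_iff] at hh ⊢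
    intro s hs
    have hs' : e⁻¹ * s * e ∈ S := (mem_normalizer_iff''.mp he s).mp hs
    have h1 := hh _ hs'
    calc s * (e * h * e⁻¹) = e * ((e⁻¹ * s * e) * h) * e⁻¹ := by group
      _ = e * (h * (e⁻¹ * s * e)) * e⁻¹ := by rw [h1]
      _ = e * h * e⁻¹ * s := by group
  · intro hh
    rw [mem_centralizer_iff] at hh ⊢
    intro s hs
    have hs' : e * s * e⁻¹ ∈ S := (mem_normalizer_iff.mp he s).mp hs
    have h1 := hh _ hs'
    calc s * h = e⁻¹ * ((e * s * e⁻¹) * (e * h * e⁻¹)) * e := by group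
      _ = e⁻¹ * ((e * h * e⁻¹) * (e * s * e⁻¹)) * e := by rw [h1]
      _ = h * s := by group

/-- (Z-NORM) -/
theorem zNorm [Finite G] : StZNorm G := by
  intro hG M E A P r p _ h
  have h18 := Cfsg.Agent.S1418.result hG M h.coatom E h.compl r h.tau2 A ⟨h.AE, h.Ael, h.Acard⟩
  have hEA : E ≤ normalizer (A : Set G) := h18.1.1
  have hEM : E ≤ M := h.compl.1
  intro e he
  rw [mem_normalizer_iff]
  intro x
  have h1 := mem_normalizer_iff.mp (hEA he) x
  have h2 := conj_mem_centralizer_iff (le_normalizer_sigmaCore_z M (hEM he)) x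
  show x ∈ A ⊓ centralizer (sigmaCore M : Set G) ↔
    e * x * e⁻¹ ∈ A ⊓ centralizer (sigmaCore M : Set G)
  rw [mem_inf, mem_inf]
  exact and_congr h1 h2

end

example {G : Type u} [Group G] [Finite G] : StZNorm G =
    (IsMinSimpleOddOrder G → ∀ (M E A P : Subgroup G) (r p : ℕ) [Fact r.Prime],
    NC0 M E A P r p → E ≤ normalizer ((A0 M A : Subgroup G) : Set G)) :=
  rfl

end Cfsg.Agent.H12.KU
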